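import Mathlib

/-!
# Two primes in `(n/2, n]` for `n ≥ 11`
-/

set_option autoImplicit false

namespace Cfsg.Agent.Lib.Cl.TwoPrimes

open Nat

/-- The part of the central binomial below `2n/3`. -/
theorem prod_small_le (n : ℕ) (n_pos : 0 < n) :
    ∏ p ∈ Finset.range (2 * n / 3 + 1), p ^ (centralBinom n).factorization p
      ≤ (2 * n) ^ sqrt (2 * n) * 4 ^ (2 * n / 3) := by
  have n2_pos : 1 ≤ 2 * n := mul_pos (zero_lt_two' ℕ) n_pos
  let S := {p ∈ Finset.range (2 * n / 3 + 1) | Nat.Prime p}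
  let f x := x ^ n.centralBinom.factorization x
  have : ∏ x ∈ S, f x = ∏ x ∈ Finset.range (2 * n / 3 + 1), f x := by
    refine Finset.prod_filter_of_ne fun p _ h => ?_
    contrapose h; dsimp only [f]
    rw [factorization_eq_zero_of_not_prime n.centralBinom h, _root_.pow_zero]
  show ∏ x ∈ Finset.range (2 * n / 3 + 1), f x ≤ _
  rw [← this, ← Finset.prod_filter_mul_prod_filter_not S (· ≤ sqrt (2 * n))]
  apply mul_le_mul'
  · refine (Finset.prod_le_prod' fun p _ => (?_ : f p ≤ 2 * n)).trans ?_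
    · exact pow_factorization_choose_le (mul_pos two_pos n_pos)
    have : (Finset.Icc 1 (sqrt (2 * n))).card = sqrt (2 * n) := by rw [card_Icc, Nat.add_sub_cancel]
    rw [Finset.prod_const]
    refine pow_right_mono₀ n2_pos ((Finset.card_le_card fun x hx => ?_).trans this.le)
    obtain ⟨h1, h2⟩ := Finset.mem_filter.1 hx
    exact Finset.mem_Icc.mpr ⟨(Finset.mem_filter.1 h1).2.one_lt.le, h2⟩
  · refine le_trans ?_ (primorial_le_four_pow (2 * n / 3))
    refine (Finset.prod_le_prod' fun p hp => (?_ : f p ≤ p)).trans ?_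
    · obtain ⟨h1, h2⟩ := Finset.mem_filter.1 hp
      refine (pow_right_mono₀ (Finset.mem_filter.1 h1).2.one_lt.le ?_).trans (pow_one p).le
      exact Nat.factorization_choose_le_one (sqrt_lt'.mp <| not_le.1 h2)
    refine Finset.prod_le_prod_of_subset_of_one_le' (Finset.filter_subset _ _) ?_
    exact fun p hp _ => (Finset.mem_filter.1 hp).2.one_lt.le

/-- With at most one large prime. -/
theorem centralBinom_le_of_one_prime (n p₀ : ℕ) (n_large : 2 < n)
    (no_prime : ∀ p : ℕ, p.Prime → n < p → p ≠ p₀ → 2 * n < p) (hp₀ : n < p₀) (hle : p₀ ≤ 2 * n) :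
    centralBinom n ≤ (2 * n) * ((2 * n) ^ sqrt (2 * n) * 4 ^ (2 * n / 3)) := by
  have n_pos : 0 < n := (Nat.zero_le _).trans_lt n_large
  have h0 : p₀ ∉ Finset.range (2 * n / 3 + 1) := by
    rw [Finset.mem_range]
    omega
  have h1 : centralBinom n = p₀ ^ (centralBinom n).factorization p₀ *
      ∏ p ∈ Finset.range (2 * n / 3 + 1), p ^ (centralBinom n).factorization p := by
    rw [← Finset.prod_insert (f := fun p => p ^ (centralBinom n).factorization p) h0]
    refine (Eq.trans ?_ n.prod_pow_factorization_centralBinom).symm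
    apply Finset.prod_subset
    · intro x hx
      rw [Finset.mem_insert, Finset.mem_range] at hx
      rw [Finset.mem_range]
      rcases hx with rfl | hx
      · omega
      · omega
    · intro x hx h2x
      rw [Finset.mem_insert, not_or, Finset.mem_range, not_lt, add_one_le_iff] at h2x
      rw [Finset.mem_range, Nat.lt_succ_iff] at hx
      obtain ⟨h3, h4⟩ := h2x
      rw [div_lt_iff_lt_mul three_pos, mul_comm x] at h4
      by_cases hxp : x.Prime
      · by_cases hxn : x ≤ n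
        · rw [factorization_centralBinom_of_two_mul_self_lt_three_mul n_large hxn h4, Nat.pow_zero]
        · have := no_prime x hxp (by omega) h3
          omega
      · rw [factorization_eq_zero_of_not_prime n.centralBinom hxp, Nat.pow_zero]
  rw [h1]
  exact Nat.mul_le_mul (pow_factorization_choose_le (mul_pos two_pos n_pos)) (prod_small_le n n_pos)

theorem aux_pow (k : ℕ) (hk : 14 ≤ k) : 36 * (k * k) ≤ 2 ^ (k - 1) := by
  induction k, hk using Nat.le_induction with
  | base => norm_num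
  | succ k hk ih =>
    have h1 : k + 1 - 1 = (k - 1) + 1 := by omega
    rw [h1, pow_succ]
    nlinarith

/-- The inequality for large `n`, in `ℕ`. -/
theorem main_ineq (n : ℕ) (hn : 4096 ≤ n) :
    n * ((2 * n) * ((2 * n) ^ sqrt (2 * n) * 4 ^ (2 * n / 3))) ≤ 4 ^ n := by
  set s := sqrt (2 * n) with hs
  set k := Nat.log 2 (2 * n) + 1 with hk
  have h1 : 2 * n < 2 ^ k := Nat.lt_pow_succ_log_self (by norm_num) _
  have h2 : 2 ^ (k - 1) ≤ 2 * n := Nat.pow_log_le_self 2 (by omega)
  have hk14 : 14 ≤ k := by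
    have h3 : 13 ≤ Nat.log 2 (2 * n) := by
      apply Nat.le_log_of_pow_le (by norm_num)
      omega
    omega
  have h3 := aux_pow k hk14
  have h4 : 6 * k ≤ s := by
    rw [hs, Nat.le_sqrt]
    nlinarith
  have h5 : s * s ≤ 2 * n := Nat.sqrt_le _
  have h6 : 3 * (k * (s + 2)) ≤ 2 * n := by
    have h7 : 2 ≤ s := by omega
    have h8 : s + 2 ≤ 2 * s := by omega
    calc 3 * (k * (s + 2)) ≤ 3 * (k * (2 * s)) := by
          exact Nat.mul_le_mul_left _ (Nat.mul_le_mul_left _ h8)
      _ = (6 * k) * s := by ring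
      _ ≤ s * s := Nat.mul_le_mul_right _ h4
      _ ≤ 2 * n := h5
  have h9 : n * ((2 * n) * ((2 * n) ^ s * 4 ^ (2 * n / 3))) ≤ (2 * n) ^ (s + 2) * 4 ^ (2 * n / 3) := by
    have : (2 * n) ^ (s + 2) = (2 * n) * ((2 * n) * (2 * n) ^ s) := by ring
    rw [this]
    calc n * ((2 * n) * ((2 * n) ^ s * 4 ^ (2 * n / 3)))
        = n * ((2 * n) * (2 * n) ^ s) * 4 ^ (2 * n / 3) := by ring
      _ ≤ (2 * n) * ((2 * n) * (2 * n) ^ s) * 4 ^ (2 * n / 3) := by
          apply Nat.mul_le_mul_right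
          apply Nat.mul_le_mul_right
          omega
  refine h9.trans ?_
  have h10 : (2 * n) ^ (s + 2) ≤ (2 ^ k) ^ (s + 2) := Nat.pow_le_pow_left h1.le _
  have h11 : (4 : ℕ) ^ (2 * n / 3) = 2 ^ (2 * (2 * n / 3)) := by
    rw [pow_mul]; norm_num
  have h12 : (4 : ℕ) ^ n = 2 ^ (2 * n) := by
    rw [pow_mul]; norm_num
  rw [h11, h12]
  calc (2 * n) ^ (s + 2) * 2 ^ (2 * (2 * n / 3)) ≤ (2 ^ k) ^ (s + 2) * 2 ^ (2 * (2 * n / 3)) :=
        Nat.mul_le_mul_right _ h10
    _ = 2 ^ (k * (s + 2) + 2 * (2 * n / 3)) := by rw [← pow_mul, ← pow_add]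
    _ ≤ 2 ^ (2 * n) := by
        apply Nat.pow_le_pow_right (by norm_num)
        have : 3 * (2 * n / 3) ≤ 2 * n := Nat.mul_div_le _ _
        omega

/-- Two primes between `n` and `2n` for large `n`. -/
theorem two_primes_large (n : ℕ) (hn : 4096 ≤ n) :
    ∃ p q : ℕ, p.Prime ∧ q.Prime ∧ n < p ∧ p < q ∧ q ≤ 2 * n := by
  obtain ⟨p₀, hp₀, h1, h2⟩ := Nat.exists_prime_lt_and_le_two_mul n (by omega)
  by_contra hcon
  push_neg at hcon
  have no_prime : ∀ p : ℕ, p.Prime → n < p → p ≠ p₀ → 2 * n < p := by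
    intro p hp hnp hne
    rcases lt_or_gt_of_ne hne with h | h
    · by_contra hle
      push_neg at hle
      exact absurd h2 (not_le.mpr (hcon p p₀ hp hp₀ hnp h))
    · exact hcon p₀ p hp₀ hp h1 h
  have h3 := centralBinom_le_of_one_prime n p₀ (by omega) no_prime h1 h2
  have h4 := Nat.four_pow_lt_mul_centralBinom n (by omega)
  have h5 := main_ineq n hn
  have h6 : n * centralBinom n ≤ n * ((2 * n) * ((2 * n) ^ sqrt (2 * n) * 4 ^ (2 * n / 3))) :=
    Nat.mul_le_mul_left _ h3
  omega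

/-- Two primes in `(m, 2m]` for `m ≥ 6`. -/
theorem two_primes_ge (m : ℕ) (hm : 6 ≤ m) :
    ∃ p q : ℕ, p.Prime ∧ q.Prime ∧ m < p ∧ p < q ∧ q ≤ 2 * m := by
  by_cases h : 4096 ≤ m
  · exact two_primes_large m h
  by_cases h2441 : 2441 ≤ m
  · exact ⟨4871, 4877, by norm_num, by norm_num, by omega, by norm_num, by omega⟩
  by_cases h1229 : 1229 ≤ m
  · exact ⟨2441, 2447, by norm_num, by norm_num, by omega, by norm_num, by omega⟩
  by_cases h617 : 617 ≤ m
  · exact ⟨1229, 1231, by norm_num, by norm_num, by omega, by norm_num, by omega⟩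
  by_cases h311 : 311 ≤ m
  · exact ⟨617, 619, by norm_num, by norm_num, by omega, by norm_num, by omega⟩
  by_cases h157 : 157 ≤ m
  · exact ⟨311, 313, by norm_num, by norm_num, by omega, by norm_num, by omega⟩
  by_cases h83 : 83 ≤ m
  · exact ⟨157, 163, by norm_num, by norm_num, by omega, by norm_num, by omega⟩
  by_cases h47 : 47 ≤ m
  · exact ⟨83, 89, by norm_num, by norm_num, by omega, by norm_num, by omega⟩
  by_cases h29 : 29 ≤ m
  · exact ⟨47, 53, by norm_num, by norm_num, by omega, by norm_num, by omega⟩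
  by_cases h17 : 17 ≤ m
  · exact ⟨29, 31, by norm_num, by norm_num, by omega, by norm_num, by omega⟩
  by_cases h11 : 11 ≤ m
  · exact ⟨17, 19, by norm_num, by norm_num, by omega, by norm_num, by omega⟩
  by_cases h7 : 7 ≤ m
  · exact ⟨11, 13, by norm_num, by norm_num, by omega, by norm_num, by omega⟩
  by_cases h6 : 6 ≤ m
  · exact ⟨7, 11, by norm_num, by norm_num, by omega, by norm_num, by omega⟩
  omega

/-- Two primes in `(n/2, n]` for `n ≥ 11`. -/
theorem two_primes (n : ℕ) (hn : 11 ≤ n) :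
    ∃ p q : ℕ, p.Prime ∧ q.Prime ∧ n < 2 * p ∧ p < q ∧ q ≤ n := by
  by_cases h : n = 11
  · exact ⟨7, 11, by norm_num, by norm_num, by omega, by norm_num, by omega⟩
  obtain ⟨p, q, hp, hq, h1, h2, h3⟩ := two_primes_ge (n / 2) (by omega)
  exact ⟨p, q, hp, hq, by omega, h2, by omega⟩

end Cfsg.Agent.Lib.Cl.TwoPrimes
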