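import Mathlib
import Cfsg.Agent.Lib.Cl.TwoPrimes
import Cfsg.Agent.Lib.Hall.Basic

/-!
# Groups with the order and the element orders of `A_n`
-/

set_option autoImplicit false

namespace Cfsg.Agent.Lib.Cl.AnSpec

theorem exists_mem_dvd_of_dvd_lcm {p : ℕ} (hp : p.Prime) (s : Multiset ℕ) (h : p ∣ s.lcm) :
    ∃ a ∈ s, p ∣ a := by
  induction s using Multiset.induction with
  | empty =>
    simp only [Multiset.lcm_zero] at h
    exact absurd (Nat.dvd_one.mp h) hp.ne_one
  | cons a s ih =>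
    rw [Multiset.lcm_cons] at h
    rcases (Nat.Prime.dvd_lcm hp).mp h with h1 | h1
    · exact ⟨a, Multiset.mem_cons_self a s, h1⟩
    · obtain ⟨b, hb, hb'⟩ := ih h1
      exact ⟨b, Multiset.mem_cons_of_mem hb, hb'⟩

/-- `A_n` has no element of order `p q` if `p + q > n`. -/
theorem no_order_pq (n p q : ℕ) (hp : p.Prime) (hq : q.Prime) (hne : p ≠ q) (hn : n < p + q)
    (g : alternatingGroup (Fin n)) : orderOf g ≠ p * q := by
  classical
  intro h
  have h0 : orderOf (g : Equiv.Perm (Fin n)) = p * q := by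
    rw [Subgroup.orderOf_coe, h]
  obtain ⟨σ, hσ⟩ : ∃ σ : Equiv.Perm (Fin n), σ = (g : Equiv.Perm (Fin n)) := ⟨_, rfl⟩
  rw [← hσ] at h0
  have hlcm := Equiv.Perm.lcm_cycleType σ
  have hsum : σ.cycleType.sum ≤ n := by
    rw [Equiv.Perm.sum_cycleType]
    calc σ.support.card ≤ Fintype.card (Fin n) := Finset.card_le_univ _
      _ = n := Fintype.card_fin n
  rw [h0] at hlcm
  obtain ⟨a, ha, hpa⟩ := exists_mem_dvd_of_dvd_lcm hp σ.cycleType (by rw [hlcm]; exact dvd_mul_right _ _)
  obtain ⟨b, hb, hqb⟩ := exists_mem_dvd_of_dvd_lcm hq σ.cycleType (by rw [hlcm]; exact dvd_mul_left _ _)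
  have ha2 := Equiv.Perm.two_le_of_mem_cycleType ha
  have hb2 := Equiv.Perm.two_le_of_mem_cycleType hb
  have hple := Nat.le_of_dvd (by omega) hpa
  have hqle := Nat.le_of_dvd (by omega) hqb
  by_cases hab : a = b
  · subst hab
    have hco : Nat.Coprime p q := (Nat.coprime_primes hp hq).mpr hne
    have h1 : p * q ∣ a := hco.mul_dvd_of_dvd_of_dvd hpa hqb
    have h2 := Nat.le_of_dvd (by omega) h1
    have h3 : a ≤ σ.cycleType.sum := Multiset.single_le_sum (fun _ _ => Nat.zero_le _) _ ha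
    have hp2 := hp.two_le
    have hq2 := hq.two_le
    have h4 : p + q ≤ p * q := by nlinarith
    omega
  · obtain ⟨s, hs⟩ := Multiset.exists_cons_of_mem ha
    rw [hs, Multiset.mem_cons] at hb
    have hb' : b ∈ s := hb.resolve_left (Ne.symm hab)
    obtain ⟨t, ht⟩ := Multiset.exists_cons_of_mem hb'
    rw [hs, ht, Multiset.sum_cons, Multiset.sum_cons] at hsum
    omega

theorem not_sq_dvd_factorial {p : ℕ} (hp : p.Prime) (m : ℕ) (h1 : p ≤ m) (h2 : m < 2 * p) :
    ¬ p ^ 2 ∣ m.factorial := by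
  induction m, h1 using Nat.le_induction with
  | base =>
    intro h
    obtain ⟨k, hk⟩ : ∃ k, p = k + 1 := ⟨p - 1, by have := hp.pos; omega⟩
    have h3 : p.factorial = p * (p - 1).factorial := by
      rw [hk]; simp [Nat.factorial_succ]
    rw [h3, pow_two] at h
    have h4 := Nat.dvd_of_mul_dvd_mul_left hp.pos h
    rw [hp.dvd_factorial] at h4
    omega
  | succ m hm ih =>
    intro h
    rw [Nat.factorial_succ] at h
    have h3 : ¬ p ∣ m + 1 := by
      intro hd
      obtain ⟨c, hc⟩ := hd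
      have hc1 : c = 1 := by
        have : c < 2 := by
          by_contra hh
          push_neg at hh
          have : p * 2 ≤ p * c := Nat.mul_le_mul_left _ hh
          omega
        have : c ≠ 0 := by
          rintro rfl
          omega
        omega
      subst hc1
      omega
    have hco : Nat.Coprime (p ^ 2) (m + 1) := Nat.Coprime.pow_left 2 ((Nat.Prime.coprime_iff_not_dvd hp).mpr h3)
    exact ih (by omega) (hco.dvd_of_dvd_mul_left h)

/-- Arithmetic of the order. -/
theorem card_facts {G : Type*} [Group G] [Finite G] (n : ℕ) (hn : 2 ≤ n)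
    (hcard : Nat.card G = Nat.card ↥(alternatingGroup (Fin n))) : 2 * Nat.card G = n.factorial := by
  haveI : Nontrivial (Fin n) := Fin.nontrivial_iff_two_le.mpr hn
  rw [hcard, two_mul_nat_card_alternatingGroup, Nat.card_perm]
  simp

/-- `y` normalizing `⟨x⟩` of prime order `p`, of prime order `q ∤ p - 1`, centralizes `x`. -/
theorem commute_of_normalizes {G : Type*} [Group G] [Finite G] {p q : ℕ} (hp : p.Prime) (hq : q.Prime)
    (hqp : ¬ q ∣ p - 1) {x y : G} (hx : orderOf x = p) (hy : y ^ q = 1)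
    (hyN : y * x * y⁻¹ ∈ Subgroup.zpowers x) : y * x * y⁻¹ = x := by
  haveI : Fact p.Prime := ⟨hp⟩
  obtain ⟨k, hk⟩ : ∃ k : ℕ, x ^ k = y * x * y⁻¹ := (mem_powers_iff_mem_zpowers).mpr hyN
  have hi : ∀ i : ℕ, y ^ i * x * (y ^ i)⁻¹ = x ^ (k ^ i) := by
    intro i
    induction i with
    | zero => simp
    | succ i ih =>
      have h1 : y ^ (i + 1) * x * (y ^ (i + 1))⁻¹ = y ^ i * (y * x * y⁻¹) * (y ^ i)⁻¹ := by
        rw [pow_succ]; group
      rw [h1, ← hk, ← conj_pow, ih, ← pow_mul, pow_succ, mul_comm]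
  have h1 := hi q
  rw [hy] at h1
  simp only [one_mul, inv_one, mul_one] at h1
  have h2 : x ^ 1 = x ^ (k ^ q) := by rw [pow_one]; exact h1
  rw [pow_eq_pow_iff_modEq, hx] at h2
  have h3 : (k : ZMod p) ^ q = 1 := by
    have := (ZMod.natCast_eq_natCast_iff _ _ _).mpr h2
    push_cast at this
    exact this.symm
  have hk0 : (k : ZMod p) ≠ 0 := by
    intro h0
    rw [h0, zero_pow hq.ne_zero] at h3
    exact zero_ne_one h3
  have h4 : (k : ZMod p) ^ (p - 1) = 1 := ZMod.pow_card_sub_one_eq_one hk0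
  have h5 : Nat.gcd q (p - 1) = 1 := (Nat.Prime.coprime_iff_not_dvd hq).mpr hqp
  have h6 := pow_gcd_eq_one.mpr ⟨h3, h4⟩
  rw [h5, pow_one] at h6
  have h7 : k ≡ 1 [MOD p] := by
    rw [← ZMod.natCast_eq_natCast_iff]
    push_cast
    exact h6
  have h8 : x ^ k = x ^ 1 := by
    rw [pow_eq_pow_iff_modEq, hx]
    exact h7
  rw [← hk, h8, pow_one]

/-- **Lemma L**. -/
theorem lemL {G : Type*} [Group G] [Finite G] {p q : ℕ} (hp : p.Prime) (hq : q.Prime) (hpq : p ≠ q)
    (hp2 : ¬ p ^ 2 ∣ Nat.card G) (hqG : q ∣ Nat.card G) (hqp : ¬ q ∣ p - 1)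
    (hno : ∀ g : G, orderOf g ≠ p * q) (M : Subgroup G) [hMn : M.Normal] (hM : p ∣ Nat.card M) :
    q ∣ Nat.card M := by
  by_contra hqM
  haveI : Fact p.Prime := ⟨hp⟩
  haveI : Fact q.Prime := ⟨hq⟩
  obtain ⟨T₀⟩ : Nonempty (Sylow p M) := inferInstance
  let T' : Subgroup G := (T₀ : Subgroup M).map M.subtype
  have hT' : IsPGroup p T' := T₀.2.map M.subtype
  have hFrat : Subgroup.normalizer (T' : Set G) ⊔ M = ⊤ := Sylow.normalizer_sup_eq_top (p := p) (N := M) T₀
  -- an element of order `p` in `T'`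
  have hT0 : p ∣ Nat.card T₀ := by
    have h1 := Sylow.pow_dvd_card_of_pow_dvd_card (p := p) T₀ (n := 1) (by simpa using hM)
    simpa using h1
  obtain ⟨x₀, hx₀⟩ := exists_prime_orderOf_dvd_card' p hT0
  obtain ⟨x, hxdef⟩ : ∃ x : G, x = ((x₀ : M) : G) := ⟨_, rfl⟩
  have hxT : x ∈ T' := ⟨x₀, x₀.2, hxdef.symm⟩
  have hxo : orderOf x = p := by
    rw [hxdef, Subgroup.orderOf_coe, Subgroup.orderOf_coe, hx₀]
  -- `T' = ⟨x⟩`
  have hTx : ∀ w ∈ T', w ∈ Subgroup.zpowers x := by
    obtain ⟨k, hk⟩ := IsPGroup.iff_card.mp hT'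
    have hk1 : k ≤ 1 := by
      by_contra hh
      push_neg at hh
      apply hp2
      have h1 : p ^ 2 ∣ Nat.card T' := by
        rw [hk]
        exact pow_dvd_pow p hh
      exact h1.trans (Subgroup.card_subgroup_dvd_card T')
    have hle : Subgroup.zpowers x ≤ T' := by
      rw [Subgroup.zpowers_le]
      exact hxT
    have hcx : Nat.card (Subgroup.zpowers x) = p := by
      rw [Nat.card_zpowers, hxo]
    have h2 : Nat.card T' ≤ Nat.card (Subgroup.zpowers x) := by
      rw [hk, hcx]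
      calc p ^ k ≤ p ^ 1 := Nat.pow_le_pow_right hp.pos hk1
        _ = p := pow_one p
    have := Subgroup.eq_of_le_of_card_ge hle h2
    intro w hw
    rw [this]
    exact hw
  -- a `q`-element in the normalizer
  have hqN : q ∣ Nat.card (Subgroup.normalizer (T' : Set G)) := by
    have h1 : M.relIndex (Subgroup.normalizer (T' : Set G) ⊔ M) = M.relIndex (Subgroup.normalizer (T' : Set G)) :=
      Subgroup.relIndex_sup_right _ _
    rw [hFrat, Subgroup.relIndex_top_right] at h1
    have h2 : M.relIndex (Subgroup.normalizer (T' : Set G)) ∣ Nat.card (Subgroup.normalizer (T' : Set G)) :=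
      Subgroup.relIndex_dvd_card _ _
    have h3 : q ∣ M.index := by
      have h4 := Subgroup.card_mul_index M
      rw [← h4] at hqG
      exact (hq.dvd_mul.mp hqG).resolve_left hqM
    rw [h1] at h3
    exact h3.trans h2
  obtain ⟨y₀, hy₀⟩ := exists_prime_orderOf_dvd_card' q hqN
  obtain ⟨y, hydef⟩ : ∃ y : G, y = (y₀ : G) := ⟨_, rfl⟩
  have hyo : orderOf y = q := by
    rw [hydef, Subgroup.orderOf_coe, hy₀]
  have hyx : y * x * y⁻¹ ∈ Subgroup.zpowers x := by
    apply hTx
    have h1 : y ∈ Subgroup.normalizer (T' : Set G) := by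
      rw [hydef]; exact y₀.2
    exact (Subgroup.mem_normalizer_iff.mp h1 x).mp hxT
  have hcomm := commute_of_normalizes hp hq hqp hxo (by rw [← hyo]; exact pow_orderOf_eq_one y) hyx
  have hc : Commute x y := by
    show x * y = y * x
    calc x * y = (y * x * y⁻¹) * y := by rw [hcomm]
      _ = y * x := by group
  apply hno (x * y)
  rw [hc.orderOf_mul_eq_mul_orderOf_of_coprime, hxo, hyo]
  rw [hxo, hyo]
  exact (Nat.coprime_primes hp hq).mpr hpq

theorem not_dvd_card_sup {G : Type*} [Group G] [Finite G] {p : ℕ} (hp : p.Prime) (A B : Subgroup G) [A.Normal]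
    (hA : ¬ p ∣ Nat.card A) (hB : ¬ p ∣ Nat.card B) : ¬ p ∣ Nat.card (A ⊔ B : Subgroup G) := by
  intro h
  have h1 : A.relIndex (B ⊔ A) = A.relIndex B := Subgroup.relIndex_sup_right _ _
  have h2 : A.relIndex B ∣ Nat.card B := Subgroup.relIndex_dvd_card _ _
  have hle : A ≤ B ⊔ A := le_sup_right
  have h3 := Subgroup.card_mul_index (A.subgroupOf (B ⊔ A))
  have h4 : Nat.card (A.subgroupOf (B ⊔ A)) = Nat.card A :=
    Nat.card_congr (Subgroup.subgroupOfEquivOfLe hle).toEquiv
  rw [h4] at h3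
  rw [sup_comm] at h
  rw [← h3] at h
  rcases hp.dvd_mul.mp h with h5 | h5
  · exact hA h5
  · apply hB
    refine Dvd.dvd.trans ?_ h2
    rw [← h1]
    exact h5

/-- Normal subgroups of the section are trivial. -/
theorem normal_in_section {G : Type*} [Group G] [Finite G] {p : ℕ} (hpp : p.Prime)
    (hsq : ¬ p ^ 2 ∣ Nat.card G) (N H : Subgroup G) [hNn : N.Normal] [hHn : H.Normal] (hNH : N < H)
    (hNp : ¬ p ∣ Nat.card N)
    (hNmax : ∀ L : Subgroup G, L.Normal → ¬ p ∣ Nat.card L → N ≤ L → L ≤ N)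
    (hHmin : ∀ L : Subgroup G, L.Normal → N < L → L ≤ H → H ≤ L)
    (K : Subgroup H) (hK : K.Normal) (hNK : N.subgroupOf H ≤ K) : K = N.subgroupOf H ∨ K = ⊤ := by
  classical
  haveI : Fact p.Prime := ⟨hpp⟩
  by_cases hpK : p ∣ Nat.card K
  · right
    obtain ⟨x₀, hx₀⟩ := exists_prime_orderOf_dvd_card' p hpK
    obtain ⟨x, hxdef⟩ : ∃ x : G, x = ((x₀ : H) : G) := ⟨_, rfl⟩
    have hxo : orderOf x = p := by
      rw [hxdef, Subgroup.orderOf_coe, Subgroup.orderOf_coe, hx₀]
    have hxH : x ∈ H := hxdef ▸ (x₀ : H).2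
    have hK2 : ∀ y : H, orderOf y = p → y ∈ K := by
      intro y hy
      have h1 := Subgroup.card_eq_card_quotient_mul_card_subgroup K
      have h2 : ¬ p ∣ Nat.card (H ⧸ K) := by
        intro hd
        apply hsq
        have h3 : p ^ 2 ∣ Nat.card H := by
          rw [h1, pow_two]
          exact Nat.mul_dvd_mul hd hpK
        exact h3.trans (Subgroup.card_subgroup_dvd_card H)
      have h3 : orderOf (QuotientGroup.mk' K y) ∣ Nat.card (H ⧸ K) := orderOf_dvd_natCard _
      have h4 : orderOf (QuotientGroup.mk' K y) ∣ p := by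
        apply orderOf_dvd_of_pow_eq_one
        rw [← map_pow, ← hy, pow_orderOf_eq_one, map_one]
      have h5 : orderOf (QuotientGroup.mk' K y) = 1 := by
        rcases (Nat.dvd_prime hpp).mp h4 with h6 | h6
        · exact h6
        · rw [h6] at h3
          exact absurd h3 h2
      rw [orderOf_eq_one_iff] at h5
      exact (QuotientGroup.eq_one_iff y).mp h5
    have hNK' : N ≤ K.map H.subtype := by
      intro n hn
      exact ⟨⟨n, hNH.le hn⟩, hNK hn, rfl⟩
    have hXK : Subgroup.normalClosure {x} ≤ K.map H.subtype := by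
      refine (Subgroup.closure_le _).mpr ?_
      intro c hc
      obtain ⟨b, hb, hbc⟩ := Group.mem_conjugatesOfSet_iff.mp hc
      rw [Set.mem_singleton_iff] at hb
      subst hb
      have hcH : c ∈ H := by
        obtain ⟨g, hg⟩ := isConj_iff.mp hbc
        rw [← hg]
        exact hHn.conj_mem _ hxH g
      have hco : orderOf c = p := by
        obtain ⟨g, hg⟩ := isConj_iff.mp hbc
        rw [← hg, ← hxo]
        exact (MulAut.conj g).orderOf_eq _
      refine ⟨⟨c, hcH⟩, hK2 _ ?_, rfl⟩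
      rw [Subgroup.orderOf_mk, hco]
    have hxX : x ∈ Subgroup.normalClosure {x} := Subgroup.subset_normalClosure (Set.mem_singleton x)
    have hXH : Subgroup.normalClosure {x} ≤ H := by
      apply Subgroup.normalClosure_le_normal
      rintro _ rfl
      exact hxH
    have hxN : x ∉ N := by
      intro hxN
      apply hNp
      have h1 : orderOf (⟨x, hxN⟩ : N) = p := by
        rw [Subgroup.orderOf_mk, hxo]
      rw [← h1]
      exact orderOf_dvd_natCard _
    have hL : N < Subgroup.normalClosure {x} ⊔ N := by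
      refine lt_of_le_of_ne le_sup_right fun h => hxN ?_
      rw [h]
      exact Subgroup.mem_sup_left hxX
    have h1 := hHmin _ inferInstance hL (sup_le hXH hNH.le)
    rw [eq_top_iff]
    intro h _
    have h2 : (h : G) ∈ K.map H.subtype := sup_le hXK hNK' (h1 h.2)
    obtain ⟨k, hk, hkh⟩ := h2
    have : k = h := Subtype.ext hkh
    rwa [← this]
  · left
    let 𝓕 : Set (Subgroup H) := {L | L.Normal ∧ N.subgroupOf H ≤ L ∧ ¬ p ∣ Nat.card L}
    obtain ⟨L, hKL, hLmax⟩ := (Set.toFinite 𝓕).exists_le_maximal (a := K) ⟨hK, hNK, hpK⟩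
    obtain ⟨hLn, hNL, hLp⟩ := hLmax.prop
    have hconj : ∀ (g : G), ∀ h ∈ L, MulAut.conjNormal g h ∈ L := by
      intro g h hh
      let c : MulAut H := MulAut.conjNormal g
      let L₁ : Subgroup H := L.map c.toMonoidHom
      haveI hL₁n : L₁.Normal := hLn.map c.toMonoidHom c.surjective
      have hcard : Nat.card L₁ = Nat.card L := Subgroup.card_map_of_injective c.injective
      have hNL₁ : N.subgroupOf H ≤ L₁ := by
        intro n hn
        refine ⟨c⁻¹ n, hNL ?_, by simp⟩
        rw [Subgroup.mem_subgroupOf]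
        have h1 : ((c⁻¹ n : H) : G) = g⁻¹ * (n : G) * g := by
          have h2 : c⁻¹ = MulAut.conjNormal g⁻¹ := by
            show (MulAut.conjNormal g)⁻¹ = _
            rw [map_inv]
          rw [h2, MulAut.conjNormal_apply]
          group
        rw [h1]
        have h3 := hNn.conj_mem _ hn g⁻¹
        simpa using h3
      haveI := hLn
      have hsup : L ⊔ L₁ ∈ 𝓕 := by
        refine ⟨inferInstance, le_sup_of_le_left hNL, not_dvd_card_sup hpp L L₁ hLp ?_⟩
        rw [hcard]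
        exact hLp
      have h1 := hLmax.le_of_ge hsup le_sup_left
      exact h1 (Subgroup.mem_sup_right ⟨h, hh, rfl⟩)
    have hL'n : (L.map H.subtype).Normal := by
      refine ⟨?_⟩
      rintro _ ⟨h, hh, rfl⟩ g
      refine ⟨_, hconj g h hh, ?_⟩
      simp [MulAut.conjNormal_apply]
    have hL'p : ¬ p ∣ Nat.card (L.map H.subtype) := by
      rw [Subgroup.card_map_of_injective H.subtype_injective]
      exact hLp
    have hNL' : N ≤ L.map H.subtype := by
      intro n hn
      exact ⟨⟨n, hNH.le hn⟩, hNL hn, rfl⟩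
    have h2 := hNmax _ hL'n hL'p hNL'
    apply le_antisymm _ hNK
    intro k hk
    rw [Subgroup.mem_subgroupOf]
    exact h2 ⟨k, hKL hk, rfl⟩

/-- The section theorem. -/
theorem exists_simple_section {G : Type*} [Group G] [Finite G] (Pr : Set ℕ)
    (hpr : ∀ p ∈ Pr, p.Prime) (hdiv : ∀ p ∈ Pr, p ∣ Nat.card G) (hsq : ∀ p ∈ Pr, ¬ p ^ 2 ∣ Nat.card G)
    (hdist : ∀ p ∈ Pr, ∀ q ∈ Pr, p ≠ q → ¬ q ∣ p - 1)
    (hno : ∀ p ∈ Pr, ∀ q ∈ Pr, p ≠ q → ∀ g : G, orderOf g ≠ p * q)
    {p q : ℕ} (hp : p ∈ Pr) (hq : q ∈ Pr) (hpq : p ≠ q) :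
    ∃ (N H : Subgroup G) (_ : N.Normal), H.Normal ∧ N < H ∧
      IsSimpleGroup (↥H ⧸ N.subgroupOf H) ∧ ¬ IsMulCommutative (↥H ⧸ N.subgroupOf H) ∧
      ∀ r ∈ Pr, r ∣ Nat.card (↥H ⧸ N.subgroupOf H) := by
  classical
  have hpp := hpr p hp
  haveI : Fact p.Prime := ⟨hpp⟩
  let 𝓝 : Set (Subgroup G) := {N | N.Normal ∧ ¬ p ∣ Nat.card N}
  have hbot : (⊥ : Subgroup G) ∈ 𝓝 := by
    refine ⟨inferInstance, ?_⟩
    rw [Subgroup.card_bot]
    exact Nat.Prime.not_dvd_one hpp
  obtain ⟨N, -, hNmax⟩ := (Set.toFinite 𝓝).exists_le_maximal hbot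
  obtain ⟨hNn, hNp⟩ := hNmax.prop
  let 𝓗 : Set (Subgroup G) := {H | H.Normal ∧ N < H}
  have htop : (⊤ : Subgroup G) ∈ 𝓗 := by
    refine ⟨inferInstance, lt_top_iff_ne_top.mpr fun h => hNp ?_⟩
    rw [h, Subgroup.card_top]
    exact hdiv p hp
  obtain ⟨H, -, hHmin⟩ := (Set.toFinite 𝓗).exists_le_minimal htop
  obtain ⟨hHn, hNH⟩ := hHmin.prop
  have hpH : p ∣ Nat.card H := by
    by_contra h
    exact absurd (hNmax.le_of_ge ⟨hHn, h⟩ hNH.le) (not_le_of_gt hNH)
  have hall : ∀ r ∈ Pr, r ∣ Nat.card H := fun r hr => by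
    by_cases hrp : p = r
    · rw [← hrp]; exact hpH
    · exact lemL hpp (hpr r hr) hrp (hsq p hp) (hdiv r hr) (hdist p hp r hr hrp) (hno p hp r hr hrp) H hpH
  have hnotN : ∀ r ∈ Pr, ¬ r ∣ Nat.card N := fun r hr hrN => by
    by_cases hrp : r = p
    · rw [hrp] at hrN; exact hNp hrN
    · exact hNp (lemL (hpr r hr) hpp hrp (hsq r hr) (hdiv p hp) (hdist r hr p hp hrp) (hno r hr p hp hrp) N hrN)
  have hcQ : Nat.card H = Nat.card (↥H ⧸ N.subgroupOf H) * Nat.card N := by
    rw [Subgroup.card_eq_card_quotient_mul_card_subgroup (N.subgroupOf H),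
      Nat.card_congr (Subgroup.subgroupOfEquivOfLe hNH.le).toEquiv]
  have hdivQ : ∀ r ∈ Pr, r ∣ Nat.card (↥H ⧸ N.subgroupOf H) := by
    intro r hr
    have h1 := hall r hr
    rw [hcQ] at h1
    exact ((hpr r hr).dvd_mul.mp h1).resolve_right (hnotN r hr)
  have hsec := normal_in_section hpp (hsq p hp) N H hNH hNp
    (fun L hL hLp hNL => hNmax.le_of_ge ⟨hL, hLp⟩ hNL)
    (fun L hL hNL hLH => hHmin.le_of_le ⟨hL, hNL⟩ hLH)
  haveI hnt : Nontrivial (↥H ⧸ N.subgroupOf H) := by
    rw [← Finite.one_lt_card_iff_nontrivial]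
    have h1 := Nat.le_of_dvd (Nat.card_pos) (hdivQ p hp)
    have h2 := hpp.one_lt
    omega
  have hsimple : IsSimpleGroup (↥H ⧸ N.subgroupOf H) := by
    refine ⟨fun Kb hKb => ?_⟩
    have hKn : (Kb.comap (QuotientGroup.mk' (N.subgroupOf H))).Normal := hKb.comap _
    have hNK : N.subgroupOf H ≤ Kb.comap (QuotientGroup.mk' (N.subgroupOf H)) := by
      intro n hn
      have h1 : QuotientGroup.mk' (N.subgroupOf H) n = 1 := (QuotientGroup.eq_one_iff n).mpr hn
      show QuotientGroup.mk' (N.subgroupOf H) n ∈ Kb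
      rw [h1]
      exact one_mem _
    rcases hsec _ hKn hNK with h | h
    · left
      rw [eq_bot_iff]
      intro x hx
      obtain ⟨y, rfl⟩ := QuotientGroup.mk'_surjective _ x
      have hy : y ∈ Kb.comap (QuotientGroup.mk' (N.subgroupOf H)) := hx
      rw [h] at hy
      rw [Subgroup.mem_bot]
      exact (QuotientGroup.eq_one_iff y).mpr hy
    · right
      rw [eq_top_iff]
      intro x _
      obtain ⟨y, rfl⟩ := QuotientGroup.mk'_surjective _ x
      have hy : y ∈ Kb.comap (QuotientGroup.mk' (N.subgroupOf H)) := by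
        rw [h]; trivial
      exact hy
  refine ⟨N, H, hNn, hHn, hNH, hsimple, ?_, hdivQ⟩
  intro hcomm
  have hmc : ∀ a b : (↥H ⧸ N.subgroupOf H), a * b = b * a := fun a b => hcomm.is_comm.comm a b
  obtain ⟨x, hx⟩ := exists_prime_orderOf_dvd_card' p (hdivQ p hp)
  have hn : (Subgroup.zpowers x).Normal := by
    refine ⟨fun w hw g => ?_⟩
    have : g * w * g⁻¹ = w := by rw [hmc g w]; group
    rw [this]
    exact hw
  rcases hsimple.eq_bot_or_eq_top_of_normal _ hn with h | h
  · rw [Subgroup.zpowers_eq_bot] at h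
    rw [h, orderOf_one] at hx
    exact hpp.one_lt.ne hx
  · have h1 : Nat.card (↥H ⧸ N.subgroupOf H) = p := by
      have h2 := Nat.card_zpowers x
      rw [h, Subgroup.card_top, hx] at h2
      exact h2
    have h3 := hdivQ q hq
    rw [h1] at h3
    exact hpq ((Nat.prime_dvd_prime_iff_eq (hpr q hq) hpp).mp h3).symm

/-- The set-up for `A_n`. -/
theorem setup_An {G : Type*} [Group G] [Finite G] (n : ℕ) (hn : 11 ≤ n)
    (hcard : Nat.card G = Nat.card ↥(alternatingGroup (Fin n)))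
    (hspec : Set.range (orderOf : G → ℕ) = Set.range (orderOf : ↥(alternatingGroup (Fin n)) → ℕ)) :
    ∃ (N H : Subgroup G) (_ : N.Normal), H.Normal ∧ N < H ∧
      IsSimpleGroup (↥H ⧸ N.subgroupOf H) ∧ ¬ IsMulCommutative (↥H ⧸ N.subgroupOf H) ∧
      ∀ p : ℕ, p.Prime → n < 2 * p → p ≤ n → p ∣ Nat.card (↥H ⧸ N.subgroupOf H) := by
  have h2 := card_facts n (by omega) hcard
  obtain ⟨p, q, hp, hq, hpn, hpq, hqn⟩ := TwoPrimes.two_primes n hn
  let Pr : Set ℕ := {r | r.Prime ∧ n < 2 * r ∧ r ≤ n}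
  have hodd : ∀ r ∈ Pr, 3 ≤ r := by
    intro r hr
    have := hr.2.1
    omega
  obtain ⟨N, H, hN, hH, hNH, hs, hc, hd⟩ := exists_simple_section (G := G) Pr (fun r hr => hr.1)
    (fun r hr => by
      have h3 : r ∣ 2 * Nat.card G := by
        rw [h2]
        exact (hr.1.dvd_factorial).mpr hr.2.2
      rcases hr.1.dvd_mul.mp h3 with h4 | h4
      · have := Nat.le_of_dvd (by norm_num) h4
        have := hodd r hr
        omega
      · exact h4)
    (fun r hr h3 => not_sq_dvd_factorial hr.1 n hr.2.2 hr.2.1 (by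
      rw [← h2]
      exact h3.trans (dvd_mul_left _ _)))
    (fun r hr s hs hne hdvd => by
      -- `s ∣ r - 1` impossible: `r - 1` is even and `s` is odd
      have h3 := hodd r hr
      have h4 := hodd s hs
      have hrodd : Odd r := hr.1.odd_of_ne_two (by omega)
      have hsodd : Odd s := hs.1.odd_of_ne_two (by omega)
      obtain ⟨c, hc⟩ := hdvd
      have hc0 : c ≠ 0 := by
        rintro rfl
        omega
      have hc1 : c ≠ 1 := by
        rintro rfl
        rw [mul_one] at hc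
        have : Even (r - 1) := Nat.Odd.sub_odd hrodd odd_one
        rw [hc] at this
        exact (Nat.not_even_iff_odd.mpr hsodd) this
      have h5 : s * 2 ≤ s * c := Nat.mul_le_mul_left _ (by omega)
      have h6 := hs.2.1
      have h7 := hr.2.2
      omega)
    (fun r hr s hs hne g hg => by
      have h3 : orderOf g ∈ Set.range (orderOf : ↥(alternatingGroup (Fin n)) → ℕ) := by
        rw [← hspec]
        exact ⟨g, rfl⟩
      obtain ⟨a, ha⟩ := h3
      exact no_order_pq n r s hr.1 hs.1 hne (by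
        have := hr.2.1
        have := hs.2.1
        omega) a (by rw [ha, hg]))
    (p := p) (q := q) ⟨hp, hpn, by omega⟩ ⟨hq, by omega, hqn⟩ (by omega)
  exact ⟨N, H, hN, hH, hNH, hs, hc, fun r hr hr1 hr2 => hd r ⟨hr, hr1, hr2⟩⟩

end Cfsg.Agent.Lib.Cl.AnSpec
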