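import Mathlib
import Cfsg.Agent.Lib.Cl.AnSpec

/-!
# Groups with the order and the element orders of `A_n` are not solvable
-/

set_option autoImplicit false

namespace Cfsg.Agent.Lib.Cl.AnSpec

open Cfsg.Agent.Lib.Hall

/-- Hall subgroup of order `p^a q` in a solvable group gives an element of order `p q`. -/
theorem exists_order_pq {G : Type*} [Group G] [Finite G] [Group.IsSolvable G] (p q a m : ℕ) (hp : p.Prime)
    (hq : q.Prime) (hpq : p ≠ q) (ha : a ≠ 0) (hcard : Nat.card G = (p ^ a * q) * m)
    (hco : Nat.Coprime (p ^ a * q) m) (h1 : ∀ d, d ∣ p ^ a → d % q = 1 → d = 1) (h2 : q % p ≠ 1) :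
    ∃ g : G, orderOf g = p * q := by
  haveI : Fact p.Prime := ⟨hp⟩
  haveI : Fact q.Prime := ⟨hq⟩
  obtain ⟨K, hK⟩ := exists_card_eq_of_solvable _ _ hcard hco
  have hcoP : Nat.Coprime p q := (Nat.coprime_primes hp hq).mpr hpq
  obtain ⟨P⟩ : Nonempty (Sylow p K) := inferInstance
  obtain ⟨Q⟩ : Nonempty (Sylow q K) := inferInstance
  -- number of Sylow q
  have hnq : Nat.card (Sylow q K) = 1 := by
    have h3 : (Q : Subgroup K).index ∣ p ^ a * q := by
      rw [← hK]
      exact Subgroup.index_dvd_card _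
    have h4 : (Q : Subgroup K).index ∣ p ^ a := by
      have hc : Nat.Coprime (Q : Subgroup K).index q :=
        ((Nat.Prime.coprime_iff_not_dvd hq).mpr Q.not_dvd_index).symm
      exact hc.dvd_of_dvd_mul_right h3
    have h5 := (Sylow.card_dvd_index Q).trans h4
    refine h1 _ h5 ?_
    have h6 := card_sylow_modEq_one q K
    rw [Nat.ModEq] at h6
    rw [h6, Nat.mod_eq_of_lt hq.one_lt]
  have hnp : Nat.card (Sylow p K) = 1 := by
    have h3 : (P : Subgroup K).index ∣ p ^ a * q := by
      rw [← hK]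
      exact Subgroup.index_dvd_card _
    have h4 : (P : Subgroup K).index ∣ q := by
      have hc : Nat.Coprime (P : Subgroup K).index (p ^ a) :=
        (Nat.Coprime.pow_right a ((Nat.Prime.coprime_iff_not_dvd hp).mpr P.not_dvd_index).symm)
      exact hc.dvd_of_dvd_mul_left h3
    have h5 := (Sylow.card_dvd_index P).trans h4
    rcases (Nat.dvd_prime hq).mp h5 with h6 | h6
    · exact h6
    · exfalso
      have h7 := card_sylow_modEq_one p K
      rw [h6, Nat.ModEq, Nat.mod_eq_of_lt hp.one_lt] at h7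
      exact h2 h7
  haveI : Subsingleton (Sylow q K) := (Nat.card_eq_one_iff_unique.mp hnq).1
  haveI : Subsingleton (Sylow p K) := (Nat.card_eq_one_iff_unique.mp hnp).1
  haveI hPn : (P : Subgroup K).Normal := Sylow.normal_of_subsingleton P
  haveI hQn : (Q : Subgroup K).Normal := Sylow.normal_of_subsingleton Q
  have hdis : Disjoint (P : Subgroup K) (Q : Subgroup K) :=
    IsPGroup.disjoint_of_ne p q hpq _ _ P.2 Q.2
  have hpd : p ∣ Nat.card P := by
    have h3 := Sylow.pow_dvd_card_of_pow_dvd_card (p := p) P (n := 1) (by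
      rw [pow_one, hK]
      exact (dvd_pow_self p ha).mul_right q)
    simpa using h3
  have hqd : q ∣ Nat.card Q := by
    have h3 := Sylow.pow_dvd_card_of_pow_dvd_card (p := q) Q (n := 1) (by
      rw [pow_one, hK]
      exact dvd_mul_left _ _)
    simpa using h3
  obtain ⟨x, hx⟩ := exists_prime_orderOf_dvd_card' p hpd
  obtain ⟨y, hy⟩ := exists_prime_orderOf_dvd_card' q hqd
  have hc : Commute (x : K) (y : K) := Subgroup.commute_of_normal_of_disjoint _ _ hPn hQn hdis _ _ x.2 y.2
  refine ⟨(((x : K) * (y : K) : K) : G), ?_⟩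
  rw [Subgroup.orderOf_coe, hc.orderOf_mul_eq_mul_orderOf_of_coprime, Subgroup.orderOf_coe,
    Subgroup.orderOf_coe, hx, hy]
  rw [Subgroup.orderOf_coe, Subgroup.orderOf_coe, hx, hy]
  exact hcoP

theorem h37 : ∀ d : ℕ, d ∣ 3 ^ 1 → d % 5 = 1 → d = 1 := by
  intro d hd h
  have : d ≤ 3 := Nat.le_of_dvd (by norm_num) (by simpa using hd)
  interval_cases d <;> omega

theorem h39 : ∀ d : ℕ, d ∣ 3 ^ 2 → d % 5 = 1 → d = 1 := by
  intro d hd h
  have : d ≤ 9 := Nat.le_of_dvd (by norm_num) (by simpa using hd)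
  interval_cases d <;> omega

theorem h57 : ∀ d : ℕ, d ∣ 5 ^ 1 → d % 7 = 1 → d = 1 := by
  intro d hd h
  have : d ≤ 5 := Nat.le_of_dvd (by norm_num) (by simpa using hd)
  interval_cases d <;> omega

theorem h525 : ∀ d : ℕ, d ∣ 5 ^ 2 → d % 7 = 1 → d = 1 := by
  intro d hd h
  have : d ≤ 25 := Nat.le_of_dvd (by norm_num) (by simpa using hd)
  interval_cases d <;> omega

/-- **Groups with the order and spectrum of `A_n` are not solvable.** -/
theorem not_solvable {G : Type*} [Group G] [Finite G] (n : ℕ) (hn : 5 ≤ n)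
    (hcard : Nat.card G = Nat.card ↥(alternatingGroup (Fin n)))
    (hspec : Set.range (orderOf : G → ℕ) = Set.range (orderOf : ↥(alternatingGroup (Fin n)) → ℕ)) :
    ¬ Group.IsSolvable G := by
  intro hsol
  by_cases h11 : 11 ≤ n
  · obtain ⟨N, H, hN, hH, hNH, hs, hc, -⟩ := setup_An n h11 hcard hspec
    apply hc
    haveI : Group.IsSolvable (↥H ⧸ N.subgroupOf H) := inferInstance
    exact ⟨⟨(IsSimpleGroup.comm_iff_isSolvable.mpr inferInstance)⟩⟩
  have h2 := card_facts n (by omega) hcard
  have hno : ∀ p q : ℕ, p.Prime → q.Prime → p ≠ q → n < p + q → ∀ g : G, orderOf g ≠ p * q := by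
    intro p q hp hq hne hlt g hg
    have h3 : orderOf g ∈ Set.range (orderOf : ↥(alternatingGroup (Fin n)) → ℕ) := by
      rw [← hspec]
      exact ⟨g, rfl⟩
    obtain ⟨a, ha⟩ := h3
    exact no_order_pq n p q hp hq hne hlt a (by rw [ha, hg])
  have hf : ∀ k : ℕ, n = k → 2 * Nat.card G = k.factorial := by
    intro k hk
    rw [← hk]; exact h2
  have hn' : n = 5 ∨ n = 6 ∨ n = 7 ∨ n = 8 ∨ n = 9 ∨ n = 10 := by omega
  rcases hn' with h | h | h | h | h | h
  · obtain ⟨g, hg⟩ := exists_order_pq (G := G) 3 5 1 4 (by norm_num) (by norm_num) (by norm_num) (by norm_num)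
      (by have := hf 5 h; simp only [Nat.factorial] at this; omega) (by norm_num) h37 (by norm_num)
    exact hno 3 5 (by norm_num) (by norm_num) (by norm_num) (by omega) g hg
  · obtain ⟨g, hg⟩ := exists_order_pq (G := G) 3 5 2 8 (by norm_num) (by norm_num) (by norm_num) (by norm_num)
      (by have := hf 6 h; simp only [Nat.factorial] at this; omega) (by norm_num) h39 (by norm_num)
    exact hno 3 5 (by norm_num) (by norm_num) (by norm_num) (by omega) g hg
  · obtain ⟨g, hg⟩ := exists_order_pq (G := G) 5 7 1 72 (by norm_num) (by norm_num) (by norm_num) (by norm_num)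
      (by have := hf 7 h; simp only [Nat.factorial] at this; omega) (by norm_num) h57 (by norm_num)
    exact hno 5 7 (by norm_num) (by norm_num) (by norm_num) (by omega) g hg
  · obtain ⟨g, hg⟩ := exists_order_pq (G := G) 5 7 1 576 (by norm_num) (by norm_num) (by norm_num) (by norm_num)
      (by have := hf 8 h; simp only [Nat.factorial] at this; omega) (by norm_num) h57 (by norm_num)
    exact hno 5 7 (by norm_num) (by norm_num) (by norm_num) (by omega) g hg
  · obtain ⟨g, hg⟩ := exists_order_pq (G := G) 5 7 1 5184 (by norm_num) (by norm_num) (by norm_num) (by norm_num)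
      (by have := hf 9 h; simp only [Nat.factorial] at this; omega) (by norm_num) h57 (by norm_num)
    exact hno 5 7 (by norm_num) (by norm_num) (by norm_num) (by omega) g hg
  · obtain ⟨g, hg⟩ := exists_order_pq (G := G) 5 7 2 10368 (by norm_num) (by norm_num) (by norm_num) (by norm_num)
      (by have := hf 10 h; simp only [Nat.factorial] at this; omega) (by norm_num) h525 (by norm_num)
    exact hno 5 7 (by norm_num) (by norm_num) (by norm_num) (by omega) g hg

end Cfsg.Agent.Lib.Cl.AnSpec
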