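import Mathlib
import Cfsg.Agent.S3116

/-!
# Automorphisms of small 2-groups of odd order
-/

set_option autoImplicit false
open Cfsg

namespace Cfsg.Agent.Lib.Cl

/-- A counting lemma: an automorphism of prime order `r ≠ p` of a group of order `p ^ s`
forces `r ∣ p ^ k - 1` for some `1 ≤ k ≤ s`. -/
theorem prime_dvd_pow_sub_one_of_aut {Q : Type*} [Group Q] [Finite Q] {p s : ℕ} (hp : p.Prime)
    (hQ : Nat.card Q = p ^ s) (τ : MulAut Q) {r : ℕ} (hr : r.Prime) (hrp : r ≠ p) (hτ : orderOf τ = r) :
    ∃ k, 1 ≤ k ∧ k ≤ s ∧ r ∣ p ^ k - 1 := by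
  classical
  haveI : Fact r.Prime := ⟨hr⟩
  let H : Subgroup (MulAut Q) := Subgroup.zpowers τ
  have hH : IsPGroup r H := IsPGroup.of_card (n := 1) (by rw [Nat.card_zpowers, hτ, pow_one])
  let C : Subgroup Q := τ.toMonoidHom.eqLocus (MonoidHom.id Q)
  have hfix : MulAction.fixedPoints H Q = (C : Set Q) := by
    ext x
    constructor
    · intro hx
      have := hx ⟨τ, Subgroup.mem_zpowers τ⟩
      exact this
    · intro hx
      rintro ⟨_, k, rfl⟩
      have hx' : τ x = x := hx
      have : ∀ n : ℕ, (τ ^ n) x = x := by
        intro n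
        induction n with
        | zero => simp
        | succ n ih => rw [pow_succ', MulAut.mul_apply, ih, hx']
      have hk : ∀ m : ℤ, (τ ^ m) x = x := by
        intro m
        cases m with
        | ofNat n => simpa using this n
        | negSucc n =>
          rw [zpow_negSucc]
          have h1 := this (n + 1)
          conv_lhs => rw [← h1]
          simp
      exact hk k
  have hmod := hH.card_modEq_card_fixedPoints Q
  have hcardfix : Nat.card (MulAction.fixedPoints H Q) = Nat.card C := by
    rw [hfix]; rfl
  rw [hcardfix, hQ] at hmod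
  obtain ⟨t, ht, hCt⟩ := (Nat.dvd_prime_pow hp).mp (hQ ▸ Subgroup.card_subgroup_dvd_card C)
  have hts : t ≠ s := by
    rintro rfl
    have htop : C = ⊤ := Subgroup.eq_top_of_card_eq C (by rw [hCt, hQ])
    have : τ = 1 := by
      ext x
      have : x ∈ C := htop ▸ Subgroup.mem_top x
      exact this
    rw [this, orderOf_one] at hτ
    exact hr.one_lt.ne hτ
  have hlt : t < s := lt_of_le_of_ne ht hts
  refine ⟨s - t, by omega, by omega, ?_⟩
  rw [hCt] at hmod
  have hdvd := (Nat.modEq_iff_dvd' (Nat.pow_le_pow_right hp.pos ht)).mp hmod.symm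
  have hfac : p ^ s - p ^ t = p ^ t * (p ^ (s - t) - 1) := by
    rw [Nat.mul_sub, mul_one, ← pow_add]
    congr 2
    omega
  rw [hfac] at hdvd
  rcases (Nat.Prime.dvd_mul hr).mp hdvd with h | h
  · exact absurd ((Nat.prime_dvd_prime_iff_eq hr hp).mp (hr.dvd_of_dvd_pow h)) hrp
  · exact h

/-- From an automorphism `σ ≠ 1` of finite order, extract a power of prime order. -/
theorem exists_pow_prime_orderOf {A : Type*} [Group A] [Finite A] (σ : A) (hσ : σ ≠ 1) :
    ∃ r j : ℕ, r.Prime ∧ r ∣ orderOf σ ∧ orderOf (σ ^ j) = r := by
  have h1 : orderOf σ ≠ 1 := by rwa [Ne, orderOf_eq_one_iff]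
  have h0 : orderOf σ ≠ 0 := (orderOf_pos σ).ne'
  refine ⟨(orderOf σ).minFac, orderOf σ / (orderOf σ).minFac, Nat.minFac_prime h1, Nat.minFac_dvd _, ?_⟩
  exact orderOf_pow_orderOf_div h0 (Nat.minFac_dvd _)

/-- The main lemma: an automorphism of odd order fixing an involution of a 2-group whose
elements outside a cyclic subgroup of index at most 2 are involutions is trivial. -/
theorem aut_eq_one_of_cyclic_index_two {Q : Type*} [Group Q] [Finite Q] (hQ : IsPGroup 2 Q) (R : Subgroup Q)
    (hRc : IsCyclic R) (hRi : R.index ∣ 2) (hR : ∀ x, x ∉ R → x ^ 2 = 1) (t : Q) (ht : orderOf t = 2)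
    (σ : MulAut Q) (hσ : Odd (orderOf σ)) (hσt : σ t = t) : σ = 1 := by
  classical
  haveI : Fact (Nat.Prime 2) := ⟨Nat.prime_two⟩
  -- if `MulAut Q` is a 2-group, we are done
  have hdone : IsPGroup 2 (MulAut Q) → σ = 1 := by
    intro h2
    obtain ⟨k, hk⟩ := h2 σ
    have : orderOf σ ∣ 2 ^ k := orderOf_dvd_of_pow_eq_one hk
    obtain ⟨j, hj, hj2⟩ := (Nat.dvd_prime_pow Nat.prime_two).mp this
    have hj0 : j = 0 := by
      by_contra hne
      have : Even (orderOf σ) := by
        rw [hj2]
        exact (Nat.even_pow.mpr ⟨even_two, hne⟩)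
      exact (Nat.not_even_iff_odd.mpr hσ) this
    rw [hj0, pow_zero, orderOf_eq_one_iff] at hj2
    exact hj2
  rcases (Nat.dvd_prime Nat.prime_two).mp hRi with h1 | h2
  · -- `Q` is cyclic
    have htop : R = ⊤ := Subgroup.index_eq_one.mp h1
    haveI : IsCyclic Q := by
      rw [htop] at hRc
      exact isCyclic_of_surjective (Subgroup.topEquiv (G := Q)).toMonoidHom (Subgroup.topEquiv (G := Q)).surjective
    apply hdone
    obtain ⟨s, hs⟩ := IsPGroup.iff_card.mp hQ
    apply IsPGroup.of_card (n := s - 1)
    rw [IsCyclic.card_mulAut, hs]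
    have hs0 : s ≠ 0 := by
      rintro rfl
      have := orderOf_dvd_natCard t
      rw [hs, ht] at this
      norm_num at this
    obtain ⟨u, rfl⟩ : ∃ u, s = u + 1 := ⟨s - 1, by omega⟩
    rw [Nat.totient_prime_pow_succ Nat.prime_two]
    simp
  · -- index two
    obtain ⟨x, hx⟩ : ∃ x : R, Subgroup.zpowers x = ⊤ := by
      obtain ⟨x, hx⟩ := hRc.exists_generator
      exact ⟨x, by rw [eq_top_iff]; intro y _; exact hx y⟩
    have hRx : R = Subgroup.zpowers (x : Q) := by
      apply le_antisymm
      · intro y hy
        have : (⟨y, hy⟩ : R) ∈ Subgroup.zpowers x := hx ▸ Subgroup.mem_top _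
        obtain ⟨k, hk⟩ := this
        refine ⟨k, ?_⟩
        have := congrArg Subtype.val hk
        simpa using this
      · rw [Subgroup.zpowers_le]
        exact x.2
    have hcardQ : Nat.card Q = 2 * Nat.card R := by
      have := R.card_mul_index
      rw [h2] at this
      omega
    obtain ⟨s, hs⟩ := IsPGroup.iff_card.mp hQ
    have hcardR : ∃ n, Nat.card R = 2 ^ n := by
      obtain ⟨n, _, hn⟩ := (Nat.dvd_prime_pow Nat.prime_two).mp
        (hs ▸ Subgroup.card_subgroup_dvd_card R)
      exact ⟨n, hn⟩
    obtain ⟨n, hn⟩ := hcardR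
    have hordx : orderOf (x : Q) = 2 ^ n := by
      have := congrArg (fun K : Subgroup Q => Nat.card K) hRx
      simp only [Nat.card_zpowers] at this
      rw [← hn, this]
    by_cases hn2 : 2 ≤ n
    · apply hdone
      refine Cfsg.Agent.S3116.isPGroup_mulAut_of_index_two (x := (x : Q)) (n := n) (by omega) hordx
        (by rw [hcardQ, hn]) ?_
      intro α
      rw [← hRx]
      by_contra hnot
      have h1 := hR _ hnot
      have h3 : (x : Q) ^ 2 = 1 := by
        have : (α (x : Q)) ^ 2 = 1 := h1
        rw [← map_pow] at this
        exact (map_eq_one_iff α α.injective).mp this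
      have h4 := orderOf_dvd_of_pow_eq_one h3
      rw [hordx] at h4
      have h5 := Nat.le_of_dvd (by norm_num) h4
      have h6 : 2 ^ 2 ≤ 2 ^ n := Nat.pow_le_pow_right (by norm_num) hn2
      omega
    · -- order at most 4
      have hn' : n ≤ 1 := by omega
      have hcard4 : Nat.card Q ≤ 4 := by
        rw [hcardQ, hn]
        have : 2 ^ n ≤ 2 ^ 1 := Nat.pow_le_pow_right (by norm_num) hn'
        omega
      -- every element is fixed by `σ ^ 2`
      have hfix2 : ∀ y, (σ ^ 2) y = y := by
        intro y
        by_cases hy : y = 1 ∨ y = t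
        · rcases hy with rfl | rfl
          · simp
          · rw [sq, MulAut.mul_apply, hσt, hσt]
        · push_neg at hy
          -- the four elements `1, t, y, y t`
          have hσy : σ y = y ∨ σ y = y * t := by
            by_contra hcon
            push_neg at hcon
            have hty1 : y * t ≠ 1 := by
              intro h
              have : y = t⁻¹ := eq_inv_of_mul_eq_one_left h
              have htinv : t⁻¹ = t := by
                rw [inv_eq_iff_mul_eq_one, ← sq, ← ht]
                exact pow_orderOf_eq_one t
              exact hy.2 (this.trans htinv)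
            have hyty : y * t ≠ y := by
              intro h
              have : t = 1 := by simpa using h
              rw [this, orderOf_one] at ht
              omega
            have hyt : y * t ≠ t := by
              intro h
              exact hy.1 (by simpa using h)
            have ht1 : t ≠ 1 := by
              rintro rfl
              rw [orderOf_one] at ht
              omega
            have hσy1 : σ y ≠ 1 := fun h => hy.1 ((map_eq_one_iff σ σ.injective).mp h)
            have hσyt : σ y ≠ t := by
              intro h
              apply hy.2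
              apply σ.injective
              rw [h, hσt]
            let F : Finset Q := {1, t, y, y * t, σ y}
            have hF : F.card = 5 := by
              simp only [F]
              rw [Finset.card_insert_of_notMem, Finset.card_insert_of_notMem, Finset.card_insert_of_notMem,
                Finset.card_insert_of_notMem, Finset.card_singleton]
              · simp [hcon.2.symm]
              · simp [hyty.symm, hcon.1.symm]
              · simp [hy.2.symm, hyt.symm, hσyt.symm]
              · simp [ht1.symm, hy.1.symm, hty1.symm, hσy1.symm]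
            haveI : Fintype Q := Fintype.ofFinite Q
            have := Finset.card_le_univ F
            rw [hF, ← Nat.card_eq_fintype_card] at this
            omega
          rcases hσy with h | h
          · rw [sq, MulAut.mul_apply, h, h]
          · rw [sq, MulAut.mul_apply, h, map_mul, hσt, h, mul_assoc]
            have : t * t = 1 := by
              rw [← sq, ← ht]
              exact pow_orderOf_eq_one t
            rw [this, mul_one]
      have h21 : σ ^ 2 = 1 := by
        ext y
        simpa using hfix2 y
      have hd := orderOf_dvd_of_pow_eq_one h21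
      obtain ⟨j, hj, hj2⟩ := (Nat.dvd_prime_pow Nat.prime_two).mp (by simpa using hd : orderOf σ ∣ 2 ^ 1)
      have hj0 : j = 0 := by
        by_contra hne
        have : Even (orderOf σ) := by
          rw [hj2]
          exact (Nat.even_pow.mpr ⟨even_two, hne⟩)
        exact (Nat.not_even_iff_odd.mpr hσ) this
      rw [hj0, pow_zero, orderOf_eq_one_iff] at hj2
      exact hj2

/-- A finite group with an injective homomorphism to a dihedral group has a cyclic subgroup of
index at most 2 outside of which all elements are involutions. -/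
theorem exists_cyclic_index_two_of_dihedral {A : Type*} [Group A] {n : ℕ} [NeZero n]
    (ι : A →* DihedralGroup n) (hι : Function.Injective ι) :
    ∃ R : Subgroup A, IsCyclic R ∧ R.index ∣ 2 ∧ ∀ x, x ∉ R → x ^ 2 = 1 := by
  let B : Subgroup (DihedralGroup n) := Subgroup.zpowers (DihedralGroup.r 1)
  have hBi : B.index = 2 := by
    have h1 := B.card_mul_index
    have hB : Nat.card B = n := by
      rw [Nat.card_zpowers, DihedralGroup.orderOf_r_one]
    rw [hB, DihedralGroup.nat_card, mul_comm 2 n] at h1
    exact Nat.eq_of_mul_eq_mul_left (Nat.pos_of_ne_zero (NeZero.ne n)) h1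
  haveI hBn : B.Normal := Subgroup.normal_of_index_eq_two hBi
  refine ⟨B.comap ι, ?_, ?_, ?_⟩
  · haveI : IsCyclic B := Subgroup.isCyclic_zpowers _
    refine isCyclic_of_injective (ι.subgroupComap B) ?_
    intro a b hab
    apply Subtype.ext
    apply hι
    exact congrArg Subtype.val hab
  · rw [Subgroup.index_comap, ← hBi]
    exact Subgroup.relIndex_dvd_index_of_normal B _
  · intro x hx
    apply hι
    rw [map_pow, map_one]
    have hx' : ι x ∉ B := hx
    rcases hix : ι x with i | i
    · exfalso
      apply hx'
      rw [hix]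
      refine ⟨(i.val : ℤ), ?_⟩
      simp only [zpow_natCast, DihedralGroup.r_one_pow]
      simp
    · rw [sq, DihedralGroup.sr_mul_self]

end Cfsg.Agent.Lib.Cl
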