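import Mathlib
import Cfsg.Prelude.Def_KGroupFacts

/-! Stem extensions of groups with an inverted cyclic subgroup of index two. -/

set_option autoImplicit false

namespace Cfsg.Agent.Lib.Cl.DihMult

open Subgroup
open scoped commutatorElement

universe u

variable {Γ : Type*} [Group Γ]

theorem mem_normalizer_zpowers {g w : Γ} (h : g * w * g⁻¹ = w ∨ g * w * g⁻¹ = w⁻¹) :
    g ∈ normalizer (zpowers w : Set Γ) := by
  rw [mem_normalizer_iff]
  have hmap : (zpowers w).map (MulAut.conj g).toMonoidHom = zpowers w := by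
    rw [MonoidHom.map_zpowers]
    have : (MulAut.conj g).toMonoidHom w = g * w * g⁻¹ := rfl
    rw [this]
    rcases h with h | h
    · rw [h]
    · rw [h, zpowers_inv]
  intro h'
  constructor
  · intro hh
    rw [← hmap]
    exact ⟨h', hh, rfl⟩
  · intro hh
    rw [← hmap] at hh
    obtain ⟨y, hy, hyy⟩ := hh
    have e : g * y * g⁻¹ = g * h' * g⁻¹ := hyy
    have : y = h' := by simpa using e
    rw [← this]
    exact hy

theorem commutator_le_zpowers (Z : Subgroup Γ) (hZ : Z ≤ center Γ) {A B : Γ}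
    (hz : A * (B * A * B⁻¹) ∈ Z) (hgen : closure ({A, B} ∪ (Z : Set Γ)) = ⊤) :
    commutator Γ ≤ zpowers (A⁻¹ * (B * A * B⁻¹)) := by
  obtain ⟨z, hzdef⟩ : ∃ z, z = A * (B * A * B⁻¹) := ⟨_, rfl⟩
  obtain ⟨w, hw⟩ : ∃ w, w = A⁻¹ * (B * A * B⁻¹) := ⟨_, rfl⟩
  rw [← hzdef] at hz
  rw [← hw]
  have hzc : ∀ x, z * x = x * z := fun x => (mem_center_iff.1 (hZ hz) x).symm
  have e1 : B * A * B⁻¹ = A⁻¹ * z := by rw [hzdef]; group
  have e2 : w = A⁻¹ * A⁻¹ * z := by rw [hw, e1]; group
  have hwA : A * w * A⁻¹ = w := by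
    rw [e2]
    calc A * (A⁻¹ * A⁻¹ * z) * A⁻¹ = A * (A⁻¹ * A⁻¹) * (z * A⁻¹) := by group
      _ = A * (A⁻¹ * A⁻¹) * (A⁻¹ * z) := by rw [hzc]
      _ = A⁻¹ * A⁻¹ * z := by group
  have e3 : B * A⁻¹ * B⁻¹ = (A⁻¹ * z)⁻¹ := by rw [← e1]; group
  have e4 : B * z * B⁻¹ = z := by
    rw [← hzc B]
    group
  have hwB : B * w * B⁻¹ = w⁻¹ := by
    calc B * w * B⁻¹ = (B * A⁻¹ * B⁻¹) * (B * A⁻¹ * B⁻¹) * (B * z * B⁻¹) := by rw [e2]; group
      _ = (A⁻¹ * z)⁻¹ * (A⁻¹ * z)⁻¹ * z := by rw [e3, e4]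
      _ = z⁻¹ * A * (z⁻¹ * A * z) := by group
      _ = z⁻¹ * A * A := by
        have : z⁻¹ * A * z = A := by
          rw [mul_assoc, ← hzc A]
          group
        rw [this]
      _ = w⁻¹ := by rw [e2]; simp [mul_assoc]
  have hnorm : normalizer (zpowers w : Set Γ) = ⊤ := by
    rw [eq_top_iff, ← hgen, closure_le]
    rintro g (hg | hg)
    · rcases hg with rfl | rfl
      · exact mem_normalizer_zpowers (Or.inl hwA)
      · exact mem_normalizer_zpowers (Or.inr hwB)
    · apply mem_normalizer_zpowers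
      left
      have := mem_center_iff.1 (hZ hg) w
      rw [← this]
      group
  haveI hN : (zpowers w).Normal := by
    rw [← Subgroup.normalizer_eq_top_iff]
    exact hnorm
  let f := QuotientGroup.mk' (zpowers w)
  have hfw : f w = 1 := (QuotientGroup.eq_one_iff _).2 (mem_zpowers w)
  have hAB : Commute (f A) (f B) := by
    have h0 : f (A⁻¹ * (B * A * B⁻¹)) = 1 := by rw [← hw]; exact hfw
    rw [map_mul, map_inv, map_mul, map_mul, map_inv, inv_mul_eq_one, eq_mul_inv_iff_mul_eq] at h0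
    exact h0
  have hZc : ∀ ζ ∈ Z, ∀ s, Commute (f ζ) (f s) := by
    intro ζ hζ s
    have : Commute ζ s := (mem_center_iff.1 (hZ hζ) s).symm
    exact this.map f
  have hall : ∀ x y : Γ, Commute (f x) (f y) := by
    have h1 : ∀ s ∈ ({A, B} ∪ (Z : Set Γ)), ∀ y : Γ, Commute (f s) (f y) := by
      intro s hs y
      have hy : y ∈ closure ({A, B} ∪ (Z : Set Γ)) := by rw [hgen]; trivial
      have hle : closure ({A, B} ∪ (Z : Set Γ)) ≤ (centralizer {f s}).comap f := by
        rw [closure_le]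
        rintro t ht
        rw [SetLike.mem_coe, mem_comap, mem_centralizer_singleton_iff]
        have : Commute (f s) (f t) := by
          rcases hs with hs | hs
          · rcases hs with rfl | rfl
            · rcases ht with ht | ht
              · rcases ht with rfl | rfl
                · exact Commute.refl _
                · exact hAB
              · exact (hZc t ht _).symm
            · rcases ht with ht | ht
              · rcases ht with rfl | rfl
                · exact hAB.symm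
                · exact Commute.refl _
              · exact (hZc t ht _).symm
          · exact hZc s hs _
        exact this.symm.eq
      have := hle hy
      rw [mem_comap, mem_centralizer_singleton_iff] at this
      exact Commute.symm this
    intro x y
    have hx : x ∈ closure ({A, B} ∪ (Z : Set Γ)) := by rw [hgen]; trivial
    have hle : closure ({A, B} ∪ (Z : Set Γ)) ≤ (centralizer {f y}).comap f := by
      rw [closure_le]
      intro t ht
      rw [SetLike.mem_coe, mem_comap, mem_centralizer_singleton_iff]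
      exact h1 t ht y
    have := hle hx
    rw [mem_comap, mem_centralizer_singleton_iff] at this
    exact this
  rw [_root_.commutator_def, commutator_le]
  intro x _ y _
  rw [← QuotientGroup.eq_one_iff]
  show f ⁅x, y⁆ = 1
  rw [map_commutatorElement, commutatorElement_eq_one_iff_commute]
  exact hall x y

theorem ker_eq_zpow {G : Type*} [Group G] (σ : Γ →* G) (hσ : Cfsg.IsStemExtension σ) {A B : Γ}
    (hgen : closure {σ A, σ B} = ⊤) (hz : σ (A * (B * A * B⁻¹)) = 1) {ζ : Γ} (hζ : ζ ∈ σ.ker) :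
    ζ ∈ zpowers (A⁻¹ * (B * A * B⁻¹)) := by
  obtain ⟨hs, hc, hk⟩ := hσ
  apply commutator_le_zpowers σ.ker hc (MonoidHom.mem_ker.2 hz) _ (hk hζ)
  rw [eq_top_iff]
  intro g _
  have hg : σ g ∈ closure {σ A, σ B} := by rw [hgen]; trivial
  have himg : ({σ A, σ B} : Set G) = σ '' {A, B} := by
    rw [Set.image_pair]
  rw [himg, ← MonoidHom.map_closure] at hg
  obtain ⟨h, hh, hhg⟩ := hg
  have h1 : h⁻¹ * g ∈ σ.ker := by
    rw [MonoidHom.mem_ker, map_mul, map_inv, hhg, inv_mul_cancel]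
  have h2 : g = h * (h⁻¹ * g) := by group
  rw [h2]
  refine Subgroup.mul_mem _ ?_ ?_
  · exact (Subgroup.closure_mono Set.subset_union_left) hh
  · exact subset_closure (Or.inr h1)

theorem w_pow {A B : Γ} (n : ℕ) (hz : A * (B * A * B⁻¹) ∈ center Γ) (hcomm : B * A ^ n * B⁻¹ = A ^ n) :
    (A⁻¹ * (B * A * B⁻¹)) ^ n = 1 := by
  obtain ⟨z, hzdef⟩ : ∃ z, z = A * (B * A * B⁻¹) := ⟨_, rfl⟩
  rw [← hzdef] at hz
  have e1 : B * A * B⁻¹ = A⁻¹ * z := by rw [hzdef]; group
  have e2 : (A⁻¹ * z) ^ n = A ^ n := by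
    rw [← e1, conj_pow, hcomm]
  have hc : Commute A⁻¹ (A⁻¹ * z) := by
    apply Commute.mul_right (Commute.refl _)
    exact (mem_center_iff.1 hz A⁻¹)
  rw [e1, hc.mul_pow, e2, inv_pow, inv_mul_cancel]

theorem hasTrivial {G : Type u} [Group G] [Finite G]
    (h : ∀ (Γ : Type u) [Group Γ] [Finite Γ] (σ : Γ →* G), Cfsg.IsStemExtension σ → σ.ker = ⊥) :
    Cfsg.HasCyclicSchurMultiplier G 1 := by
  constructor
  · refine ⟨G, inferInstance, inferInstance, MonoidHom.id G, ⟨fun g => ⟨g, rfl⟩, ?_, ?_⟩, ?_⟩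
    · have : (MonoidHom.id G).ker = ⊥ := MonoidHom.ker_id
      rw [this]
      exact bot_le
    · have : (MonoidHom.id G).ker = ⊥ := MonoidHom.ker_id
      rw [this]
      exact bot_le
    · haveI : Unique (Multiplicative (ZMod 1)) := ⟨⟨1⟩, fun a => Subsingleton.elim _ _⟩
      haveI : Unique (MonoidHom.id G).ker := by
        have : (MonoidHom.id G).ker = ⊥ := MonoidHom.ker_id
        rw [this]
        infer_instance
      exact ⟨MulEquiv.ofUnique⟩
  · intro Γ _ _ σ hσ
    have hb := h Γ σ hσ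
    refine ⟨1, ?_⟩
    rintro ⟨y, hy⟩
    refine ⟨1, ?_⟩
    apply Subtype.ext
    rw [hb, mem_bot] at hy
    simpa using hy.symm

section Dih

open DihedralGroup

variable {n : ℕ}

theorem closure_dih [NeZero n] : closure {(r 1 : DihedralGroup n), sr 0} = ⊤ := by
  rw [eq_top_iff]
  rintro y -
  have hr : ∀ i : ZMod n, (r i : DihedralGroup n) ∈ closure {(r 1 : DihedralGroup n), sr 0} := by
    intro i
    have : (r i : DihedralGroup n) = (r 1) ^ i.val := by
      rw [r_one_pow]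
      congr 1
      simp
    rw [this]
    exact pow_mem (subset_closure (by simp)) _
  cases y with
  | r i => exact hr i
  | sr i =>
    have : (sr i : DihedralGroup n) = sr 0 * r i := by
      rw [sr_mul_r]
      simp
    rw [this]
    exact mul_mem (subset_closure (by simp)) (hr i)

theorem dih_z : (r 1 : DihedralGroup n) * (sr 0 * r 1 * (sr 0)⁻¹) = 1 := by
  rw [inv_sr, sr_mul_r, sr_mul_sr, r_mul_r]
  have : (1 : ZMod n) + (0 - (0 + 1)) = 0 := by ring
  rw [this, r_zero]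

theorem dih_w : (r 1 : DihedralGroup n)⁻¹ * (sr 0 * r 1 * (sr 0)⁻¹) = r (-2) := by
  rw [inv_sr, sr_mul_r, sr_mul_sr, inv_r, r_mul_r]
  congr 1
  ring

/-- Structure of the kernel of a stem extension of a dihedral group. -/
theorem dih_core [NeZero n] {Γ : Type*} [Group Γ] [Finite Γ] (σ : Γ →* DihedralGroup n)
    (hσ : Cfsg.IsStemExtension σ) :
    ∃ w : Γ, w ^ n = 1 ∧ σ w = r (-2) ∧ ∀ ζ ∈ σ.ker, ∃ k : ℕ, w ^ k = ζ := by
  obtain ⟨A, hA⟩ := hσ.1 (r 1)
  obtain ⟨B, hB⟩ := hσ.1 (sr 0)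
  have hgen : closure {σ A, σ B} = ⊤ := by rw [hA, hB]; exact closure_dih
  have hz : σ (A * (B * A * B⁻¹)) = 1 := by
    simp only [map_mul, map_inv, hA, hB]
    exact dih_z
  refine ⟨A⁻¹ * (B * A * B⁻¹), ?_, ?_, ?_⟩
  · apply w_pow n (hσ.2.1 hz)
    have h1 : A ^ n ∈ σ.ker := by
      rw [MonoidHom.mem_ker, map_pow, hA]
      exact r_one_pow_n
    have := mem_center_iff.1 (hσ.2.1 h1) B
    rw [this]
    group
  · simp only [map_mul, map_inv, hA, hB]
    exact dih_w
  · intro ζ hζ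
    have h1 := ker_eq_zpow σ hσ hgen hz hζ
    rw [← mem_powers_iff_mem_zpowers] at h1
    obtain ⟨k, hk⟩ := h1
    exact ⟨k, hk⟩

end Dih

section Quat

open QuaternionGroup

variable {n : ℕ}

theorem closure_quat [NeZero n] : closure {(a 1 : QuaternionGroup n), xa 0} = ⊤ := by
  rw [eq_top_iff]
  rintro y -
  have hr : ∀ i : ZMod (2 * n), (a i : QuaternionGroup n) ∈ closure {(a 1 : QuaternionGroup n), xa 0} := by
    intro i
    haveI : NeZero (2 * n) := ⟨by have := NeZero.ne n; omega⟩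
    have : (a i : QuaternionGroup n) = (a 1) ^ i.val := by
      rw [a_one_pow]
      congr 1
      simp
    rw [this]
    exact pow_mem (subset_closure (by simp)) _
  cases y with
  | a i => exact hr i
  | xa i =>
    have : (xa i : QuaternionGroup n) = xa 0 * a i := by
      rw [xa_mul_a]
      simp
    rw [this]
    exact mul_mem (subset_closure (by simp)) (hr i)

theorem two_n_zero : (n : ZMod (2 * n)) + n = 0 := by
  have : ((2 * n : ℕ) : ZMod (2 * n)) = 0 := ZMod.natCast_self _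
  rw [Nat.cast_mul] at this
  rw [← this]
  push_cast
  ring

theorem xa_zero_inv : (xa 0 : QuaternionGroup n)⁻¹ = xa n := by
  apply inv_eq_of_mul_eq_one_right
  rw [xa_mul_xa, sub_zero, two_n_zero, a_zero]

theorem quat_z : (a 1 : QuaternionGroup n) * (xa 0 * a 1 * (xa 0)⁻¹) = 1 := by
  rw [xa_zero_inv, xa_mul_a, xa_mul_xa, a_mul_a]
  have : (1 : ZMod (2 * n)) + ((n : ZMod (2 * n)) + n - (0 + 1)) = 0 := by
    have := two_n_zero (n := n)
    linear_combination this
  rw [this, a_zero]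

theorem quat_w : (a 1 : QuaternionGroup n)⁻¹ * (xa 0 * a 1 * (xa 0)⁻¹) = a (-2) := by
  have h1 : (a 1 : QuaternionGroup n)⁻¹ = a (-1) := by
    apply inv_eq_of_mul_eq_one_right
    rw [a_mul_a, add_neg_cancel, a_zero]
  rw [xa_zero_inv, xa_mul_a, xa_mul_xa, h1, a_mul_a]
  congr 1
  have := two_n_zero (n := n)
  linear_combination this

theorem a_pow (i : ZMod (2 * n)) (k : ℕ) : (a i : QuaternionGroup n) ^ k = a (i * (k : ZMod (2 * n))) := by
  induction k with
  | zero => simp only [pow_zero, Nat.cast_zero, mul_zero, a_zero]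
  | succ k ih => rw [pow_succ, ih, a_mul_a]; congr 1; push_cast; ring

/-- Structure of the kernel of a stem extension of a dicyclic group. -/
theorem quat_core [NeZero n] {Γ : Type*} [Group Γ] [Finite Γ] (σ : Γ →* QuaternionGroup n)
    (hσ : Cfsg.IsStemExtension σ) :
    ∃ w : Γ, w ^ n = 1 ∧ σ w = a (-2) ∧ ∀ ζ ∈ σ.ker, ∃ k : ℕ, w ^ k = ζ := by
  obtain ⟨A, hA⟩ := hσ.1 (a 1)
  obtain ⟨B, hB⟩ := hσ.1 (xa 0)
  have hgen : closure {σ A, σ B} = ⊤ := by rw [hA, hB]; exact closure_quat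
  have hz : σ (A * (B * A * B⁻¹)) = 1 := by
    simp only [map_mul, map_inv, hA, hB]
    exact quat_z
  refine ⟨A⁻¹ * (B * A * B⁻¹), ?_, ?_, ?_⟩
  · apply w_pow n (hσ.2.1 hz)
    have h1 : (A ^ n)⁻¹ * B ^ 2 ∈ σ.ker := by
      rw [MonoidHom.mem_ker, map_mul, map_inv, map_pow, map_pow, hA, hB, a_one_pow, xa_sq,
        inv_mul_cancel]
    have h2 : A ^ n = B ^ 2 * ((A ^ n)⁻¹ * B ^ 2)⁻¹ := by group
    have h3 := mem_center_iff.1 (hσ.2.1 h1) B
    rw [h2]
    calc B * (B ^ 2 * ((A ^ n)⁻¹ * B ^ 2)⁻¹) * B⁻¹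
        = B ^ 2 * (B * ((A ^ n)⁻¹ * B ^ 2)⁻¹ * B⁻¹) := by group
      _ = B ^ 2 * ((A ^ n)⁻¹ * B ^ 2)⁻¹ := by
        congr 1
        have h4 : B * ((A ^ n)⁻¹ * B ^ 2)⁻¹ = ((A ^ n)⁻¹ * B ^ 2)⁻¹ * B := by
          exact (show Commute B ((A ^ n)⁻¹ * B ^ 2) from h3).inv_right
        rw [h4]
        group
  · simp only [map_mul, map_inv, hA, hB]
    exact quat_w
  · intro ζ hζ
    have h1 := ker_eq_zpow σ hσ hgen hz hζ
    rw [← mem_powers_iff_mem_zpowers] at h1
    obtain ⟨k, hk⟩ := h1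
    exact ⟨k, hk⟩

end Quat

end Cfsg.Agent.Lib.Cl.DihMult
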