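import Mathlib
import Cfsg.Agent.Lib.Cl.DihMult

/-! The stem extension of a dihedral group of even degree by a group of order two. -/

set_option autoImplicit false

namespace Cfsg.Agent.Lib.Cl.DihMult

open Subgroup DihedralGroup
open scoped commutatorElement

variable (n : ℕ)

/-- The natural projection of dihedral groups. -/
def dihQuot : DihedralGroup (2 * n) →* DihedralGroup n where
  toFun x := match x with
    | r i => r (ZMod.castHom (Dvd.intro_left 2 rfl : n ∣ 2 * n) (ZMod n) i)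
    | sr i => sr (ZMod.castHom (Dvd.intro_left 2 rfl : n ∣ 2 * n) (ZMod n) i)
  map_one' := by
    show r _ = r 0
    simp
  map_mul' := by
    intro x y
    cases x with
    | r i =>
      cases y with
      | r j => simp [r_mul_r]
      | sr j => simp [r_mul_sr]
    | sr i =>
      cases y with
      | r j => simp [sr_mul_r]
      | sr j => simp [sr_mul_sr]

variable {n}

theorem dihQuot_r (i : ZMod (2 * n)) :
    dihQuot n (r i) = r (ZMod.castHom (Dvd.intro_left 2 rfl : n ∣ 2 * n) (ZMod n) i) := rfl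

theorem dihQuot_sr (i : ZMod (2 * n)) :
    dihQuot n (sr i) = sr (ZMod.castHom (Dvd.intro_left 2 rfl : n ∣ 2 * n) (ZMod n) i) := rfl

theorem dihQuot_surjective [NeZero n] : Function.Surjective (dihQuot n) := by
  intro y
  have hc := ZMod.castHom_surjective (Dvd.intro_left 2 rfl : n ∣ 2 * n)
  cases y with
  | r i =>
    obtain ⟨j, rfl⟩ := hc i
    exact ⟨r j, rfl⟩
  | sr i =>
    obtain ⟨j, rfl⟩ := hc i
    exact ⟨sr j, rfl⟩

theorem mem_ker_dihQuot {x : DihedralGroup (2 * n)} (hx : x ∈ (dihQuot n).ker) :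
    ∃ i : ZMod (2 * n), x = r i ∧ ZMod.castHom (Dvd.intro_left 2 rfl : n ∣ 2 * n) (ZMod n) i = 0 := by
  rw [MonoidHom.mem_ker] at hx
  cases x with
  | r i =>
    refine ⟨i, rfl, ?_⟩
    rw [dihQuot_r, one_def] at hx
    exact r.inj hx
  | sr i =>
    rw [dihQuot_sr, one_def] at hx
    cases hx

theorem val_of_cast_zero [NeZero n] {i : ZMod (2 * n)}
    (h : ZMod.castHom (Dvd.intro_left 2 rfl : n ∣ 2 * n) (ZMod n) i = 0) :
    ∃ l : ℕ, i = ((n * l : ℕ) : ZMod (2 * n)) := by
  haveI : NeZero (2 * n) := ⟨by have := NeZero.ne n; omega⟩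
  rw [ZMod.castHom_apply, ← ZMod.natCast_val, ZMod.natCast_eq_zero_iff] at h
  obtain ⟨l, hl⟩ := h
  refine ⟨l, ?_⟩
  rw [← hl]
  simp

theorem dihQuot_stem [NeZero n] (hn : Even n) : Cfsg.IsStemExtension (dihQuot n) := by
  refine ⟨dihQuot_surjective, ?_, ?_⟩
  · intro x hx
    obtain ⟨i, rfl, hi⟩ := mem_ker_dihQuot hx
    obtain ⟨l, rfl⟩ := val_of_cast_zero hi
    have h2 : ((n * l : ℕ) : ZMod (2 * n)) + ((n * l : ℕ) : ZMod (2 * n)) = 0 := by
      have : ((2 * n : ℕ) : ZMod (2 * n)) = 0 := ZMod.natCast_self _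
      have h3 : ((n * l : ℕ) : ZMod (2 * n)) + ((n * l : ℕ) : ZMod (2 * n)) =
          ((2 * n : ℕ) : ZMod (2 * n)) * l := by
        push_cast
        ring
      rw [h3, this, zero_mul]
    rw [mem_center_iff]
    intro g
    cases g with
    | r j =>
      rw [r_mul_r, r_mul_r, add_comm]
    | sr j =>
      rw [r_mul_sr, sr_mul_r]
      congr 1
      linear_combination h2
  · intro x hx
    obtain ⟨i, rfl, hi⟩ := mem_ker_dihQuot hx
    obtain ⟨l, rfl⟩ := val_of_cast_zero hi
    obtain ⟨m, rfl⟩ := hn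
    have hc : ⁅(r ((m * l : ℕ) : ZMod (2 * (m + m))) : DihedralGroup (2 * (m + m))), sr 0⁆ =
        r (((m + m) * l : ℕ) : ZMod (2 * (m + m))) := by
      rw [commutatorElement_def, inv_r, inv_sr, r_mul_sr, sr_mul_r, sr_mul_sr]
      congr 1
      push_cast
      ring
    rw [← hc]
    exact Subgroup.commutator_mem_commutator (mem_top _) (mem_top _)

theorem card_ker_dihQuot [NeZero n] : Nat.card (dihQuot n).ker = 2 := by
  haveI : NeZero (2 * n) := ⟨by have := NeZero.ne n; omega⟩
  have h1 := (dihQuot n).ker.card_mul_index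
  rw [Subgroup.index_ker, MonoidHom.range_eq_top.2 dihQuot_surjective, Subgroup.card_top,
    DihedralGroup.nat_card, DihedralGroup.nat_card] at h1
  have hn : 0 < 2 * n := by have := NeZero.ne n; omega
  have : Nat.card (dihQuot n).ker * (2 * n) = 2 * (2 * n) := h1
  exact Nat.eq_of_mul_eq_mul_right hn this

end Cfsg.Agent.Lib.Cl.DihMult
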