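import Mathlib

/-!
# Automorphism group of a monomial 2-subgroup of `GL₂(q)`, `q = 2^m + 1`
-/

set_option autoImplicit false

namespace Cfsg.Agent.Lib.Cl.MonoAut

section Basic
variable {F : Type*} [Field F]

/-- linear automorphisms of the plane -/
abbrev LE (F : Type*) [Field F] := (Fin 2 → F) ≃ₗ[F] (Fin 2 → F)

/-- diagonal form -/
def Dg (a s : F) (f : LE F) : Prop := ∀ v, f v = ![a * v 0, s * a⁻¹ * v 1]
/-- antidiagonal form -/
def An (a s : F) (f : LE F) : Prop := ∀ v, f v = ![s * a⁻¹ * v 1, a * v 0]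

theorem mul_ap (f g : LE F) (v : Fin 2 → F) : (f * g) v = f (g v) := rfl

theorem Dg.mul {a s b t : F} {f g : LE F} (hf : Dg a s f) (hg : Dg b t g) :
    Dg (a * b) (s * t) (f * g) := by
  intro v
  rw [mul_ap, hg, hf]
  ext i
  fin_cases i <;> simp [mul_inv] <;> ring

theorem An.mul_Dg {a s b t : F} {f g : LE F} (hf : An a s f) (hg : Dg b t g) :
    An (a * b) (s * t) (f * g) := by
  intro v
  rw [mul_ap, hg, hf]
  ext i
  fin_cases i <;> simp [mul_inv] <;> ring

theorem Dg.mul_An {a s b t : F} {f g : LE F} (hs : s ≠ 0) (hf : Dg a s f) (hg : An b t g) :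
    An (s * a⁻¹ * b) (s * t) (f * g) := by
  intro v
  rw [mul_ap, hg, hf]
  ext i
  fin_cases i
  · simp [mul_inv]
    field_simp
  · simp [mul_inv]
    ring

theorem An.mul_An {a s b t : F} {f g : LE F} (hs : s ≠ 0) (hf : An a s f) (hg : An b t g) :
    Dg (s * a⁻¹ * b) (s * t) (f * g) := by
  intro v
  rw [mul_ap, hg, hf]
  ext i
  fin_cases i
  · simp [mul_inv]
    ring
  · simp [mul_inv]
    field_simp

theorem Dg_one : Dg (1 : F) 1 (1 : LE F) := by
  intro v
  ext i
  fin_cases i <;> simp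

theorem Dg.pow {a s : F} {f : LE F} (hf : Dg a s f) (k : ℕ) : Dg (a ^ k) (s ^ k) (f ^ k) := by
  induction k with
  | zero => simpa using Dg_one
  | succ k ih =>
    rw [pow_succ, pow_succ, pow_succ]
    exact ih.mul hf

theorem Dg.eq {a s : F} {f g : LE F} (hf : Dg a s f) (hg : Dg a s g) : f = g :=
  LinearEquiv.ext fun v => by rw [hf, hg]

theorem An.eq {a s : F} {f g : LE F} (hf : An a s f) (hg : An a s g) : f = g :=
  LinearEquiv.ext fun v => by rw [hf, hg]

theorem Dg.a_eq {a s b t : F} {f : LE F} (hf : Dg a s f) (hg : Dg b t f) : a = b := by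
  have h1 := hf ![1, 0]
  rw [hg] at h1
  have := congrFun h1 0
  simpa using this.symm

theorem Dg.s_eq {a s b t : F} {f : LE F} (ha : a ≠ 0) (hf : Dg a s f) (hg : Dg b t f) : s = t := by
  have hab := hf.a_eq hg
  subst hab
  have h1 := hf ![0, 1]
  rw [hg] at h1
  have := congrFun h1 1
  simp at this
  rcases this with h | h
  · exact h.symm
  · exact absurd h ha

theorem An.a_eq {a s b t : F} {f : LE F} (hf : An a s f) (hg : An b t f) : a = b := by
  have h1 := hf ![1, 0]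
  rw [hg] at h1
  have := congrFun h1 1
  simpa using this.symm

theorem An.s_eq {a s b t : F} {f : LE F} (ha : a ≠ 0) (hf : An a s f) (hg : An b t f) : s = t := by
  have hab := hf.a_eq hg
  subst hab
  have h1 := hf ![0, 1]
  rw [hg] at h1
  have := congrFun h1 0
  simp at this
  rcases this with h | h
  · exact h.symm
  · exact absurd h ha

theorem not_Dg_An {a s b t : F} {f : LE F} (ha : a ≠ 0) (hf : Dg a s f) (hg : An b t f) : False := by
  have h1 := hf ![1, 0]
  rw [hg] at h1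
  have := congrFun h1 0
  simp at this
  exact ha this.symm

/-- diagonal element -/
def mkD (a s : F) (ha : a ≠ 0) (hs : s ≠ 0) : LE F where
  toFun v := ![a * v 0, s * a⁻¹ * v 1]
  map_add' v w := by
    ext i; fin_cases i <;> simp <;> ring
  map_smul' c v := by
    ext i; fin_cases i <;> simp <;> ring
  invFun v := ![a⁻¹ * v 0, a * s⁻¹ * v 1]
  left_inv v := by
    ext i; fin_cases i <;> simp <;> field_simp
  right_inv v := by
    ext i; fin_cases i <;> simp <;> field_simp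

theorem mkD_Dg (a s : F) (ha : a ≠ 0) (hs : s ≠ 0) : Dg a s (mkD a s ha hs) := fun _ => rfl

/-- antidiagonal element -/
def mkA (a s : F) (ha : a ≠ 0) (hs : s ≠ 0) : LE F where
  toFun v := ![s * a⁻¹ * v 1, a * v 0]
  map_add' v w := by
    ext i; fin_cases i <;> simp <;> ring
  map_smul' c v := by
    ext i; fin_cases i <;> simp <;> ring
  invFun v := ![a⁻¹ * v 1, a * s⁻¹ * v 0]
  left_inv v := by
    ext i; fin_cases i <;> simp <;> field_simp
  right_inv v := by
    ext i; fin_cases i <;> simp <;> field_simp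

theorem mkA_An (a s : F) (ha : a ≠ 0) (hs : s ≠ 0) : An a s (mkA a s ha hs) := fun _ => rfl

/-- The stability step: an element moved by a fixed factor is not moved at all. -/
theorem fix_step {T : Type*} [Group T] (β : MulAut T) {n K : ℕ} (hn : Odd n) (hβ : β ^ n = 1)
    {x d : T} (hK : d ^ (2 ^ K) = 1) (hd : β d = d) (hx : β x = x * d) : d = 1 := by
  have key : ∀ j : ℕ, (β ^ j) x = x * d ^ j := by
    intro j
    induction j with
    | zero => simp
    | succ j ih =>
      rw [pow_succ', MulAut.mul_apply, ih, map_mul, map_pow, hx, hd, pow_succ', mul_assoc]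
  have h1 := key n
  rw [hβ, MulAut.one_apply] at h1
  have h2 : d ^ n = 1 := by
    have := mul_left_cancel (a := x) (b := 1) (c := d ^ n) (by rw [mul_one]; exact h1)
    exact this.symm
  have h3 : d ^ Nat.gcd n (2 ^ K) = 1 := pow_gcd_eq_one.mpr ⟨h2, hK⟩
  have hcop : Nat.gcd n (2 ^ K) = 1 := Nat.Coprime.pow_right K hn.coprime_two_right
  rw [hcop, pow_one] at h3
  exact h3

/-- Odd powers: `k^n ≡ 1` mod `2^e` forces `k ≡ 1`. -/
theorem odd_pow_modEq (e k n : ℕ) (hn : Odd n) (h : k ^ n ≡ 1 [MOD 2 ^ e]) : k ≡ 1 [MOD 2 ^ e] := by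
  rcases Nat.eq_zero_or_pos e with rfl | he
  · simp [Nat.ModEq, Nat.mod_one]
  have hk : Odd k := by
    by_contra hk
    rw [Nat.not_odd_iff_even] at hk
    have h2 : k ^ n ≡ 1 [MOD 2] := h.of_dvd (dvd_pow_self 2 he.ne')
    have h3 : Even (k ^ n) := hk.pow_of_ne_zero (by
      rintro rfl
      simp at hn)
    have h4 := Nat.even_iff.mp h3
    have h5 : k ^ n % 2 = 1 % 2 := h2
    omega
  have hi : ((2 ^ e : ℕ) : ℤ) ∣ (k : ℤ) ^ n - 1 := by
    have := (Nat.modEq_iff_dvd.mp h.symm)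
    push_cast at this ⊢
    exact this
  have hgeom := mul_geom_sum (k : ℤ) n
  rw [← hgeom] at hi
  have hodd : Odd (∑ i ∈ Finset.range n, k ^ i) := by
    rw [Finset.odd_sum_iff_odd_card_odd]
    have : (Finset.range n).filter (fun i => Odd (k ^ i)) = Finset.range n := by
      apply Finset.filter_true_of_mem
      intro i _
      exact hk.pow
    rw [this, Finset.card_range]
    exact hn
  have hcast : (∑ i ∈ Finset.range n, (k : ℤ) ^ i) = ((∑ i ∈ Finset.range n, k ^ i : ℕ) : ℤ) := by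
    push_cast; rfl
  rw [hcast] at hi
  have hcop : IsCoprime ((2 ^ e : ℕ) : ℤ) ((∑ i ∈ Finset.range n, k ^ i : ℕ) : ℤ) :=
    Nat.isCoprime_iff_coprime.mpr (Nat.Coprime.pow_left e (Nat.coprime_two_left.mpr hodd))
  have hdvd := hcop.dvd_of_dvd_mul_right hi
  exact (Nat.modEq_iff_dvd.mpr (by push_cast at hdvd ⊢; exact hdvd)).symm

end Basic

section TT
variable {F : Type*} [Field F] {T : Subgroup (LE F)}

/-- the hypothesis on `T` -/
def IsT (T : Subgroup (LE F)) : Prop :=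
  ∀ f, f ∈ T ↔ ∃ a s : F, a ≠ 0 ∧ (s = 1 ∨ s = -1) ∧
    ((∀ v, f v = ![a * v 0, s * a⁻¹ * v 1]) ∨ (∀ v, f v = ![s * a⁻¹ * v 1, a * v 0]))

/-- diagonal elements -/
def isD (x : T) : Prop := ∃ a s : F, a ≠ 0 ∧ (s = 1 ∨ s = -1) ∧ Dg a s (x : LE F)
/-- antidiagonal elements -/
def isA (x : T) : Prop := ∃ a s : F, a ≠ 0 ∧ (s = 1 ∨ s = -1) ∧ An a s (x : LE F)

theorem sgn_mul {s t : F} (hs : s = 1 ∨ s = -1) (ht : t = 1 ∨ t = -1) : s * t = 1 ∨ s * t = -1 := by
  rcases hs with rfl | rfl <;> rcases ht with rfl | rfl <;> simp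

theorem sgn_ne {s : F} (hs : s = 1 ∨ s = -1) : s ≠ 0 := by
  rcases hs with rfl | rfl <;> simp

theorem sgn_sq {s : F} (hs : s = 1 ∨ s = -1) : s * s = 1 := by
  rcases hs with rfl | rfl <;> simp

theorem cl (hT : IsT T) (x : T) : isD x ∨ isA x := by
  obtain ⟨a, s, ha, hs, h | h⟩ := (hT x).mp x.2
  · exact Or.inl ⟨a, s, ha, hs, h⟩
  · exact Or.inr ⟨a, s, ha, hs, h⟩

theorem isD.mul {x y : T} (hx : isD x) (hy : isD y) : isD (x * y) := by
  obtain ⟨a, s, ha, hs, h⟩ := hx
  obtain ⟨b, t, hb, ht, h'⟩ := hy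
  exact ⟨a * b, s * t, mul_ne_zero ha hb, sgn_mul hs ht, h.mul h'⟩

theorem isA.mul_D {x y : T} (hx : isA x) (hy : isD y) : isA (x * y) := by
  obtain ⟨a, s, ha, hs, h⟩ := hx
  obtain ⟨b, t, hb, ht, h'⟩ := hy
  exact ⟨a * b, s * t, mul_ne_zero ha hb, sgn_mul hs ht, h.mul_Dg h'⟩

theorem isD.mul_A {x y : T} (hx : isD x) (hy : isA y) : isA (x * y) := by
  obtain ⟨a, s, ha, hs, h⟩ := hx
  obtain ⟨b, t, hb, ht, h'⟩ := hy
  exact ⟨_, s * t, mul_ne_zero (mul_ne_zero (sgn_ne hs) (inv_ne_zero ha)) hb, sgn_mul hs ht,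
    h.mul_An (sgn_ne hs) h'⟩

theorem isA.mul_A {x y : T} (hx : isA x) (hy : isA y) : isD (x * y) := by
  obtain ⟨a, s, ha, hs, h⟩ := hx
  obtain ⟨b, t, hb, ht, h'⟩ := hy
  exact ⟨_, s * t, mul_ne_zero (mul_ne_zero (sgn_ne hs) (inv_ne_zero ha)) hb, sgn_mul hs ht,
    h.mul_An (sgn_ne hs) h'⟩

theorem excl {x : T} (hx : isD x) (hy : isA x) : False := by
  obtain ⟨a, s, ha, hs, h⟩ := hx
  obtain ⟨b, t, hb, ht, h'⟩ := hy
  exact not_Dg_An ha h h'

theorem eq_of_Dg {a s : F} {x y : T} (hx : Dg a s (x : LE F)) (hy : Dg a s (y : LE F)) : x = y :=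
  Subtype.ext (hx.eq hy)

theorem eq_of_An {a s : F} {x y : T} (hx : An a s (x : LE F)) (hy : An a s (y : LE F)) : x = y :=
  Subtype.ext (hx.eq hy)

theorem Dg_T_one : Dg (1 : F) 1 ((1 : T) : LE F) := Dg_one

theorem Dg_T_pow {a s : F} {x : T} (h : Dg a s (x : LE F)) (k : ℕ) :
    Dg (a ^ k) (s ^ k) ((x ^ k : T) : LE F) := by
  rw [Subgroup.coe_pow]
  exact h.pow k

theorem Dg_T_mul {a s b t : F} {x y : T} (h : Dg a s (x : LE F)) (h' : Dg b t (y : LE F)) :
    Dg (a * b) (s * t) ((x * y : T) : LE F) := h.mul h'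

theorem isD.comm {x y : T} (hx : isD x) (hy : isD y) : x * y = y * x := by
  obtain ⟨a, s, ha, hs, h⟩ := hx
  obtain ⟨b, t, hb, ht, h'⟩ := hy
  have h1 := Dg_T_mul h h'
  have h2 := Dg_T_mul h' h
  rw [mul_comm a b, mul_comm s t] at h1
  exact eq_of_Dg h1 h2

theorem isA.sq {x : T} {a s : F} (ha : a ≠ 0) (hs : s = 1 ∨ s = -1) (h : An a s (x : LE F)) :
    Dg s 1 ((x * x : T) : LE F) := by
  have := h.mul_An (sgn_ne hs) h
  rw [mul_assoc, inv_mul_cancel₀ ha, mul_one, sgn_sq hs] at this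
  exact this

theorem isA.pow4 {x : T} (hx : isA x) : x ^ 4 = 1 := by
  obtain ⟨a, s, ha, hs, h⟩ := hx
  have h1 := isA.sq ha hs h
  have h2 := Dg_T_mul h1 h1
  rw [sgn_sq hs, mul_one] at h2
  have h3 : x ^ 4 = (x * x) * (x * x) := by simp only [pow_succ, pow_zero, one_mul, mul_assoc]
  rw [h3]
  exact eq_of_Dg h2 Dg_T_one

/-- The main case `m ≥ 3`. -/
theorem main3 (hT : IsT T) {m : ℕ} (hm : 3 ≤ m) (ζ : F) (hζ0 : ζ ≠ 0)
    (hζ : ∀ a : F, a ≠ 0 → ∃ k : ℕ, a = ζ ^ k) (hord : ∀ j : ℕ, ζ ^ j = 1 ↔ 2 ^ m ∣ j)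
    (β : MulAut T) {n K : ℕ} (hn : Odd n) (hβ : β ^ n = 1) (hK : ∀ x : T, x ^ (2 ^ K) = 1) :
    β = 1 := by
  have h1 : (1 : F) ≠ 0 := one_ne_zero
  have hm1 : (-1 : F) ≠ 0 := neg_ne_zero.mpr one_ne_zero
  let ρ : T := ⟨mkD ζ 1 hζ0 h1, (hT _).mpr ⟨ζ, 1, hζ0, Or.inl rfl, Or.inl (mkD_Dg ζ 1 hζ0 h1)⟩⟩
  have hρ : Dg ζ 1 (ρ : LE F) := mkD_Dg ζ 1 hζ0 h1
  let zt : T := ⟨mkD 1 (-1) h1 hm1, (hT _).mpr ⟨1, -1, h1, Or.inr rfl, Or.inl (mkD_Dg 1 (-1) h1 hm1)⟩⟩
  have hz : Dg (1 : F) (-1) (zt : LE F) := mkD_Dg 1 (-1) h1 hm1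
  have hρk : ∀ k : ℕ, Dg (ζ ^ k) 1 ((ρ ^ k : T) : LE F) := by
    intro k
    have := Dg_T_pow hρ k
    rwa [one_pow] at this
  -- the element `-1`
  have hne : ζ ^ (2 ^ (m - 1)) ≠ 1 := by
    intro h
    have h2 := (hord _).mp h
    have h3 := (Nat.pow_dvd_pow_iff_le_right (by norm_num : 1 < 2)).mp h2
    omega
  have hsq : ζ ^ (2 ^ (m - 1)) * ζ ^ (2 ^ (m - 1)) = 1 := by
    rw [← pow_add, hord]
    have : 2 ^ (m - 1) + 2 ^ (m - 1) = 2 ^ m := by
      obtain ⟨c, rfl⟩ : ∃ c, m = c + 1 := ⟨m - 1, by omega⟩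
      rw [Nat.add_sub_cancel, pow_succ]
      ring
    rw [this]
  have hneg : ζ ^ (2 ^ (m - 1)) = -1 := by
    rcases mul_self_eq_one_iff.mp hsq with h | h
    · exact absurd h hne
    · exact h
  have hone : (-1 : F) ≠ 1 := fun h => hne (hneg.trans h)
  let w : T := ρ ^ 2
  have hwk : ∀ k : ℕ, Dg (ζ ^ (2 * k)) 1 ((w ^ k : T) : LE F) := by
    intro k
    have : w ^ k = ρ ^ (2 * k) := (pow_mul ρ 2 k).symm
    rw [this]
    exact hρk _
  let minus : T := w ^ (2 ^ (m - 2))
  have hminus : Dg (-1 : F) 1 (minus : LE F) := by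
    have := hwk (2 ^ (m - 2))
    have h2 : 2 * 2 ^ (m - 2) = 2 ^ (m - 1) := by
      obtain ⟨c, rfl⟩ : ∃ c, m = c + 2 := ⟨m - 2, by omega⟩
      simp only [Nat.add_sub_cancel]
      have : c + 2 - 1 = c + 1 := by omega
      rw [this, pow_succ]
      ring
    rwa [h2, hneg] at this
  have hρ4 : ρ ^ 4 ≠ 1 := by
    intro h
    have h2 := hρk 4
    rw [h] at h2
    have h3 := h2.a_eq Dg_T_one
    have h4 := (hord 4).mp h3
    have h5 : 2 ^ 3 ∣ 4 := (pow_dvd_pow 2 hm).trans h4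
    omega
  have h4D : ∀ x : T, x ^ 4 ≠ 1 → isD x := by
    intro x hx
    rcases cl hT x with h | h
    · exact h
    · exact absurd h.pow4 hx
  have hρD : isD ρ := h4D ρ hρ4
  have hβ4 : ∀ x : T, x ^ 4 ≠ 1 → (β x) ^ 4 ≠ 1 := by
    intro x hx h
    rw [← map_pow] at h
    exact hx (β.injective (h.trans (map_one β).symm))
  have hβρ : isD (β ρ) := h4D _ (hβ4 _ hρ4)
  have hβD : ∀ x : T, isD x → isD (β x) := by
    intro x hx
    by_cases h : x ^ 4 = 1
    · have hy : (x * ρ) ^ 4 ≠ 1 := by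
        have hc : Commute x ρ := hx.comm hρD
        rw [hc.mul_pow, h, one_mul]
        exact hρ4
      have hy2 := h4D _ (hβ4 _ hy)
      rw [map_mul] at hy2
      rcases cl hT (β x) with h3 | h3
      · exact h3
      · exact (excl hy2 (h3.mul_D hβρ)).elim
    · exact h4D _ (hβ4 _ h)
  -- the action on `w`
  obtain ⟨a, s, ha, hs, hy⟩ := hβρ
  obtain ⟨k, rfl⟩ := hζ a ha
  have hβw : β w = w ^ k := by
    have h2 : Dg (ζ ^ (2 * k)) 1 (((β ρ) ^ 2 : T) : LE F) := by
      have := Dg_T_pow hy 2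
      rw [sq s, sgn_sq hs, ← pow_mul, mul_comm k 2] at this
      exact this
    have h3 : β w = (β ρ) ^ 2 := map_pow β ρ 2
    rw [h3]
    exact eq_of_Dg h2 (hwk k)
  have hiter : ∀ j : ℕ, (β ^ j) w = w ^ (k ^ j) := by
    intro j
    induction j with
    | zero => simp
    | succ j ih =>
      rw [pow_succ', MulAut.mul_apply, ih, map_pow, hβw, ← pow_mul, pow_succ']
  have hwn : w ^ (k ^ n) = w ^ 1 := by
    have := hiter n
    rw [hβ, MulAut.one_apply] at this
    rw [pow_one]; exact this.symm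
  have hwfix : β w = w := by
    obtain ⟨e, -, he⟩ := (Nat.dvd_prime_pow Nat.prime_two).mp (orderOf_dvd_of_pow_eq_one (hK w))
    rw [pow_eq_pow_iff_modEq, he] at hwn
    have h3 := odd_pow_modEq e k n hn hwn
    rw [hβw]
    have h4 : w ^ k = w ^ 1 := by
      rw [pow_eq_pow_iff_modEq, he]; exact h3
    rwa [pow_one] at h4
  have hRfix : ∀ i : ℕ, β (w ^ i) = w ^ i := by
    intro i; rw [map_pow, hwfix]
  have hminusfix : β minus = minus := hRfix _
  have hminus1 : minus ≠ 1 := by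
    intro h
    have h2 := hminus
    rw [h] at h2
    exact hone (h2.a_eq Dg_T_one)
  -- the element z
  have hzfix : β zt = zt := by
    obtain ⟨a2, s2, ha2, hs2, hy2⟩ := hβD zt ⟨1, -1, h1, Or.inr rfl, hz⟩
    have hzz : zt * zt = 1 := by
      have := Dg_T_mul hz hz
      simp only [mul_one, mul_neg, neg_neg] at this
      exact eq_of_Dg this Dg_T_one
    have hyy : β zt * β zt = 1 := by rw [← map_mul, hzz, map_one]
    have h3 := Dg_T_mul hy2 hy2
    rw [hyy] at h3
    have h4 := h3.a_eq Dg_T_one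
    rcases mul_self_eq_one_iff.mp h4 with rfl | rfl <;> rcases hs2 with rfl | rfl
    · exfalso
      have h5 : β zt = 1 := eq_of_Dg hy2 Dg_T_one
      have h6 : zt = 1 := β.injective (h5.trans (map_one β).symm)
      have h7 := hz
      rw [h6] at h7
      exact hone (h7.s_eq h1 Dg_T_one)
    · exact eq_of_Dg hy2 hz
    · exfalso
      have h5 : β zt = minus := eq_of_Dg hy2 hminus
      have h6 : zt = minus := β.injective (h5.trans hminusfix.symm)
      have h7 := hz
      rw [h6] at h7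
      exact hone (h7.a_eq hminus).symm
    · exfalso
      have h5 : β zt = zt * minus := by
        have := Dg_T_mul hz hminus
        simp only [mul_one, one_mul] at this
        exact eq_of_Dg hy2 this
      exact hminus1 (fix_step β hn hβ (hK _) hminusfix h5)
  -- the element ρ
  have hρfix : β ρ = ρ := by
    obtain ⟨c, hc | hc⟩ := Nat.even_or_odd' k
    · exfalso
      subst hc
      have h2 := Dg_T_pow hy (2 ^ (m - 1))
      have h3 : (ζ ^ (2 * c)) ^ (2 ^ (m - 1)) = 1 := by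
        rw [← pow_mul, hord]
        have h5 : 2 * c * 2 ^ (m - 1) = 2 ^ m * c := by
          obtain ⟨e, rfl⟩ : ∃ e, m = e + 1 := ⟨m - 1, by omega⟩
          rw [Nat.add_sub_cancel, pow_succ]
          ring
        exact ⟨c, h5⟩
      have h4 : s ^ (2 ^ (m - 1)) = 1 := by
        have hev : Even (2 ^ (m - 1)) := (Nat.even_pow.mpr ⟨even_two, by omega⟩)
        rcases hs with rfl | rfl
        · simp
        · exact hev.neg_one_pow
      rw [h3, h4, ← map_pow] at h2
      have h5 : β (ρ ^ (2 ^ (m - 1))) = 1 := eq_of_Dg h2 Dg_T_one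
      have h6 : ρ ^ (2 ^ (m - 1)) = 1 := β.injective (h5.trans (map_one β).symm)
      have h7 := hρk (2 ^ (m - 1))
      rw [h6] at h7
      exact hne (h7.a_eq Dg_T_one)
    · subst hc
      have hd : ∀ d : T, β d = d → β ρ = ρ * d → β ρ = ρ := by
        intro d hd hx
        have := fix_step β hn hβ (hK d) hd hx
        rw [hx, this, mul_one]
      rcases hs with rfl | rfl
      · apply hd (w ^ c) (hRfix c)
        have h5 := Dg_T_mul hρ (hwk c)
        rw [← pow_succ', one_mul] at h5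
        exact eq_of_Dg hy h5
      · apply hd (w ^ c * zt) (by rw [map_mul, hRfix, hzfix])
        have h5 := Dg_T_mul hρ (Dg_T_mul (hwk c) hz)
        rw [mul_one, ← pow_succ', one_mul, one_mul] at h5
        exact eq_of_Dg hy h5
  have hDfix : ∀ x : T, isD x → β x = x := by
    rintro x ⟨a3, s3, ha3, hs3, hx3⟩
    obtain ⟨k3, rfl⟩ := hζ a3 ha3
    rcases hs3 with rfl | rfl
    · have : x = ρ ^ k3 := eq_of_Dg hx3 (hρk k3)
      rw [this, map_pow, hρfix]
    · have h5 := Dg_T_mul (hρk k3) hz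
      rw [mul_one, one_mul] at h5
      have : x = ρ ^ k3 * zt := eq_of_Dg hx3 h5
      rw [this, map_mul, map_pow, hρfix, hzfix]
  have hAfix : ∀ x : T, isA x → β x = x := by
    intro x hx
    have hβx : isA (β x) := by
      rcases cl hT (β x) with h3 | h3
      · exfalso
        have h4 := hDfix _ h3
        have h5 : β x = x := β.injective h4
        rw [h5] at h3
        exact excl h3 hx
      · exact h3
    let d : T := x⁻¹ * β x
    have hdx : β x = x * d := by simp [d]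
    have hdD : isD d := by
      rcases cl hT d with h3 | h3
      · exact h3
      · exfalso
        have h4 := hx.mul_A h3
        rw [← hdx] at h4
        exact excl h4 hβx
    have := fix_step β hn hβ (hK d) (hDfix d hdD) hdx
    rw [hdx, this, mul_one]
  apply MulEquiv.ext
  intro x
  rcases cl hT x with h | h
  · exact hDfix x h
  · exact hAfix x h

/-- The field of two elements. -/
theorem main0 (hT : IsT T) (h : ∀ a : F, a ≠ 0 → a = 1) (hneg : (-1 : F) = 1) (β : MulAut T) :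
    β = 1 := by
  have hs1 : ∀ s : F, (s = 1 ∨ s = -1) → s = 1 := by
    rintro s (rfl | rfl)
    · rfl
    · exact hneg
  have hD : ∀ x : T, isD x → x = 1 := by
    rintro x ⟨a, s, ha, hs, hx⟩
    rw [h a ha, hs1 s hs] at hx
    exact eq_of_Dg hx Dg_T_one
  apply MulEquiv.ext
  intro x
  show β x = x
  rcases cl hT x with hx | hx
  · rw [hD x hx, map_one]
  · have hβx : isA (β x) := by
      rcases cl hT (β x) with h3 | h3
      · exfalso
        have h4 : x = 1 := β.injective ((hD _ h3).trans (map_one β).symm)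
        rw [h4] at hx
        exact excl ⟨1, 1, one_ne_zero, Or.inl rfl, Dg_T_one⟩ hx
      · exact h3
    obtain ⟨a, s, ha, hs, hxx⟩ := hx
    obtain ⟨b, t, hb, ht, hyy⟩ := hβx
    rw [h a ha, hs1 s hs] at hxx
    rw [h b hb, hs1 t ht] at hyy
    exact eq_of_An hyy hxx

/-- The field of three elements. -/
theorem main1 (hT : IsT T) (h : ∀ a : F, a ≠ 0 → a = 1 ∨ a = -1) (hone : (-1 : F) ≠ 1)
    (β : MulAut T) {n K : ℕ} (hn : Odd n) (hβ : β ^ n = 1) (hK : ∀ x : T, x ^ (2 ^ K) = 1) :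
    β = 1 := by
  have h1 : (1 : F) ≠ 0 := one_ne_zero
  have hm1 : (-1 : F) ≠ 0 := neg_ne_zero.mpr one_ne_zero
  let c : T := ⟨mkA 1 (-1) h1 hm1, (hT _).mpr ⟨1, -1, h1, Or.inr rfl, Or.inr (mkA_An 1 (-1) h1 hm1)⟩⟩
  have hc : An (1 : F) (-1) (c : LE F) := mkA_An 1 (-1) h1 hm1
  let t : T := ⟨mkD 1 (-1) h1 hm1, (hT _).mpr ⟨1, -1, h1, Or.inr rfl, Or.inl (mkD_Dg 1 (-1) h1 hm1)⟩⟩
  have ht : Dg (1 : F) (-1) (t : LE F) := mkD_Dg 1 (-1) h1 hm1
  let d2 : T := c * c
  have hd2 : Dg (-1 : F) 1 (d2 : LE F) := isA.sq h1 (Or.inr rfl) hc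
  have hd21 : d2 ≠ 1 := by
    intro h2
    have h3 := hd2
    rw [h2] at h3
    exact hone (h3.a_eq Dg_T_one)
  have hc3 : An (-1 : F) (-1) ((c * d2 : T) : LE F) := by
    have := hc.mul_Dg hd2
    simpa using this
  have hsq1 : ∀ a : F, a ≠ 0 → a * a = 1 := by
    intro a ha
    rcases h a ha with rfl | rfl <;> simp
  have hcfix : β c = c := by
    have hyy : β c * β c ≠ 1 := by
      intro h2
      rw [← map_mul] at h2
      exact hd21 (β.injective (h2.trans (map_one β).symm))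
    rcases cl hT (β c) with ⟨a, s, ha, hs, hy⟩ | ⟨a, s, ha, hs, hy⟩
    · exfalso
      apply hyy
      have h3 := Dg_T_mul hy hy
      rw [hsq1 a ha, sgn_sq hs] at h3
      exact eq_of_Dg h3 Dg_T_one
    · have h3 := isA.sq ha hs hy
      rcases hs with rfl | rfl
      · exact absurd (eq_of_Dg h3 Dg_T_one) hyy
      · have hd2fix : β d2 = d2 := by
          have : β d2 = β c * β c := map_mul β c c
          rw [this]
          exact eq_of_Dg h3 hd2
        rcases h a ha with rfl | rfl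
        · exact eq_of_An hy hc
        · exfalso
          have h5 : β c = c * d2 := eq_of_An hy hc3
          exact hd21 (fix_step β hn hβ (hK _) hd2fix h5)
  have hd2fix : β d2 = d2 := by
    have : β d2 = β c * β c := map_mul β c c
    rw [this, hcfix]
  have hSfixD : ∀ (x : T) (a : F), a ≠ 0 → Dg a 1 (x : LE F) → β x = x := by
    intro x a ha hx
    rcases h a ha with rfl | rfl
    · rw [eq_of_Dg hx Dg_T_one, map_one]
    · rw [eq_of_Dg hx hd2]; exact hd2fix
  have hSfixA : ∀ (x : T) (a : F), a ≠ 0 → An a (-1) (x : LE F) → β x = x := by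
    intro x a ha hx
    rcases h a ha with rfl | rfl
    · rw [eq_of_An hx hc]; exact hcfix
    · rw [eq_of_An hx hc3, map_mul, hcfix, hd2fix]
  have ht2 : Dg (-1 : F) (-1) ((t * d2 : T) : LE F) := by
    have := Dg_T_mul ht hd2
    simpa using this
  have htc : An (-1 : F) 1 ((t * c : T) : LE F) := by
    have := ht.mul_An hm1 hc
    simpa using this
  have htc3 : An (1 : F) 1 ((t * (c * d2) : T) : LE F) := by
    have := ht.mul_An hm1 hc3
    simpa using this
  have htfix : β t = t := by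
    have hfixcase : ∀ d : T, β d = d → β t = t * d → β t = t := by
      intro d hd hx
      have := fix_step β hn hβ (hK d) hd hx
      rw [hx, this, mul_one]
    rcases cl hT (β t) with ⟨a, s, ha, hs, hy⟩ | ⟨a, s, ha, hs, hy⟩
    · rcases hs with rfl | rfl
      · exfalso
        have h3 := hSfixD _ a ha hy
        have h4 : β t = t := β.injective h3
        rw [h4] at hy
        exact hone (ht.s_eq h1 hy)
      · rcases h a ha with rfl | rfl
        · exact eq_of_Dg hy ht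
        · exact hfixcase d2 hd2fix (eq_of_Dg hy ht2)
    · rcases hs with rfl | rfl
      · rcases h a ha with rfl | rfl
        · exact hfixcase (c * d2) (by rw [map_mul, hcfix, hd2fix]) (eq_of_An hy htc3)
        · exact hfixcase c hcfix (eq_of_An hy htc)
      · exfalso
        have h3 := hSfixA _ a ha hy
        have h4 : β t = t := β.injective h3
        rw [h4] at hy
        exact not_Dg_An h1 ht hy
  apply MulEquiv.ext
  intro x
  show β x = x
  rcases cl hT x with ⟨a, s, ha, hs, hy⟩ | ⟨a, s, ha, hs, hy⟩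
  · rcases hs with rfl | rfl
    · exact hSfixD x a ha hy
    · rcases h a ha with rfl | rfl
      · rw [eq_of_Dg hy ht]; exact htfix
      · rw [eq_of_Dg hy ht2, map_mul, htfix, hd2fix]
  · rcases hs with rfl | rfl
    · rcases h a ha with rfl | rfl
      · rw [eq_of_An hy htc3, map_mul, map_mul, htfix, hcfix, hd2fix]
      · rw [eq_of_An hy htc, map_mul, htfix, hcfix]
    · exact hSfixA x a ha hy

/-- All elements of `T` have 2-power order. -/
theorem hK_gen (hT : IsT T) {m : ℕ} (hpow : ∀ a : F, a ≠ 0 → a ^ (2 ^ m) = 1) (x : T) :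
    x ^ (2 ^ (m + 2)) = 1 := by
  have he : 2 ^ (m + 2) = 2 ^ m * 4 := by ring
  rcases cl hT x with ⟨a, s, ha, hs, hy⟩ | hx
  · have h2 := Dg_T_pow hy (2 ^ (m + 2))
    have h3 : a ^ (2 ^ (m + 2)) = 1 := by
      rw [he, pow_mul, hpow a ha, one_pow]
    have h4 : s ^ (2 ^ (m + 2)) = 1 := by
      have hev : Even (2 ^ (m + 2)) := Nat.even_pow.mpr ⟨even_two, by omega⟩
      rcases hs with rfl | rfl
      · simp
      · exact hev.neg_one_pow
    rw [h3, h4] at h2
    exact eq_of_Dg h2 Dg_T_one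
  · rw [he, mul_comm, pow_mul, hx.pow4, one_pow]

end TT

theorem zmod2_a : ∀ a : ZMod 2, a ≠ 0 → a = 1 := by decide
theorem zmod2_b : (-1 : ZMod 2) = 1 := by decide
theorem zmod3_a : ∀ a : ZMod 3, a ≠ 0 → a = 1 ∨ a = -1 := by decide
theorem zmod3_b : (-1 : ZMod 3) ≠ 1 := by decide

/-- Main theorem. -/
theorem main (q m : ℕ) [Fact q.Prime] (hq : q = 2 ^ m + 1) (hq5 : q ≠ 5)
    (T : Subgroup ((Fin 2 → ZMod q) ≃ₗ[ZMod q] (Fin 2 → ZMod q)))
    (hT : ∀ f, f ∈ T ↔ ∃ a s : ZMod q, a ≠ 0 ∧ (s = 1 ∨ s = -1) ∧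
      ((∀ v, f v = ![a * v 0, s * a⁻¹ * v 1]) ∨ (∀ v, f v = ![s * a⁻¹ * v 1, a * v 0]))) :
    IsPGroup 2 (MulAut T) := by
  have hp : q.Prime := Fact.out
  have hT' : IsT T := hT
  have hpow : ∀ a : ZMod q, a ≠ 0 → a ^ (2 ^ m) = 1 := by
    intro a ha
    have := ZMod.pow_card_sub_one_eq_one ha
    have h2 : q - 1 = 2 ^ m := by rw [hq, Nat.add_sub_cancel]
    rwa [h2] at this
  have hK := hK_gen hT' hpow
  have hfin : Finite (LE (ZMod q)) := DFunLike.finite _
  have hfinT : Finite T := inferInstance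
  have hfinA : Finite (MulAut T) := DFunLike.finite _
  suffices hs : ∀ (β : MulAut T) (n : ℕ), Odd n → β ^ n = 1 → β = 1 by
    intro α
    have h0 : orderOf α ≠ 0 := (orderOf_pos α).ne'
    obtain ⟨k, n, hn, hk⟩ := Nat.exists_eq_two_pow_mul_odd h0
    refine ⟨k, hs _ n hn ?_⟩
    rw [← pow_mul, ← hk, pow_orderOf_eq_one]
  intro β n hn hβ
  rcases m with _ | _ | _ | m
  · have hq2 : q = 2 := by simpa using hq
    subst hq2
    exact main0 hT' zmod2_a zmod2_b β
  · have hq3 : q = 3 := by simpa using hq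
    subst hq3
    exact main1 hT' zmod3_a zmod3_b β hn hβ hK
  · exfalso
    apply hq5
    rw [hq]; norm_num
  · obtain ⟨g, hg⟩ := IsCyclic.exists_generator (α := (ZMod q)ˣ)
    have hordg : orderOf g = 2 ^ (m + 1 + 1 + 1) := by
      rw [orderOf_eq_card_of_forall_mem_zpowers hg, Nat.card_eq_fintype_card, ZMod.card_units q]
      rw [hq, Nat.add_sub_cancel]
    refine main3 hT' (m := m + 1 + 1 + 1) (by omega) (g : ZMod q) g.ne_zero ?_ ?_ β hn hβ hK
    · intro a ha
      have h2 : Units.mk0 a ha ∈ Submonoid.powers g := by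
        rw [mem_powers_iff_mem_zpowers]
        exact hg _
      obtain ⟨k, hk⟩ := Submonoid.mem_powers_iff _ _ |>.mp h2
      refine ⟨k, ?_⟩
      have := congrArg Units.val hk
      simpa using this.symm
    · intro j
      rw [← hordg, orderOf_dvd_iff_pow_eq_one, ← Units.val_pow_eq_pow_val, Units.val_eq_one]


end Cfsg.Agent.Lib.Cl.MonoAut
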