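import Mathlib
import Cfsg.Prelude.Def_Transfer
import Cfsg.Agent.Lib.Cl.Klein
import Cfsg.Agent.Lib.Transfer.NormalESq

/-! A `2`-group with an elementary abelian subgroup of order eight has a normal four-subgroup. -/

set_option autoImplicit false

namespace Cfsg.Agent.Lib.Cl.NormalKlein

open Subgroup

theorem sq_mod_two_pow {n : ℕ} (hn : 1 ≤ n) {k : ℤ} (h : (2 : ℤ) ^ n ∣ (k - 1) * (k + 1)) :
    (2 : ℤ) ^ (n - 1) ∣ k - 1 ∨ (2 : ℤ) ^ (n - 1) ∣ k + 1 := by
  obtain ⟨m, rfl⟩ : ∃ m, n = m + 1 := ⟨n - 1, by omega⟩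
  rw [Nat.add_sub_cancel]
  rcases Nat.eq_zero_or_pos m with rfl | hm
  · left; simp
  obtain ⟨l, rfl⟩ : ∃ l, m = l + 1 := ⟨m - 1, by omega⟩
  have h2 : (2 : ℤ) ∣ (k - 1) * (k + 1) := Dvd.dvd.trans (dvd_pow_self 2 (by omega)) h
  have hodd : (2 : ℤ) ∣ k - 1 := by
    rcases Int.prime_two.dvd_or_dvd h2 with h3 | h3
    · exact h3
    · have : k - 1 = (k + 1) - 2 := by ring
      rw [this]
      exact dvd_sub h3 (dvd_refl 2)
  obtain ⟨j, hj⟩ := hodd
  have hk : k = 2 * j + 1 := by linarith
  subst hk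
  have e : (2 * j + 1 - 1) * (2 * j + 1 + 1) = 2 ^ 2 * (j * (j + 1)) := by ring
  rw [e, show l + 1 + 1 = l + 2 by ring, pow_add, mul_comm ((2 : ℤ) ^ l)] at h
  have h3 : (2 : ℤ) ^ l ∣ j * (j + 1) := (mul_dvd_mul_iff_left (by norm_num)).1 h
  rcases Int.even_or_odd j with hev | hod
  · -- `j + 1` is odd
    left
    have hc : IsCoprime ((2 : ℤ) ^ l) (j + 1) := by
      apply IsCoprime.pow_left
      rw [Int.isCoprime_iff_gcd_eq_one]
      have : Odd (j + 1) := hev.add_one
      rw [Int.gcd_comm]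
      exact Int.isCoprime_iff_gcd_eq_one.1 (by
        obtain ⟨w, hw⟩ := this
        exact ⟨1, -w, by rw [hw]; ring⟩)
    have h4 := hc.dvd_of_dvd_mul_right h3
    have e2 : 2 * j + 1 - 1 = 2 * j := by ring
    rw [e2, pow_succ, mul_comm]
    exact mul_dvd_mul_left 2 h4
  · right
    have hc : IsCoprime ((2 : ℤ) ^ l) j := by
      apply IsCoprime.pow_left
      obtain ⟨w, hw⟩ := hod
      exact ⟨-w, 1, by rw [hw]; ring⟩
    have h4 := hc.dvd_of_dvd_mul_left h3
    have e2 : 2 * j + 1 + 1 = 2 * (j + 1) := by ring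
    rw [e2, pow_succ, mul_comm]
    exact mul_dvd_mul_left 2 h4

variable {S : Type*} [Group S] [Finite S]

/-- The heart: the normal four-group when a maximal normal abelian subgroup is cyclic. -/
theorem exists_of_cyclic (h2 : IsPGroup 2 S) {b : S} (hB : (zpowers b).Normal)
    (hC : centralizer ({b} : Set S) ≤ zpowers b) (E : Subgroup S) (hE : Nat.card E = 8)
    (hEel : ∀ e ∈ E, e ^ 2 = 1) :
    ∃ U : Subgroup S, U.Normal ∧ Nat.card U = 4 ∧ ∀ u ∈ U, u ^ 2 = 1 := by
  classical
  haveI := Fintype.ofFinite S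
  obtain ⟨n, hn⟩ := IsPGroup.iff_orderOf.1 h2 b
  have hn1 : 1 ≤ n := by
    by_contra hcon
    have hn0 : n = 0 := by omega
    subst hn0
    have hb1 : b = 1 := by simpa using hn
    have hall : ∀ x : S, x = 1 := by
      intro x
      have h1 : x ∈ centralizer ({b} : Set S) := by
        rw [mem_centralizer_singleton_iff, hb1]
        simp
      have h3 := hC h1
      rw [hb1] at h3
      simpa using h3
    have h4 : Nat.card E = 1 := by
      rw [Nat.card_eq_one_iff_unique]
      exact ⟨⟨fun a c => Subtype.ext ((hall _).trans (hall _).symm)⟩, ⟨1⟩⟩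
    omega
  obtain ⟨l, rfl⟩ : ∃ l, n = l + 1 := ⟨n - 1, by omega⟩
  let z : S := b ^ 2 ^ l
  have hz2 : z * z = 1 := by
    show b ^ 2 ^ l * b ^ 2 ^ l = 1
    rw [← pow_add, ← two_mul, ← pow_succ', ← hn, pow_orderOf_eq_one]
  have hz1 : z ≠ 1 := by
    apply pow_ne_one_of_lt_orderOf (by positivity)
    rw [hn, pow_succ]
    have : 0 < 2 ^ l := by positivity
    omega
  have hzsq : z ^ 2 = 1 := by rw [pow_two]; exact hz2
  have hzmem : z ∈ zpowers b := npow_mem_zpowers _ _
  -- elements of the cyclic group squaring to one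
  have hinv : ∀ y ∈ zpowers b, y ^ 2 = 1 → y = 1 ∨ y = z := by
    intro y hy hy2
    rw [← mem_powers_iff_mem_zpowers] at hy
    obtain ⟨j, hj⟩ := hy
    have hj' : b ^ j = y := hj
    subst hj'
    have h1 : orderOf b ∣ j * 2 := by
      rw [orderOf_dvd_iff_pow_eq_one, pow_mul]
      exact hy2
    rw [hn, pow_succ] at h1
    have h3 : 2 ^ l ∣ j := Nat.dvd_of_mul_dvd_mul_right (by norm_num) h1
    obtain ⟨m, rfl⟩ := h3
    rw [pow_mul]
    show z ^ m = 1 ∨ z ^ m = z
    rcases Nat.even_or_odd m with hm | hm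
    · left
      obtain ⟨w, rfl⟩ := hm
      rw [← two_mul, pow_mul, hzsq, one_pow]
    · right
      obtain ⟨w, rfl⟩ := hm
      rw [pow_succ, pow_mul, hzsq, one_pow, one_mul]
  -- `z` is central
  have hzc : ∀ s : S, s * z * s⁻¹ = z := by
    intro s
    have h1 : s * z * s⁻¹ ∈ zpowers b := hB.conj_mem _ hzmem s
    have h3 : (s * z * s⁻¹) ^ 2 = 1 := by
      rw [conj_pow, hzsq]
      simp
    rcases hinv _ h1 h3 with h4 | h4
    · exfalso
      apply hz1
      have : z = s⁻¹ * (s * z * s⁻¹) * s := by group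
      rw [this, h4]
      simp
    · exact h4
  have hzcomm : ∀ s : S, s * z = z * s := by
    intro s
    have := hzc s
    rw [mul_inv_eq_iff_eq_mul] at this
    exact this
  -- the conjugation action on the generator
  have hact : ∀ s : S, ∃ k : ℕ, s * b * s⁻¹ = b ^ k := by
    intro s
    have h1 : s * b * s⁻¹ ∈ zpowers b := hB.conj_mem _ (mem_zpowers b) s
    rw [← mem_powers_iff_mem_zpowers] at h1
    obtain ⟨k, hk⟩ := h1
    exact ⟨k, hk.symm⟩
  have hswap : ∀ s t : S, s * (t * b * t⁻¹) * s⁻¹ = t * (s * b * s⁻¹) * t⁻¹ := by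
    intro s t
    obtain ⟨u, hu⟩ := hact s
    obtain ⟨v, hv⟩ := hact t
    rw [hv, hu, ← conj_pow, ← conj_pow, hu, hv, ← pow_mul, ← pow_mul, mul_comm]
  -- values on `E`
  have hvals : ∀ x ∈ E, x * b * x⁻¹ = b ∨ x * b * x⁻¹ = b⁻¹ ∨ x * b * x⁻¹ = b * z ∨ x * b * x⁻¹ = b⁻¹ * z := by
    intro x hx
    obtain ⟨k, hk⟩ := hact x
    have hx2 : x * x = 1 := by have := hEel x hx; rwa [pow_two] at this
    have hxinv : x⁻¹ = x := inv_eq_of_mul_eq_one_left hx2
    have h1 : x * (x * b * x⁻¹) * x⁻¹ = b := by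
      rw [hxinv]
      calc x * (x * b * x) * x = (x * x) * b * (x * x) := by group
        _ = b := by rw [hx2]; group
    rw [hk, ← conj_pow, hk, ← pow_mul] at h1
    have h3 : k * k ≡ 1 [MOD orderOf b] := by
      have := (pow_eq_pow_iff_modEq (x := b) (n := k * k) (m := 1)).1 (by rw [pow_one]; exact h1)
      exact this
    rw [hn] at h3
    have h4 : (2 : ℤ) ^ (l + 1) ∣ ((k : ℤ) - 1) * ((k : ℤ) + 1) := by
      have h5 := (Nat.modEq_iff_dvd.1 h3.symm)
      have e : ((k * k : ℕ) : ℤ) - ((1 : ℕ) : ℤ) = ((k : ℤ) - 1) * ((k : ℤ) + 1) := by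
        push_cast
        ring
      rw [e] at h5
      exact_mod_cast h5
    have hzpow : ∀ m : ℤ, z ^ m = 1 ∨ z ^ m = z := by
      intro m
      rcases Int.even_or_odd m with hm | hm
      · left
        obtain ⟨w, rfl⟩ := hm
        rw [← two_mul, zpow_mul]
        have : z ^ (2 : ℤ) = 1 := by exact_mod_cast hzsq
        rw [this, one_zpow]
      · right
        obtain ⟨w, rfl⟩ := hm
        rw [zpow_add, zpow_mul]
        have : z ^ (2 : ℤ) = 1 := by exact_mod_cast hzsq
        rw [this, one_zpow, one_mul, zpow_one]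
    have hzz : ∀ m : ℤ, b ^ ((2 : ℤ) ^ l * m) = z ^ m := by
      intro m
      rw [zpow_mul]
      congr 1
      show b ^ ((2 : ℤ) ^ l) = b ^ 2 ^ l
      exact_mod_cast rfl
    rcases sq_mod_two_pow (n := l + 1) (by omega) h4 with h5 | h5
    · rw [Nat.add_sub_cancel] at h5
      obtain ⟨m, hm⟩ := h5
      have e : b ^ k = b * z ^ m := by
        have hk1 : (k : ℤ) = 1 + (2 : ℤ) ^ l * m := by linarith
        rw [← hzz m, ← zpow_natCast, hk1, zpow_add, zpow_one]
      rw [hk, e]
      rcases hzpow m with h6 | h6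
      · left; rw [h6, mul_one]
      · right; right; left; rw [h6]
    · rw [Nat.add_sub_cancel] at h5
      obtain ⟨m, hm⟩ := h5
      have e : b ^ k = b⁻¹ * z ^ m := by
        have hk1 : (k : ℤ) = -1 + (2 : ℤ) ^ l * m := by linarith
        rw [← hzz m, ← zpow_natCast, hk1, zpow_add, zpow_neg_one]
      rw [hk, e]
      rcases hzpow m with h6 | h6
      · right; left; rw [h6, mul_one]
      · right; right; right; rw [h6]
  -- counting on `E`
  let Ef : Finset S := Finset.univ.filter (· ∈ E)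
  have hEf : Ef.card = 8 := by
    rw [← hE, Nat.card_eq_fintype_card, Fintype.card_subtype]
  let f : S → S := fun x => x * b * x⁻¹
  have hfib : ∀ a ∈ Ef.image f, (Ef.filter (fun x => f x = a)).card ≤ 2 := by
    intro a ha
    obtain ⟨x₀, hx₀, rfl⟩ := Finset.mem_image.1 ha
    have hx₀E : x₀ ∈ E := (Finset.mem_filter.1 hx₀).2
    have hsub : Ef.filter (fun x => f x = f x₀) ⊆ {x₀, x₀ * z} := by
      intro x hx
      obtain ⟨hxE, hfx⟩ := Finset.mem_filter.1 hx
      have hxE' : x ∈ E := (Finset.mem_filter.1 hxE).2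
      have hw : x₀⁻¹ * x ∈ centralizer ({b} : Set S) := by
        rw [mem_centralizer_singleton_iff]
        have h1 : x * b * x⁻¹ = x₀ * b * x₀⁻¹ := hfx
        have h3 : x₀⁻¹ * x * b * x⁻¹ * x₀ = b := by
          calc x₀⁻¹ * x * b * x⁻¹ * x₀ = x₀⁻¹ * (x * b * x⁻¹) * x₀ := by group
            _ = x₀⁻¹ * (x₀ * b * x₀⁻¹) * x₀ := by rw [h1]
            _ = b := by group
        calc x₀⁻¹ * x * b = x₀⁻¹ * x * b * x⁻¹ * x₀ * (x₀⁻¹ * x) := by group
          _ = b * (x₀⁻¹ * x) := by rw [h3]
      have hw2 : (x₀⁻¹ * x) ^ 2 = 1 := hEel _ (E.mul_mem (E.inv_mem hx₀E) hxE')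
      simp only [Finset.mem_insert, Finset.mem_singleton]
      rcases hinv _ (hC hw) hw2 with h3 | h3
      · left
        exact (inv_mul_eq_one.1 h3).symm
      · right
        rw [← h3]
        group
    calc (Ef.filter (fun x => f x = f x₀)).card ≤ ({x₀, x₀ * z} : Finset S).card := Finset.card_le_card hsub
      _ ≤ 2 := Finset.card_le_two
  have hcount : 8 ≤ 2 * (Ef.image f).card := by
    have := Finset.card_le_mul_card_image Ef 2 hfib
    rwa [hEf] at this
  have himg : ∀ a ∈ Ef.image f, a = b ∨ a = b⁻¹ ∨ a = b * z ∨ a = b⁻¹ * z := by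
    intro a ha
    obtain ⟨x₀, hx₀, rfl⟩ := Finset.mem_image.1 ha
    exact hvals x₀ (Finset.mem_filter.1 hx₀).2
  -- the element acting as `b ↦ b z`
  have hex : b * z ∈ Ef.image f := by
    by_contra hcon
    have hsub : Ef.image f ⊆ {b, b⁻¹, b⁻¹ * z} := by
      intro a ha
      simp only [Finset.mem_insert, Finset.mem_singleton]
      rcases himg a ha with h | h | h | h
      · exact Or.inl h
      · exact Or.inr (Or.inl h)
      · exact absurd (h ▸ ha) hcon
      · exact Or.inr (Or.inr h)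
    have := Finset.card_le_card hsub
    have h3 : ({b, b⁻¹, b⁻¹ * z} : Finset S).card ≤ 3 := Finset.card_le_three
    omega
  have hl1 : l ≠ 1 := by
    rintro rfl
    have hz' : z = b ^ 2 := by simp [z]
    have hb4 : b ^ 4 = 1 := by
      have : b ^ 2 ^ (1 + 1) = 1 := by rw [← hn, pow_orderOf_eq_one]
      simpa using this
    have e1 : b * z = b⁻¹ := by
      rw [hz', eq_inv_iff_mul_eq_one, ← hb4]
      group
    have e2 : b⁻¹ * z = b := by
      rw [hz', pow_two]
      group
    have hsub : Ef.image f ⊆ {b, b⁻¹} := by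
      intro a ha
      simp only [Finset.mem_insert, Finset.mem_singleton]
      rcases himg a ha with h | h | h | h
      · exact Or.inl h
      · exact Or.inr h
      · exact Or.inr (h.trans e1)
      · exact Or.inl (h.trans e2)
    have := Finset.card_le_card hsub
    have h3 : ({b, b⁻¹} : Finset S).card ≤ 2 := Finset.card_le_two
    omega
  obtain ⟨x, hxEf, hxb⟩ := Finset.mem_image.1 hex
  have hxE : x ∈ E := (Finset.mem_filter.1 hxEf).2
  have hxb' : x * b * x⁻¹ = b * z := hxb
  have hx2 : x ^ 2 = 1 := hEel x hxE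
  have hxx : x * x = 1 := by rwa [pow_two] at hx2
  have hxinv : x⁻¹ = x := inv_eq_of_mul_eq_one_left hxx
  have hx1 : x ≠ 1 := by
    rintro rfl
    apply hz1
    have : b = b * z := by simpa using hxb'
    simpa using this.symm
  have hxz : x ≠ z := by
    rintro rfl
    apply hz1
    have h1 : z * b * z⁻¹ = b := by
      rw [(hzcomm b).symm]
      group
    rw [h1] at hxb'
    simpa using hxb'.symm
  obtain ⟨U, hUk, hxU, hzU, hU⟩ := Cfsg.Agent.Lib.Cl.exists_klein hx2 hzsq (hzcomm x) hx1 hz1 hxz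
  -- normality
  have hsx : ∀ s : S, s * x * s⁻¹ = x ∨ s * x * s⁻¹ = x * z := by
    intro s
    let c : S := s * x * s⁻¹ * x⁻¹
    have hcdef : s * x * s⁻¹ = c * x := by simp [c]
    have hcb : c ∈ centralizer ({b} : Set S) := by
      rw [mem_centralizer_singleton_iff]
      have h1 := hswap s⁻¹ x⁻¹
      simp only [inv_inv] at h1
      have h3 : c * b * c⁻¹ = b := by
        calc c * b * c⁻¹ = s * x * (s⁻¹ * (x⁻¹ * b * x) * s) * x⁻¹ * s⁻¹ := by simp only [c]; group
          _ = s * x * (x⁻¹ * (s⁻¹ * b * s) * x) * x⁻¹ * s⁻¹ := by rw [h1]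
          _ = b := by group
      rw [mul_inv_eq_iff_eq_mul] at h3
      exact h3
    have hc1 := hC hcb
    rw [← mem_powers_iff_mem_zpowers] at hc1
    obtain ⟨j, hj⟩ := hc1
    have hj' : c = b ^ j := hj.symm
    have hcx : (c * x) * (c * x) = 1 := by
      rw [← hcdef]
      calc s * x * s⁻¹ * (s * x * s⁻¹) = s * (x * x) * s⁻¹ := by group
        _ = 1 := by rw [hxx]; group
    have hxc : x * c * x⁻¹ = c * z ^ j := by
      rw [hj', ← conj_pow, hxb']
      have : Commute b z := (hzcomm b)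
      rw [this.mul_pow]
    have hcc : c * c * z ^ j = 1 := by
      calc c * c * z ^ j = c * (c * z ^ j) := by group
        _ = c * (x * c * x⁻¹) := by rw [hxc]
        _ = (c * x) * (c * x) * x⁻¹ * x⁻¹ := by group
        _ = x⁻¹ * x⁻¹ := by rw [hcx, one_mul]
        _ = 1 := by rw [hxinv, hxx]
    rcases Nat.even_or_odd j with hev | hod
    · have hzj : z ^ j = 1 := by
        obtain ⟨w, rfl⟩ := hev
        rw [← two_mul, pow_mul, hzsq, one_pow]
      rw [hzj, mul_one] at hcc
      have hc2 : c ^ 2 = 1 := by rwa [pow_two]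
      have hcm : c ∈ zpowers b := hC hcb
      rcases hinv c hcm hc2 with h3 | h3
      · left
        rw [hcdef, h3, one_mul]
      · right
        rw [hcdef, h3]
        exact (hzcomm x).symm
    · exfalso
      have hzj : z ^ j = z := by
        obtain ⟨w, rfl⟩ := hod
        rw [pow_succ, pow_mul, hzsq, one_pow, one_mul]
      rw [hzj] at hcc
      have h3 : c * c = z := by
        have : c * c = z⁻¹ := eq_inv_of_mul_eq_one_left hcc
        rw [this]
        exact inv_eq_of_mul_eq_one_left hz2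
      rw [hj', ← pow_add] at h3
      have h4 : j + j ≡ 2 ^ l [MOD orderOf b] := (pow_eq_pow_iff_modEq).1 h3
      rw [hn] at h4
      rcases Nat.lt_or_ge l 2 with hl | hl
      · have hl0 : l = 0 := by omega
        subst hl0
        have h5 := h4.dvd_iff (d := 2) (by simp)
        simp at h5
        omega
      · obtain ⟨l', rfl⟩ : ∃ l', l = l' + 2 := ⟨l - 2, by omega⟩
        have h5 := h4.dvd_iff (d := 4) (by rw [pow_succ, pow_add]; exact ⟨2 ^ l' * 2, by ring⟩)
        have h6 : 4 ∣ 2 ^ (l' + 2) := by rw [pow_add]; exact ⟨2 ^ l', by ring⟩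
        have h7 := h5.2 h6
        obtain ⟨w, hw⟩ := hod
        omega
  refine ⟨U, ?_, IsKleinFour.card_four, ?_⟩
  · constructor
    intro u hu s
    rcases hU u hu with rfl | rfl | rfl | rfl
    · simp
    · rcases hsx s with h | h <;> rw [h]
      · exact hxU
      · exact U.mul_mem hxU hzU
    · rw [hzc]
      exact hzU
    · have e : s * (x * z) * s⁻¹ = (s * x * s⁻¹) * (s * z * s⁻¹) := by group
      rw [e, hzc]
      rcases hsx s with h | h <;> rw [h]
      · exact U.mul_mem hxU hzU
      · exact U.mul_mem (U.mul_mem hxU hzU) hzU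
  · intro u hu
    have h1 := Monoid.pow_exponent_eq_one (⟨u, hu⟩ : U)
    rw [IsKleinFour.exponent_two] at h1
    exact congrArg Subtype.val h1

/-- A finite `2`-group with an elementary abelian subgroup of order eight has a normal four-subgroup. -/
theorem exists_normal_klein (h2 : IsPGroup 2 S) (E : Subgroup S) (hE : Nat.card E = 8)
    (hEel : ∀ e ∈ E, e ^ 2 = 1) :
    ∃ U : Subgroup S, U.Normal ∧ Nat.card U = 4 ∧ ∀ u ∈ U, u ^ 2 = 1 := by
  classical
  -- a maximal normal abelian subgroup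
  let F : Set (Subgroup S) := {A | A.Normal ∧ IsMulCommutative A}
  have hbot : (⊥ : Subgroup S) ∈ F := ⟨inferInstance, inferInstance⟩
  obtain ⟨B, hBm⟩ := Set.Finite.exists_maximal (Set.toFinite F) ⟨⊥, hbot⟩
  obtain ⟨hBn, hBab⟩ := hBm.prop
  haveI := hBn
  haveI : Fact (Nat.Prime 2) := ⟨Nat.prime_two⟩
  have hC : centralizer (B : Set S) ≤ B :=
    Cfsg.Agent.Lib.Transfer.centralizer_le_of_max_abelian_normal h2 B hBab (fun C hCn hCab hBC => by
      have := hBm.2 ⟨hCn, hCab⟩ hBC
      exact le_antisymm this hBC)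
  by_cases hcyc : IsCyclic B
  · obtain ⟨⟨b, hb⟩, hgen⟩ := hcyc.exists_generator
    have hzb : zpowers b = B := by
      apply le_antisymm
      · rw [zpowers_le]
        exact hb
      · intro y hy
        obtain ⟨k, hk⟩ := hgen ⟨y, hy⟩
        refine ⟨k, ?_⟩
        have := congrArg Subtype.val hk
        simpa using this
    have hCb : centralizer ({b} : Set S) ≤ zpowers b := by
      rw [hzb]
      refine le_trans ?_ hC
      intro x hx
      rw [mem_centralizer_iff]
      intro y hy
      rw [SetLike.mem_coe, ← hzb] at hy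
      obtain ⟨k, rfl⟩ := hy
      rw [mem_centralizer_singleton_iff] at hx
      have hcomm : Commute x b := hx
      exact (hcomm.zpow_right k).symm
    exact exists_of_cyclic h2 (by rw [hzb]; exact hBn) hCb E hE hEel
  · obtain ⟨U, -, hUn, hUel, hUc⟩ := Cfsg.Agent.Lib.Transfer.exists_normal_elem_of_abelian h2 B hBab hcyc
    exact ⟨U, hUn, by rw [hUc]; norm_num, hUel.2⟩

theorem klein_claim {A E : Subgroup S} (hA4 : Nat.card A = 4) (hAel : ∀ a ∈ A, a ^ 2 = 1)
    (hE8 : Nat.card E = 8) (hEel : ∀ e ∈ E, e ^ 2 = 1) (hidx : (centralizer (A : Set S)).index ≤ 2)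
    {y : S} (hy : y ∈ centralizer (A : Set S)) (hy2 : y ^ 2 = 1) :
    ∃ F : Subgroup S, F ≤ centralizer ({y} : Set S) ∧ Nat.card F = 8 ∧ ∀ f ∈ F, f ^ 2 = 1 := by
  classical
  have habel : ∀ {X : Subgroup S}, (∀ a ∈ X, a ^ 2 = 1) → ∀ a ∈ X, ∀ b ∈ X, a * b = b * a := by
    intro X hX a ha b hb
    have h1 := hX a ha
    have h2 := hX b hb
    have h3 := hX _ (X.mul_mem ha hb)
    rw [pow_two] at h1 h2 h3
    have e : a * b = (a * b)⁻¹ := eq_inv_of_mul_eq_one_left h3
    rw [e, mul_inv_rev, inv_eq_of_mul_eq_one_left h1, inv_eq_of_mul_eq_one_left h2]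
  have hAea : Cfsg.IsElementaryAbelian 2 A :=
    ⟨⟨⟨fun a b => Subtype.ext (habel hAel a.1 a.2 b.1 b.2)⟩⟩, hAel⟩
  have hcomm : ∀ {c : S}, c ∈ centralizer (A : Set S) → ∀ a ∈ A, a * c = c * a := by
    intro c hc a ha
    exact (mem_centralizer_iff.1 hc) a ha
  have hfin : ∀ {B : Subgroup S}, Cfsg.IsElementaryAbelian 2 B → y ∈ B → B ≤ centralizer ({y} : Set S) := by
    intro B hB hyB f hf
    rw [mem_centralizer_singleton_iff]
    exact congrArg Subtype.val (hB.1.is_comm.comm (⟨f, hf⟩ : B) ⟨y, hyB⟩)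
  by_cases hyA : y ∈ A
  · -- `y ∈ A`
    let C := centralizer (A : Set S)
    by_cases hex : ∃ d ∈ E, d ∈ C ∧ d ∉ A
    · obtain ⟨d, hdE, hdC, hdA⟩ := hex
      obtain ⟨B, hAB, -, hB, hBc, -⟩ := Cfsg.Agent.Lib.Cl.exists_ea_extend hAea (hEel d hdE) hdA (hcomm hdC)
      exact ⟨B, hfin hB (hAB hyA), by rw [hBc, hA4], hB.2⟩
    · exfalso
      push Not at hex
      let D := C.subgroupOf E
      have h1 : Nat.card D * D.index = 8 := by rw [D.card_mul_index, hE8]
      have hC0 : C.index ≠ 0 := Subgroup.index_ne_zero_of_finite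
      have h2 : D.index ≤ 2 := by
        by_cases hC1 : C.index = 1
        · have h3 : C = ⊤ := Subgroup.index_eq_one.1 hC1
          have h4 : D = ⊤ := by
            show C.subgroupOf E = ⊤
            rw [h3]
            exact Subgroup.subgroupOf_eq_top.2 le_top
          rw [h4, Subgroup.index_top]
          norm_num
        · have hC2 : C.index = 2 := by
            have : C.index ≤ 2 := hidx
            omega
          haveI : C.Normal := Subgroup.normal_of_index_eq_two hC2
          have h3 : D.index ∣ C.index := Subgroup.relIndex_dvd_index_of_normal C E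
          exact Nat.le_of_dvd (by omega) (by rw [hC2] at h3; exact h3)
      have h3 : 4 ≤ Nat.card D := by
        by_contra hcon
        have : Nat.card D ≤ 3 := by omega
        have h4 : Nat.card D * D.index ≤ 3 * 2 := Nat.mul_le_mul this h2
        omega
      let g : D → A := fun d => ⟨d.1.1, hex _ d.1.2 (Subgroup.mem_subgroupOf.1 d.2)⟩
      have hginj : Function.Injective g := by
        intro a c hac
        apply Subtype.ext
        apply Subtype.ext
        have h5 := congrArg Subtype.val hac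
        exact h5
      have hle : Nat.card D ≤ Nat.card A := Nat.card_le_card_of_injective g hginj
      have hgs : Function.Surjective g :=
        (hginj.bijective_of_nat_card_le (by omega)).2
      have hAE : A ≤ E := by
        intro a ha
        obtain ⟨d, hd⟩ := hgs ⟨a, ha⟩
        have : (d.1 : S) = a := congrArg Subtype.val hd
        rw [← this]
        exact d.1.2
      have hEC : ∀ e ∈ E, e ∈ C := by
        intro e he
        rw [mem_centralizer_iff]
        intro a ha
        exact habel hEel a (hAE ha) e he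
      have hDtop : D = ⊤ := by
        rw [eq_top_iff]
        intro e _
        exact Subgroup.mem_subgroupOf.2 (hEC _ e.2)
      have : Nat.card D = 8 := by
        rw [hDtop, Subgroup.card_top, hE8]
      omega
  · obtain ⟨B, -, hyB, hB, hBc, -⟩ := Cfsg.Agent.Lib.Cl.exists_ea_extend hAea hy2 hyA (hcomm hy)
    exact ⟨B, hfin hB hyB, by rw [hBc, hA4], hB.2⟩

end Cfsg.Agent.Lib.Cl.NormalKlein
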