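import Mathlib
import Cfsg.Agent.Lib.Coprime.FrobCount

/-! Counting elements of a given order: the fixed-point congruences. -/

set_option autoImplicit false

namespace Cfsg.Agent.Lib.Cl

open Subgroup

universe u

variable {G : Type u} [Group G] [Finite G]

/-- The number of elements of order `m`. -/
noncomputable abbrev NN (G : Type u) [Group G] (m : ℕ) : ℕ := Nat.card {g : G // orderOf g = m}

theorem NN_card_pow_eq (k : ℕ) (hk : k ≠ 0) :
    Nat.card {x : G // x ^ k = 1} = ∑ d ∈ k.divisors, NN G d := by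
  classical
  haveI := Fintype.ofFinite G
  rw [Nat.card_eq_fintype_card, Fintype.card_subtype]
  rw [Finset.card_eq_sum_card_fiberwise (f := orderOf) (t := k.divisors)]
  · apply Finset.sum_congr rfl
    intro d hd
    rw [NN, Nat.card_eq_fintype_card, Fintype.card_subtype]
    congr 1
    ext x
    simp only [Finset.mem_filter, Finset.mem_univ, true_and, and_iff_right_iff_imp]
    intro hx
    rw [← hx] at hd
    exact orderOf_dvd_iff_pow_eq_one.mp (Nat.mem_divisors.mp hd).1
  · intro x hx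
    have hx' : x ^ k = 1 := by simpa using hx
    exact Nat.mem_divisors.mpr ⟨orderOf_dvd_of_pow_eq_one hx', hk⟩

theorem NN_one : NN G 1 = 1 := by
  rw [NN, Nat.card_eq_one_iff_unique]
  refine ⟨⟨?_⟩, ⟨⟨1, orderOf_one⟩⟩⟩
  rintro ⟨a, ha⟩ ⟨b, hb⟩
  rw [orderOf_eq_one_iff] at ha hb
  subst ha; subst hb; rfl

/-- `p ∣ 1 + #{x : o(x) = p}`. -/
theorem NN_prime_dvd {p : ℕ} (hp : p.Prime) (hd : p ∣ Nat.card G) : p ∣ 1 + NN G p := by
  have := Cfsg.Agent.Lib.Coprime.frobenius_count (G := G) p hd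
  rw [NN_card_pow_eq p hp.ne_zero, hp.divisors, Finset.sum_pair hp.one_lt.ne, NN_one] at this
  exact this

/-- The number of elements of order `m` commuting with `x`. -/
noncomputable abbrev NC (m : ℕ) (x : G) : ℕ := Nat.card {y : G // orderOf y = m ∧ Commute x y}

theorem orderOf_conj_eq (g y : G) : orderOf (g * y * g⁻¹) = orderOf y := by
  have h0 : g * y * g⁻¹ = MulAut.conj g y := rfl
  rw [h0, MulEquiv.orderOf_eq]

/-- Elements of order `m` fixed by `x` of prime order. -/
theorem NC_modEq {p : ℕ} (hp : p.Prime) (m : ℕ) {x : G} (hx : orderOf x = p) :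
    NC m x ≡ NN G m [MOD p] := by
  classical
  haveI : Fact p.Prime := ⟨hp⟩
  have hA : IsPGroup p (zpowers x) := by
    apply IsPGroup.of_card (n := 1)
    rw [Nat.card_zpowers, hx, pow_one]
  letI act : MulAction (zpowers x) {y : G // orderOf y = m} :=
    { smul := fun g y => ⟨(g : G) * y * (g : G)⁻¹, by
        rw [orderOf_conj_eq]
        exact y.2⟩
      one_smul := fun y => Subtype.ext (by
        show ((1 : zpowers x) : G) * y * ((1 : zpowers x) : G)⁻¹ = y
        simp)
      mul_smul := fun a b y => Subtype.ext (by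
        show ((a * b : zpowers x) : G) * y * ((a * b : zpowers x) : G)⁻¹ =
          (a : G) * ((b : G) * y * (b : G)⁻¹) * (a : G)⁻¹
        simp only [Subgroup.coe_mul]
        group) }
  have h := hA.card_modEq_card_fixedPoints {y : G // orderOf y = m}
  have heq : Nat.card (MulAction.fixedPoints (zpowers x) {y : G // orderOf y = m}) = NC m x := by
    apply Nat.card_congr
    refine ⟨fun w => ⟨w.1.1, w.1.2, ?_⟩, fun w => ⟨⟨w.1, w.2.1⟩, ?_⟩, ?_, ?_⟩
    · have h1 := w.2 ⟨x, mem_zpowers x⟩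
      have h2 : x * w.1.1 * x⁻¹ = w.1.1 := congrArg Subtype.val h1
      rw [mul_inv_eq_iff_eq_mul] at h2
      exact h2
    · rintro ⟨g, hg⟩
      obtain ⟨k, rfl⟩ := mem_zpowers_iff.mp hg
      apply Subtype.ext
      show x ^ k * w.1 * (x ^ k)⁻¹ = w.1
      have h3 : Commute (x ^ k) w.1 := (w.2.2).zpow_left k
      rw [h3.eq]
      group
    · intro w; rfl
    · intro w; rfl
  rw [heq] at h
  exact h.symm

/-- The decomposition of an element of order `pm` into commuting factors. -/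
theorem NN_mul_eq_sum {p m : ℕ} (hp : p.Prime) (hcop : Nat.Coprime p m) (hm : m ≠ 0) :
    Nat.card (Σ x : {x : G // orderOf x = p}, {y : G // orderOf y = m ∧ Commute (x : G) y}) =
      NN G (p * m) := by
  classical
  haveI : Fact p.Prime := ⟨hp⟩
  obtain ⟨u, hu1, hu2⟩ := Nat.chineseRemainder hcop 1 0
  obtain ⟨v, hv1, hv2⟩ := Nat.chineseRemainder hcop 0 1
  have hpm0 : p * m ≠ 0 := mul_ne_zero hp.ne_zero hm
  have huv : ∀ g : G, orderOf g = p * m → g ^ u * g ^ v = g := by
    intro g hg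
    rw [← pow_add]
    have h1 : u + v ≡ 1 [MOD p * m] := by
      rw [← Nat.modEq_and_modEq_iff_modEq_mul hcop]
      constructor
      · simpa using hu1.add hv1
      · simpa using hu2.add hv2
    have h2 : g ^ (u + v) = g ^ 1 := by
      rw [pow_eq_pow_iff_modEq, hg]
      exact h1
    rw [h2, pow_one]
  have hcompx : ∀ g : G, orderOf g = p * m → orderOf (g ^ u) = p := by
    intro g hg
    apply orderOf_eq_prime
    · rw [← pow_mul, ← orderOf_dvd_iff_pow_eq_one, hg, mul_comm u p]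
      exact Nat.mul_dvd_mul_left p (Nat.modEq_zero_iff_dvd.mp hu2)
    · intro h0
      have h1 := orderOf_dvd_of_pow_eq_one h0
      rw [hg] at h1
      have h2 : p ∣ u := (Dvd.intro _ rfl).trans h1
      have h3 : u ≡ 0 [MOD p] := Nat.modEq_zero_iff_dvd.mpr h2
      have h4 : 1 ≡ 0 [MOD p] := hu1.symm.trans h3
      have h5 : p ∣ 1 := Nat.modEq_zero_iff_dvd.mp h4
      exact hp.one_lt.ne' (Nat.dvd_one.mp h5)
  have hcomp : ∀ g : G, Commute (g ^ u) (g ^ v) := fun g => (Commute.refl g).pow_pow u v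
  have hcompy : ∀ g : G, orderOf g = p * m → orderOf (g ^ v) = m := by
    intro g hg
    have hdv : orderOf (g ^ v) ∣ m := by
      apply orderOf_dvd_of_pow_eq_one
      rw [← pow_mul, ← orderOf_dvd_iff_pow_eq_one, hg]
      exact Nat.mul_dvd_mul (Nat.modEq_zero_iff_dvd.mp hv1) dvd_rfl
    have h1 := (hcomp g).orderOf_mul_eq_mul_orderOf_of_coprime (by
      rw [hcompx g hg]
      exact Nat.Coprime.coprime_dvd_right hdv hcop)
    rw [huv g hg, hcompx g hg, hg] at h1
    exact (Nat.eq_of_mul_eq_mul_left hp.pos h1).symm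
  apply Nat.card_congr
  refine ⟨fun w => ⟨w.1.1 * w.2.1, ?_⟩, fun g => ⟨⟨g.1 ^ u, hcompx g.1 g.2⟩,
    ⟨g.1 ^ v, hcompy g.1 g.2, hcomp g.1⟩⟩, ?_, ?_⟩
  · have h1 := (w.2.2.2).orderOf_mul_eq_mul_orderOf_of_coprime (by
      rw [w.1.2, w.2.2.1]; exact hcop)
    rw [h1, w.1.2, w.2.2.1]
  · rintro ⟨⟨x, hx⟩, ⟨y, hy, hxy⟩⟩
    have hy' : y ^ m = 1 := by rw [← hy]; exact pow_orderOf_eq_one y
    have hx' : x ^ p = 1 := by rw [← hx]; exact pow_orderOf_eq_one x
    have e1 : (x * y) ^ u = x := by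
      rw [hxy.mul_pow]
      have h1 : x ^ u = x ^ 1 := by
        rw [pow_eq_pow_iff_modEq, hx]
        exact hu1
      have h2 : y ^ u = 1 := by
        rw [← orderOf_dvd_iff_pow_eq_one, hy]
        exact (Nat.modEq_zero_iff_dvd.mp hu2)
      rw [h1, h2, mul_one, pow_one]
    have e2 : (x * y) ^ v = y := by
      rw [hxy.mul_pow]
      have h1 : y ^ v = y ^ 1 := by
        rw [pow_eq_pow_iff_modEq, hy]
        exact hv2
      have h2 : x ^ v = 1 := by
        rw [← orderOf_dvd_iff_pow_eq_one, hx]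
        exact (Nat.modEq_zero_iff_dvd.mp hv1)
      rw [h1, h2, one_mul, pow_one]
    have hxeq : (⟨(x * y) ^ u, hcompx (x * y) (by
        rw [hxy.orderOf_mul_eq_mul_orderOf_of_coprime (by rw [hx, hy]; exact hcop), hx, hy])⟩ :
          {x : G // orderOf x = p}) = ⟨x, hx⟩ := Subtype.ext e1
    simp only [Sigma.mk.injEq]
    constructor
    · exact hxeq
    · refine Subtype.heq_iff_coe_eq ?_ |>.mpr e2
      intro t
      rw [e1]
  · rintro ⟨g, hg⟩
    exact Subtype.ext (huv g hg)

theorem NN_mul_eq_sum' {p m : ℕ} (hp : p.Prime) (hcop : Nat.Coprime p m) (hm : m ≠ 0) :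
    NN G (p * m) = ∑ᶠ x : {x : G // orderOf x = p}, NC m (x : G) := by
  classical
  haveI := Fintype.ofFinite {x : G // orderOf x = p}
  rw [← NN_mul_eq_sum (G := G) hp hcop hm, Nat.card_sigma, finsum_eq_sum_of_fintype]

/-- `N(pm) ≡ N(p) N(m) (mod p)`. -/
theorem NN_mul_modEq {p m : ℕ} (hp : p.Prime) (hcop : Nat.Coprime p m) (hm : m ≠ 0) :
    NN G (p * m) ≡ NN G p * NN G m [MOD p] := by
  classical
  haveI := Fintype.ofFinite {x : G // orderOf x = p}
  rw [← NN_mul_eq_sum (G := G) hp hcop hm, Nat.card_sigma]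
  have h1 : ∀ x : {x : G // orderOf x = p}, NC m (x : G) ≡ NN G m [MOD p] :=
    fun x => NC_modEq hp m x.2
  have h2 : ∑ x : {x : G // orderOf x = p}, NC m (x : G) ≡
      ∑ _x : {x : G // orderOf x = p}, NN G m [MOD p] := by
    rw [Nat.ModEq, Finset.sum_nat_mod, Finset.sum_nat_mod (f := fun _ => NN G m)]
    congr 1
    apply Finset.sum_congr rfl
    intro x _
    exact h1 x
  refine h2.trans ?_
  rw [Finset.sum_const, Finset.card_univ, smul_eq_mul, ← Nat.card_eq_fintype_card]

/-- If `p ∤ N(m)`, `m ≥ 3`, each element of order `p` commutes with two elements of order `m`. -/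
theorem two_mul_NN_le {p m : ℕ} (hp : p.Prime) (hcop : Nat.Coprime p m) (hm : 3 ≤ m)
    (hN : ¬ p ∣ NN G m) : 2 * NN G p ≤ NN G (p * m) := by
  classical
  haveI := Fintype.ofFinite {x : G // orderOf x = p}
  rw [← NN_mul_eq_sum (G := G) hp hcop (by omega), Nat.card_sigma]
  have h1 : ∀ x : {x : G // orderOf x = p}, 2 ≤ NC m (x : G) := by
    intro x
    have h2 := NC_modEq hp m x.2
    have h3 : NC m (x : G) ≠ 0 := by
      intro h0
      rw [h0] at h2
      exact hN (Nat.modEq_zero_iff_dvd.mp h2.symm)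
    rw [NC] at h3 ⊢
    haveI : Finite {y : G // orderOf y = m ∧ Commute (x : G) y} := inferInstance
    obtain ⟨⟨y, hy, hxy⟩⟩ : Nonempty {y : G // orderOf y = m ∧ Commute (x : G) y} := by
      by_contra hne
      rw [not_nonempty_iff] at hne
      exact h3 Nat.card_of_isEmpty
    have hne : y ≠ y⁻¹ := by
      intro h
      have h4 : y ^ 2 = 1 := by
        rw [pow_two]
        nth_rewrite 1 [h]
        exact inv_mul_cancel _
      have h5 := orderOf_le_of_pow_eq_one (by norm_num) h4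
      omega
    have : Nontrivial {y : G // orderOf y = m ∧ Commute (x : G) y} :=
      ⟨⟨⟨y, hy, hxy⟩, ⟨y⁻¹, by rw [orderOf_inv]; exact hy, hxy.inv_right⟩,
        fun h => hne (congrArg Subtype.val h)⟩⟩
    exact Finite.one_lt_card
  calc 2 * NN G p = ∑ _x : {x : G // orderOf x = p}, 2 := by
        rw [Finset.sum_const, Finset.card_univ, smul_eq_mul, ← Nat.card_eq_fintype_card, mul_comm]
    _ ≤ _ := Finset.sum_le_sum fun x _ => h1 x

/-- A number with all prime divisors in `{p, q}` is `p^a q^b`. -/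
theorem eq_pow_mul_pow_of_primes {p q : ℕ} : ∀ (n : ℕ), n ≠ 0 →
    (∀ r : ℕ, r.Prime → r ∣ n → r = p ∨ r = q) → ∃ a b : ℕ, n = p ^ a * q ^ b := by
  intro n
  induction n using Nat.strong_induction_on with
  | _ n ih =>
    intro hn hp
    by_cases h1 : n = 1
    · exact ⟨0, 0, by simp [h1]⟩
    obtain ⟨r, hrp, hdvd⟩ := Nat.exists_prime_and_dvd h1
    obtain ⟨m, rfl⟩ := hdvd
    have hm0 : m ≠ 0 := fun h => hn (by simp [h])
    have hlt : m < r * m := by
      have := hrp.two_le
      have : 0 < m := Nat.pos_of_ne_zero hm0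
      nlinarith
    obtain ⟨a, b, hab⟩ := ih m hlt hm0 (fun s hs hd => hp s hs (hd.trans (Dvd.intro_left r rfl)))
    rcases hp r hrp (Dvd.intro m rfl) with rfl | rfl
    · exact ⟨a + 1, b, by rw [hab, pow_succ]; ring⟩
    · exact ⟨a, b + 1, by rw [hab, pow_succ]; ring⟩

end Cfsg.Agent.Lib.Cl
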