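import Mathlib
import Cfsg.Agent.Lib.Cl.Pres3
import Cfsg.Agent.Lib.Frobenius.Basic

/-! `SL(2,5)` is a Frobenius complement. -/

set_option autoImplicit false

namespace Cfsg.Agent.Lib.Cl.Pres

open Subgroup Matrix

abbrev SL211 := SpecialLinearGroup (Fin 2) (ZMod 11)

def elA : SL211 := ⟨!![7, 1; 9, 3], by decide⟩
def elB : SL211 := ⟨!![3, 0; 0, 4], by decide⟩
def elC : SL211 := ⟨!![-1, 0; 0, -1], by decide⟩

theorem elA_pow : elA ^ 3 = 1 := by decide
theorem elB_pow : elB ^ 5 = 1 := by decide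
theorem elC_pow : elC ^ 2 = 1 := by decide
theorem elAB : (elA * elB) ^ 2 = elC := by decide
theorem elC_comm_A : Commute elC elA := by show elC * elA = elA * elC; decide
theorem elC_comm_B : Commute elC elB := by show elC * elB = elB * elC; decide
theorem elA_ne : elA ≠ 1 := by decide
theorem elB_ne : elB ≠ 1 := by decide
theorem elC_ne : elC ≠ 1 := by decide

set_option maxRecDepth 100000 in
theorem sl25_inv_entries : ∀ a b c d : ZMod 5, a * d - b * c = 1 →
    a * a + b * c = 1 → a * b + b * d = 0 → c * a + d * c = 0 → c * b + d * d = 1 →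
    (a = 1 ∧ b = 0 ∧ c = 0 ∧ d = 1) ∨ (a = -1 ∧ b = 0 ∧ c = 0 ∧ d = -1) := by
  decide

theorem sl25_involution (g : SL25) (h : g ^ 2 = 1) : g = 1 ∨ g = slZ := by
  have hd : (g : Matrix (Fin 2) (Fin 2) (ZMod 5)).det = 1 := g.2
  rw [Matrix.det_fin_two] at hd
  have hm : (g : Matrix (Fin 2) (Fin 2) (ZMod 5)) * g = 1 := by
    have := congrArg (fun s : SL25 => (s : Matrix (Fin 2) (Fin 2) (ZMod 5))) h
    simpa [pow_two] using this
  have e00 := congrFun (congrFun hm 0) 0
  have e01 := congrFun (congrFun hm 0) 1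
  have e10 := congrFun (congrFun hm 1) 0
  have e11 := congrFun (congrFun hm 1) 1
  simp only [Matrix.mul_apply, Fin.sum_univ_two, Matrix.one_apply_eq, Matrix.one_apply_ne (zero_ne_one (α := Fin 2)),
    Matrix.one_apply_ne (one_ne_zero (α := Fin 2))] at e00 e01 e10 e11
  rcases sl25_inv_entries _ _ _ _ hd e00 e01 e10 e11 with ⟨a, b, c, d⟩ | ⟨a, b, c, d⟩
  · left
    apply Subtype.ext
    ext i j
    fin_cases i <;> fin_cases j <;> simp [a, b, c, d]
  · right
    apply Subtype.ext
    ext i j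
    fin_cases i <;> fin_cases j <;> simp [a, b, c, d, slZ]

theorem pow_of_sq_zero (N : Matrix (Fin 2) (Fin 2) (ZMod 11)) (hN : N * N = 0) (n : ℕ) :
    (1 + N) ^ n = 1 + (n : ZMod 11) • N := by
  induction n with
  | zero => simp
  | succ n ih =>
    rw [pow_succ, ih]
    rw [add_mul, one_mul, mul_add, mul_one, Matrix.smul_mul, hN, smul_zero, add_zero]
    push_cast
    rw [add_smul, one_smul, add_assoc, add_comm N]

theorem pow11_of_fixed (A : Matrix (Fin 2) (Fin 2) (ZMod 11)) (hdet : A.det = 1) (u v : ZMod 11)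
    (hne : ¬ (u = 0 ∧ v = 0)) (h1 : A 0 0 * u + A 0 1 * v = u) (h2 : A 1 0 * u + A 1 1 * v = v) :
    A ^ 11 = 1 := by
  haveI : Fact (Nat.Prime 11) := ⟨by norm_num⟩
  rw [Matrix.det_fin_two] at hdet
  set a := A 0 0 with ha
  set b := A 0 1 with hb
  set c := A 1 0 with hc
  set d := A 1 1 with hd
  have htr : a + d = 2 := by
    have key : (a - 1) * (d - 1) - b * c = 0 := by
      by_cases hu : u = 0
      · have hv : v ≠ 0 := fun hv => hne ⟨hu, hv⟩
        have : ((a - 1) * (d - 1) - b * c) * v = 0 := by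
          rw [hu] at h1 h2
          linear_combination (a - 1) * h2 - c * h1
        exact (mul_eq_zero.1 this).resolve_right hv
      · have : ((a - 1) * (d - 1) - b * c) * u = 0 := by
          linear_combination (d - 1) * h1 - b * h2
        exact (mul_eq_zero.1 this).resolve_right hu
    linear_combination hdet - key
  set N : Matrix (Fin 2) (Fin 2) (ZMod 11) := A - 1 with hN
  have hA : A = 1 + N := by rw [hN]; abel
  have hNN : N * N = 0 := by
    have hd' : d = 2 - a := by linear_combination htr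
    have hbc : b * c = a * d - 1 := by linear_combination -hdet
    ext i j
    fin_cases i <;> fin_cases j <;>
      simp [hN, Matrix.mul_apply, Fin.sum_univ_two, Matrix.sub_apply, ← ha, ← hb, ← hc, ← hd]
    · rw [hd'] at hbc
      linear_combination hbc
    · rw [hd']
      ring
    · rw [hd']
      ring
    · rw [hd'] at hbc
      rw [hd']
      linear_combination hbc
  rw [hA, pow_of_sq_zero N hNN]
  have : ((11 : ℕ) : ZMod 11) = 0 := ZMod.natCast_self 11
  rw [this, zero_smul, add_zero]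

theorem sl_pow_eq_one_of_coe (A : SpecialLinearGroup (Fin 2) (ZMod 11))
    (h : (A : Matrix (Fin 2) (Fin 2) (ZMod 11)) ^ 11 = 1) : A ^ 11 = 1 := by
  apply Subtype.ext
  rw [Matrix.SpecialLinearGroup.coe_pow, h]
  rfl

theorem exists_hom_sl11 : ∃ F : SL25 →* SL211, Function.Injective F := by
  classical
  obtain ⟨F, hFx, hFy, hFz⟩ := exists_hom_SL25 elA elB elC elA_pow elB_pow elC_pow elC_comm_A elC_comm_B elAB
  refine ⟨F, ?_⟩
  haveI h5p : Fact (Nat.Prime 5) := ⟨by norm_num⟩
  haveI h11p : Fact (Nat.Prime 11) := ⟨by norm_num⟩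
  have hoA : orderOf elA = 3 := orderOf_eq_prime elA_pow elA_ne
  have hoB : orderOf elB = 5 := orderOf_eq_prime elB_pow elB_ne
  have hoAB : orderOf (elA * elB) = 2 ^ (1 + 1) := by
    apply orderOf_eq_prime_pow
    · rw [pow_one, elAB]
      exact elC_ne
    · rw [show 2 ^ (1 + 1) = 2 * 2 by norm_num, pow_mul, elAB, elC_pow]
  have hAr : elA ∈ F.range := ⟨_, hFx⟩
  have hBr : elB ∈ F.range := ⟨_, hFy⟩
  have d3 : 3 ∣ Nat.card F.range := by
    have := Subgroup.orderOf_dvd_natCard F.range hAr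
    rwa [hoA] at this
  have d5 : 5 ∣ Nat.card F.range := by
    have := Subgroup.orderOf_dvd_natCard F.range hBr
    rwa [hoB] at this
  have d4 : 4 ∣ Nat.card F.range := by
    have := Subgroup.orderOf_dvd_natCard F.range (F.range.mul_mem hAr hBr)
    rwa [hoAB] at this
  have d60 : 60 ∣ Nat.card F.range := by
    have h1 : Nat.Coprime 3 5 := by norm_num
    have h2 : Nat.Coprime (3 * 5) 4 := by norm_num
    have := Nat.Coprime.mul_dvd_of_dvd_of_dvd h2 (Nat.Coprime.mul_dvd_of_dvd_of_dvd h1 d3 d5) d4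
    simpa using this
  have e := Subgroup.card_mul_index F.ker
  rw [Subgroup.index_ker, card_SL25] at e
  obtain ⟨m, hm⟩ := d60
  rw [hm] at e
  have h2 : 60 * (Nat.card F.ker * m) = 60 * 2 := by
    rw [show 60 * 2 = 120 by norm_num, ← e]
    ring
  have h3 : Nat.card F.ker * m = 2 := Nat.eq_of_mul_eq_mul_left (by norm_num) h2
  have h4 : Nat.card F.ker ∣ 2 := ⟨m, h3.symm⟩
  rcases (Nat.dvd_prime Nat.prime_two).1 h4 with h5 | h5
  · rw [← MonoidHom.ker_eq_bot_iff]
    exact Subgroup.card_eq_one.1 h5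
  · exfalso
    obtain ⟨g, hg⟩ := exists_prime_orderOf_dvd_card' (G := F.ker) 2 (by rw [h5])
    have hg' : orderOf (g : SL25) = 2 := by rwa [Subgroup.orderOf_coe]
    have hg2 : (g : SL25) ^ 2 = 1 := orderOf_dvd_iff_pow_eq_one.1 (dvd_of_eq hg')
    rcases sl25_involution _ hg2 with h6 | h6
    · rw [h6, orderOf_one] at hg'
      omega
    · have h7 : F (g : SL25) = 1 := g.2
      rw [h6, hFz] at h7
      exact elC_ne h7

theorem sl25_frobenius : ∃ (L : Type) (_ : Group L) (_ : Finite L) (H : Subgroup L),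
    Cfsg.IsFrobeniusComplement H ∧ Nonempty (H ≃* SL25) := by
  classical
  obtain ⟨F, hF⟩ := exists_hom_sl11
  haveI : Nontrivial SL25 := ⟨⟨slX, 1, by decide⟩⟩
  let act : SL25 → (ZMod 11 × ZMod 11) → (ZMod 11 × ZMod 11) := fun s w =>
    ((F s : Matrix (Fin 2) (Fin 2) (ZMod 11)) 0 0 * w.1 + (F s : Matrix (Fin 2) (Fin 2) (ZMod 11)) 0 1 * w.2,
     (F s : Matrix (Fin 2) (Fin 2) (ZMod 11)) 1 0 * w.1 + (F s : Matrix (Fin 2) (Fin 2) (ZMod 11)) 1 1 * w.2)
  letI inst : DistribMulAction SL25 (ZMod 11 × ZMod 11) :=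
    { smul := act
      one_smul := by
        rintro ⟨u, v⟩
        show act 1 (u, v) = (u, v)
        simp [act, map_one]
      mul_smul := by
        rintro a b ⟨u, v⟩
        show act (a * b) (u, v) = act a (act b (u, v))
        simp only [act, map_mul]
        ext <;> simp [Matrix.mul_apply, Fin.sum_univ_two] <;> ring
      smul_zero := by
        intro a
        show act a 0 = 0
        simp [act]
      smul_add := by
        rintro a ⟨u, v⟩ ⟨u', v'⟩
        show act a _ = act a _ + act a _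
        simp only [act]
        ext <;> simp <;> ring }
  haveI : Nontrivial (ZMod 11 × ZMod 11) := ⟨⟨(1, 0), (0, 0), by decide⟩⟩
  apply Cfsg.Agent.Lib.Frobenius.exists_frobenius_of_fpf (V := ZMod 11 × ZMod 11) (H := SL25)
  rintro h hne ⟨u, v⟩ hfix
  by_contra hcon
  have hne' : ¬ (u = 0 ∧ v = 0) := by
    rintro ⟨rfl, rfl⟩
    exact hcon rfl
  have hfix' : act h (u, v) = (u, v) := hfix
  have h1 := congrArg Prod.fst hfix'
  have h2 := congrArg Prod.snd hfix'
  have hp := pow11_of_fixed (F h : Matrix (Fin 2) (Fin 2) (ZMod 11)) (F h).2 u v hne' h1 h2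
  have h3 : F (h ^ 11) = 1 := by
    rw [map_pow]
    exact sl_pow_eq_one_of_coe _ hp
  have h4 : h ^ 11 = 1 := hF (h3.trans (map_one F).symm)
  have h5 : h ^ 120 = 1 := by
    have := pow_card_eq_one' (x := h)
    rwa [card_SL25] at this
  have h6 : orderOf h ∣ Nat.gcd 11 120 := Nat.dvd_gcd (orderOf_dvd_of_pow_eq_one h4) (orderOf_dvd_of_pow_eq_one h5)
  have h7 : orderOf h = 1 := by
    have : Nat.gcd 11 120 = 1 := by norm_num
    rw [this] at h6
    exact Nat.dvd_one.1 h6
  exact hne (orderOf_eq_one_iff.1 h7)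

end Cfsg.Agent.Lib.Cl.Pres
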