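import Mathlib
import Cfsg.Agent.Lib.Schur.Norm

/-! The multiplier of a finite group with a presentation of given deficiency. -/

set_option autoImplicit false

namespace Cfsg.Agent.Lib.Cl.PresMult

open Cfsg.Agent.Lib.Schur Subgroup Module
open scoped commutatorElement

theorem exists_gens_ker {ι K W : Type*} [Fintype ι] [AddCommGroup K] [AddCommGroup W]
    [Module.Free ℤ W] [Module.Finite ℤ W] (g : ι → K) (hg : Submodule.span ℤ (Set.range g) = ⊤)
    (h : K →+ W) {e : ℤ} (he : e ≠ 0) (hfin : ∀ w : W, ∃ k, h k = e • w) :
    ∃ (m : ℕ) (b : Fin m → K), m = Fintype.card ι - finrank ℤ W ∧ (∀ i, h (b i) = 0) ∧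
      ∀ x, h x = 0 → x ∈ Submodule.span ℤ (Set.range b) := by
  classical
  let h' : K →ₗ[ℤ] W := h.toIntLinearMap
  let φ : (ι →₀ ℤ) →ₗ[ℤ] K := Finsupp.linearCombination ℤ g
  have hφ : Function.Surjective φ := by
    rw [← LinearMap.range_eq_top, Finsupp.range_linearCombination]
    exact hg
  let ψ : (ι →₀ ℤ) →ₗ[ℤ] W := h'.comp φ
  have hr1 : finrank ℤ (LinearMap.range ψ) + finrank ℤ (LinearMap.ker ψ) = Fintype.card ι := by
    have h1 := Submodule.finrank_quotient_add_finrank (LinearMap.ker ψ)
    rw [(LinearMap.quotKerEquivRange ψ).finrank_eq, finrank_finsupp_self] at h1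
    exact h1
  have hr2 : finrank ℤ (LinearMap.range ψ) = finrank ℤ W := by
    have h1 := Submodule.finrank_quotient_add_finrank (LinearMap.range ψ)
    have h2 : finrank ℤ (W ⧸ LinearMap.range ψ) = 0 := by
      apply finrank_eq_zero_of_rank_eq_zero
      rw [rank_eq_zero_iff]
      intro x
      obtain ⟨w, rfl⟩ := Submodule.Quotient.mk_surjective _ x
      refine ⟨e, he, ?_⟩
      rw [← Submodule.Quotient.mk_smul, Submodule.Quotient.mk_eq_zero]
      obtain ⟨k, hk⟩ := hfin w
      obtain ⟨v, rfl⟩ := hφ k
      exact ⟨v, hk⟩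
    omega
  haveI : Module.Free ℤ (LinearMap.ker ψ) := inferInstance
  let B := Module.finBasis ℤ (LinearMap.ker ψ)
  refine ⟨finrank ℤ (LinearMap.ker ψ), fun i => φ (B i), ?_, ?_, ?_⟩
  · rw [← hr2]
    omega
  · intro i
    exact (B i).2
  · intro x hx
    obtain ⟨v, rfl⟩ := hφ x
    have hv : v ∈ LinearMap.ker ψ := hx
    have h1 : (⟨v, hv⟩ : LinearMap.ker ψ) ∈ Submodule.span ℤ (Set.range B) := by
      rw [B.span_eq]
      trivial
    have h2 : ∀ y : LinearMap.ker ψ, y ∈ Submodule.span ℤ (Set.range B) →
        φ y ∈ Submodule.span ℤ (Set.range fun i => φ (B i)) := by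
      intro y hy
      induction hy using Submodule.span_induction with
      | mem z hz =>
        obtain ⟨i, rfl⟩ := hz
        exact Submodule.subset_span ⟨i, rfl⟩
      | zero => simp
      | add a b _ _ ha hb =>
        have : φ ((a + b : LinearMap.ker ψ) : ι →₀ ℤ) = φ a + φ b := by
          push_cast
          exact map_add _ _ _
        rw [this]
        exact Submodule.add_mem _ ha hb
      | smul c a _ ha =>
        have : φ ((c • a : LinearMap.ker ψ) : ι →₀ ℤ) = c • φ a := by
          push_cast
          exact map_smul _ _ _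
        rw [this]
        exact Submodule.smul_mem _ _ ha
    exact h2 _ h1

theorem rank_le (n : ℕ) (rels : Finset (FreeGroup (Fin n)))
    [Finite (PresentedGroup (rels : Set (FreeGroup (Fin n))))] {A : Type*} [CommGroup A] [Finite A]
    (hA : Cfsg.HasSchurMultiplier (PresentedGroup (rels : Set (FreeGroup (Fin n)))) A) :
    Group.rank A ≤ rels.card - n := by
  classical
  let G := PresentedGroup (rels : Set (FreeGroup (Fin n)))
  let F := FreeGroup (Fin n)
  let κ : F →* G := PresentedGroup.mk (rels : Set (FreeGroup (Fin n)))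
  have hκ : Function.Surjective κ := PresentedGroup.mk_surjective _
  obtain ⟨eA⟩ := mulEquiv_of_free hA κ hκ
  let E := EG κ
  let k : E →* G := kG κ
  let K : Subgroup E := k.ker
  have hc : K ≤ center E := ker_kG_le_center κ
  letI instK : CommGroup K :=
    { (inferInstance : Group K) with
      mul_comm := fun a b => Subtype.ext (mem_center_iff.1 (hc a.2) b.1).symm }
  -- the map to the abelianization of the free group
  have hnG : ∀ x ∈ nG κ, (Abelianization.of : F →* Abelianization F) x = 1 := by
    intro x hx
    have h1 : nG κ ≤ commutator F := Subgroup.commutator_mono le_top le_top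
    have h2 : x ∈ commutator F := h1 hx
    rw [← Abelianization.ker_of] at h2
    exact h2
  let ab : E →* Abelianization F := QuotientGroup.lift (nG κ) Abelianization.of hnG
  have hab : ∀ f : F, ab (f : E) = Abelianization.of f := fun f => rfl
  let h : Additive K →+ FreeAbelianGroup (Fin n) := MonoidHom.toAdditive (ab.comp K.subtype)
  have hmemK : ∀ f : F, κ f = 1 → (f : E) ∈ K := fun f hf => hf
  let g : rels → Additive K := fun r =>
    Additive.ofMul ⟨(r.1 : E), hmemK r.1 (PresentedGroup.one_of_mem r.2)⟩
  -- generation of `K`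
  let L : Subgroup E := closure ((fun f : F => (f : E)) '' (rels : Set F))
  have hLK : L ≤ K := by
    rw [closure_le]
    rintro _ ⟨r, hr, rfl⟩
    exact hmemK r (PresentedGroup.one_of_mem hr)
  haveI hLn : L.Normal := by
    constructor
    intro x hx y
    have := mem_center_iff.1 (hc (hLK hx)) y
    rw [this]
    simpa using hx
  have hker : ∀ f : F, κ f = 1 → (f : E) ∈ L := by
    intro f hf
    have h1 : f ∈ normalClosure (rels : Set F) := by
      have : f ∈ κ.ker := hf
      rwa [show κ.ker = normalClosure (rels : Set F) from QuotientGroup.ker_mk' _] at this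
    have h2 : normalClosure (rels : Set F) ≤ L.comap (QuotientGroup.mk' (nG κ)) := by
      apply normalClosure_le_normal
      intro r hr
      exact subset_closure ⟨r, hr, rfl⟩
    exact h2 h1
  have hg : Submodule.span ℤ (Set.range g) = ⊤ := by
    rw [eq_top_iff]
    rintro x -
    have hx : (x.toMul : E) ∈ L := by
      obtain ⟨f, hf⟩ := QuotientGroup.mk_surjective x.toMul.1
      have h1 : κ f = 1 := by
        have := x.toMul.2
        rw [← hf] at this
        exact this
      have := hker f h1
      rwa [show (f : E) = x.toMul.1 from hf] at this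
    have h2 : ∀ (y : E) (hy : y ∈ L), Additive.ofMul (⟨y, hLK hy⟩ : K) ∈ Submodule.span ℤ (Set.range g) := by
      intro y hy
      induction hy using closure_induction with
      | mem z hz =>
        obtain ⟨r, hr, rfl⟩ := hz
        exact Submodule.subset_span ⟨⟨r, hr⟩, rfl⟩
      | one => exact Submodule.zero_mem _
      | mul a b ha hb iha ihb => exact Submodule.add_mem _ iha ihb
      | inv a ha iha => exact Submodule.neg_mem _ iha
    exact h2 _ hx
  have hGpos : (Nat.card G : ℤ) ≠ 0 := by
    have : 0 < Nat.card G := Nat.card_pos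
    omega
  have hfin : ∀ w : FreeAbelianGroup (Fin n), ∃ x, h x = (Nat.card G : ℤ) • w := by
    intro w
    obtain ⟨f, hf⟩ := QuotientGroup.mk_surjective (Additive.toMul w)
    have h1 : κ (f ^ Nat.card G) = 1 := by
      rw [map_pow, pow_card_eq_one']
    refine ⟨Additive.ofMul ⟨((f ^ Nat.card G : F) : E), hmemK _ h1⟩, ?_⟩
    rw [natCast_zsmul]
    have e1 : h (Additive.ofMul ⟨((f ^ Nat.card G : F) : E), hmemK _ h1⟩) =
        Additive.ofMul ((Abelianization.of f) ^ Nat.card G) := by
      show Additive.ofMul (Abelianization.of (f ^ Nat.card G)) = _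
      rw [map_pow]
    rw [e1]
    have e2 : w = Additive.ofMul (Abelianization.of f) := hf.symm
    rw [e2]
    rfl
  haveI : Module.Finite ℤ (FreeAbelianGroup (Fin n)) :=
    Module.Finite.equiv (FreeAbelianGroup.equivFinsupp (Fin n)).toIntLinearEquiv.symm
  have hrk : finrank ℤ (FreeAbelianGroup (Fin n)) = n := by
    rw [(FreeAbelianGroup.equivFinsupp (Fin n)).toIntLinearEquiv.finrank_eq, finrank_finsupp_self]
    simp
  obtain ⟨m, b, hm, hb0, hbspan⟩ := exists_gens_ker g hg h hGpos hfin
  rw [hrk, Fintype.card_coe] at hm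
  -- description of the multiplier
  have hcomm1 : ∀ x : E, ab x = 1 → x ∈ commutator E := by
    intro x hx
    obtain ⟨f, rfl⟩ := QuotientGroup.mk_surjective x
    have h1 : f ∈ commutator F := by
      rw [← Abelianization.ker_of]
      exact hx
    have h2 : (commutator F).map (QuotientGroup.mk' (nG κ)) ≤ commutator E := by
      rw [_root_.commutator_def, Subgroup.map_commutator]
      exact Subgroup.commutator_mono le_top le_top
    exact h2 ⟨f, h1, rfl⟩
  have hcomm2 : ∀ x : E, x ∈ commutator E → ab x = 1 := by
    intro x hx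
    exact Abelianization.commutator_subset_ker ab hx
  let M : Subgroup E := k.ker ⊓ commutator E
  let bM : Fin m → M := fun i => ⟨(b i).toMul.1, (b i).toMul.2, hcomm1 _ (by
    have := hb0 i
    exact this)⟩
  let T : Finset M := Finset.univ.image bM
  have hT : closure (T : Set M) = ⊤ := by
    rw [eq_top_iff]
    rintro ⟨y, hyK, hyc⟩ -
    have h1 : h (Additive.ofMul (⟨y, hyK⟩ : K)) = 0 := by
      have := hcomm2 y hyc
      show Additive.ofMul (ab y) = 0
      rw [this]
      rfl
    have h2 := hbspan _ h1
    have h3 : ∀ v : Additive K, v ∈ Submodule.span ℤ (Set.range b) →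
        (v.toMul : E) ∈ (closure (T : Set M)).map M.subtype := by
      intro v hv
      induction hv using Submodule.span_induction with
      | mem z hz =>
        obtain ⟨i, rfl⟩ := hz
        refine ⟨bM i, subset_closure ?_, rfl⟩
        simp [T]
      | zero => exact Subgroup.one_mem _
      | add a c _ _ ha hc => exact Subgroup.mul_mem _ ha hc
      | smul c a _ ha =>
        have : ((c • a).toMul : E) = (a.toMul : E) ^ c := rfl
        rw [this]
        exact Subgroup.zpow_mem _ ha c
    obtain ⟨y', hy', hyy⟩ := h3 _ h2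
    have : y' = ⟨y, hyK, hyc⟩ := Subtype.ext hyy
    rwa [← this]
  haveI : Finite M := Finite.of_equiv _ eA.toEquiv
  have h1 : Group.rank M ≤ T.card := Group.rank_le hT
  have h2 : T.card ≤ m := by
    calc T.card ≤ (Finset.univ : Finset (Fin m)).card := Finset.card_image_le
      _ = m := by simp
  have h3 : Group.rank A = Group.rank M := Group.rank_congr eA
  omega

end Cfsg.Agent.Lib.Cl.PresMult
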