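import Mathlib
import Cfsg.Agent.Lib.Golay.Facts

/-!
The punctured length-23 code: enumeration by the masks of `Lib.Golay`, minimum distance and perfectness.
-/

namespace Cfsg.Agent.Lib.Cl.Punct

open Cfsg Cfsg.Agent.Lib.Golay Cfsg.Agent.Lib.Compute

/-- The punctured `k`-th word. -/
noncomputable def pw (k : ℕ) : ZMod 23 → ZMod 2 := fun x => wordOf (word k) (some x)

/-- The punctured code. -/
abbrev Cp : Set (ZMod 23 → ZMod 2) := {u | ∃ w ∈ golayCode, ∀ x : ZMod 23, u x = w (some x)}

theorem mem_Cp_iff {u : ZMod 23 → ZMod 2} : u ∈ Cp ↔ ∃ k, k < 4096 ∧ u = pw k := by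
  constructor
  · rintro ⟨w, hw, h⟩
    obtain ⟨k, hk, rfl⟩ := exists_word_of_mem hw
    exact ⟨k, hk, funext h⟩
  · rintro ⟨k, _, rfl⟩
    exact ⟨_, word_mem k, fun x => rfl⟩

theorem pw_xor (a b : ℕ) : pw (a ^^^ b) = pw a + pw b := by
  funext x
  simp only [pw, word_xor, wordOf_xor, Pi.add_apply]

theorem pw_zero : pw 0 = 0 := by
  have : word 0 = 0 := by decide +kernel
  funext x
  simp only [pw, this, wordOf_zero, Pi.zero_apply]

theorem pw_ne_zero_iff (k : ℕ) (x : ZMod 23) : pw k x ≠ 0 ↔ (word k).testBit x.val = true := by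
  simp only [pw, wordOf]
  by_cases h : (word k).testBit (idx (some x)) = true
  · have h' : (word k).testBit x.val = true := h
    simp [h, h']
  · have h' : ¬ (word k).testBit x.val = true := h
    simp [h, h']

theorem hammingNorm_pw (k : ℕ) : hammingNorm (pw k) = Enc.popAux (word k) 23 := by
  rw [Enc.popAux_eq, hammingNorm]
  apply Finset.card_bij (fun x _ => ZMod.val x)
  · intro x hx
    simp only [Finset.mem_filter, Finset.mem_univ, true_and] at hx
    simp only [Finset.mem_filter, Finset.mem_range]
    exact ⟨ZMod.val_lt x, (pw_ne_zero_iff k x).mp hx⟩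
  · intro a _ b _ h
    exact ZMod.val_injective 23 h
  · intro i hi
    simp only [Finset.mem_filter, Finset.mem_range] at hi
    have hv : ZMod.val (i : ZMod 23) = i := ZMod.val_natCast_of_lt hi.1
    refine ⟨(i : ZMod 23), ?_, hv⟩
    simp only [Finset.mem_filter, Finset.mem_univ, true_and]
    rw [pw_ne_zero_iff, hv]
    exact hi.2

theorem pw_injOn {a b : ℕ} (ha : a < 4096) (hb : b < 4096) (h : pw a = pw b) : a = b := by
  rw [← word_mod ha, ← word_mod hb]
  have e : (4096 : ℕ) = 2 ^ 12 := by norm_num
  rw [e]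
  apply Nat.eq_of_testBit_eq
  intro i
  rw [Nat.testBit_mod_two_pow, Nat.testBit_mod_two_pow]
  by_cases hi : i < 12
  · simp only [hi, decide_true, Bool.true_and]
    have hv : ZMod.val (i : ZMod 23) = i := ZMod.val_natCast_of_lt (by omega)
    have h1 := pw_ne_zero_iff a (i : ZMod 23)
    have h2 := pw_ne_zero_iff b (i : ZMod 23)
    rw [hv, h] at h1
    rw [hv] at h2
    have := h1.symm.trans h2
    cases h3 : (word a).testBit i <;> cases h4 : (word b).testBit i <;> simp_all
  · simp [hi]

theorem min_check : allBelow (fun k => Nat.beq k 0 || Nat.ble 7 (Enc.popAux (word k) 23)) 4096 = true := by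
  decide +kernel

theorem seven_le {k : ℕ} (hk : k < 4096) (hne : pw k ≠ 0) : 7 ≤ hammingNorm (pw k) := by
  rw [hammingNorm_pw]
  have := (allBelow_iff _ _).1 min_check k hk
  simp only [Bool.or_eq_true] at this
  rcases this with h | h
  · have := Nat.eq_of_beq_eq_true h
    subst this
    exact absurd pw_zero hne
  · exact Nat.le_of_ble_eq_true h

theorem Cp_add {u v : ZMod 23 → ZMod 2} (hu : u ∈ Cp) (hv : v ∈ Cp) : ∃ k, k < 4096 ∧ u + v = pw k := by
  obtain ⟨a, ha, rfl⟩ := mem_Cp_iff.1 hu
  obtain ⟨b, hb, rfl⟩ := mem_Cp_iff.1 hv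
  exact ⟨a ^^^ b, Nat.xor_lt_two_pow (n := 12) ha hb, (pw_xor a b).symm⟩

theorem sub_eq_add_z2 (u v : ZMod 23 → ZMod 2) : -u + v = u + v := by
  funext x
  simp only [Pi.neg_apply, Pi.add_apply]
  have : ∀ a b : ZMod 2, -a + b = a + b := by decide
  exact this _ _

theorem eq_of_add_z2 {u v : ZMod 23 → ZMod 2} (h : u + v = 0) : u = v := by
  funext x
  have := congrFun h x
  simp only [Pi.add_apply, Pi.zero_apply] at this
  have key : ∀ a b : ZMod 2, a + b = 0 → a = b := by decide
  exact key _ _ this

/-- Two words of the punctured code at distance below 7 coincide. -/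
theorem eq_of_dist_lt {u v : ZMod 23 → ZMod 2} (hu : u ∈ Cp) (hv : v ∈ Cp)
    (h : hammingDist u v < 7) : u = v := by
  obtain ⟨k, hk, e⟩ := Cp_add hu hv
  rw [hammingDist_eq_hammingNorm, sub_eq_add_z2, e] at h
  by_contra hne
  have hne' : pw k ≠ 0 := by
    rw [← e]
    intro h0
    apply hne
    exact eq_of_add_z2 h0
  have := seven_le hk hne'
  omega

/-- The indicator of a subset. -/
def ind (s : Finset (ZMod 23)) : ZMod 23 → ZMod 2 := fun x => if x ∈ s then 1 else 0

theorem hammingNorm_ind (s : Finset (ZMod 23)) : hammingNorm (ind s) = s.card := by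
  rw [hammingNorm]
  congr 1
  ext x
  simp [ind]

theorem ind_injective : Function.Injective ind := by
  intro s t h
  ext x
  have := congrFun h x
  simp only [ind] at this
  by_cases hs : x ∈ s <;> by_cases ht : x ∈ t <;> simp_all

/-- The number of subsets of size at most 3. -/
theorem card_ball : Nat.card {s : Finset (ZMod 23) // s.card ≤ 3} = 2048 := by
  classical
  rw [Nat.card_eq_fintype_card, Fintype.card_subtype]
  rw [Finset.card_eq_sum_card_fiberwise (f := Finset.card) (t := Finset.range 4)]
  · have : ∀ i ∈ Finset.range 4, ((Finset.univ.filter (fun s : Finset (ZMod 23) => s.card ≤ 3)).filter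
        (fun s => s.card = i)).card = Nat.choose 23 i := by
      intro i hi
      have hi' : i ≤ 3 := by
        have := Finset.mem_range.mp hi
        omega
      have e : (Finset.univ.filter (fun s : Finset (ZMod 23) => s.card ≤ 3)).filter
          (fun s => s.card = i) = Finset.powersetCard i Finset.univ := by
        ext s
        simp only [Finset.mem_filter, Finset.mem_univ, true_and, Finset.mem_powersetCard,
          Finset.subset_univ]
        constructor
        · exact fun h => h.2
        · exact fun h => ⟨by omega, h⟩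
      rw [e, Finset.card_powersetCard, Finset.card_univ, ZMod.card]
    rw [Finset.sum_congr rfl this]
    simp [Finset.sum_range_succ, Nat.choose]
  · intro s hs
    simp only [Finset.coe_filter, Finset.mem_univ, true_and, Set.mem_ofPred_eq] at hs
    simp only [Finset.coe_range, Set.mem_Iio]
    omega

/-- Perfectness, the covering half. -/
theorem exists_near (u : ZMod 23 → ZMod 2) : ∃ k, k < 4096 ∧ hammingDist u (pw k) ≤ 3 := by
  let f : Fin 4096 × {s : Finset (ZMod 23) // s.card ≤ 3} → (ZMod 23 → ZMod 2) :=
    fun p => pw p.1 + ind p.2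
  have hmem : ∀ k : ℕ, k < 4096 → pw k ∈ Cp := fun k hk => mem_Cp_iff.2 ⟨k, hk, rfl⟩
  have hinj : Function.Injective f := by
    rintro ⟨⟨a, ha⟩, ⟨s, hs⟩⟩ ⟨⟨b, hb⟩, ⟨t, ht⟩⟩ h
    simp only [f] at h
    have hd1 : hammingDist (pw a) (pw a + ind s) = s.card := by
      rw [hammingDist_eq_hammingNorm, sub_eq_add_z2]
      have : pw a + (pw a + ind s) = ind s := by
        funext x
        simp only [Pi.add_apply]
        have key : ∀ p q : ZMod 2, p + (p + q) = q := by decide
        exact key _ _
      rw [this, hammingNorm_ind]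
    have hd2 : hammingDist (pw b) (pw b + ind t) = t.card := by
      rw [hammingDist_eq_hammingNorm, sub_eq_add_z2]
      have : pw b + (pw b + ind t) = ind t := by
        funext x
        simp only [Pi.add_apply]
        have key : ∀ p q : ZMod 2, p + (p + q) = q := by decide
        exact key _ _
      rw [this, hammingNorm_ind]
    have hd : hammingDist (pw a) (pw b) < 7 := by
      have h1 := hammingDist_triangle (pw a) (pw a + ind s) (pw b)
      rw [h, hammingDist_comm (pw b + ind t) (pw b), hd2] at h1
      rw [h] at hd1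
      have hd1' := hd1
      omega
    have hab := eq_of_dist_lt (hmem a ha) (hmem b hb) hd
    have hab' : a = b := pw_injOn ha hb hab
    subst hab'
    have hst : ind s = ind t := add_left_cancel h
    have := ind_injective hst
    subst this
    rfl
  have hcard : Nat.card (ZMod 23 → ZMod 2) ≤ Nat.card (Fin 4096 × {s : Finset (ZMod 23) // s.card ≤ 3}) := by
    rw [Nat.card_prod, card_ball]
    simp [Nat.card_eq_fintype_card, ZMod.card]
  have hbij := hinj.bijective_of_nat_card_le hcard
  obtain ⟨⟨⟨k, hk⟩, ⟨s, hs⟩⟩, e⟩ := hbij.2 u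
  refine ⟨k, hk, ?_⟩
  simp only [f] at e
  rw [← e, hammingDist_eq_hammingNorm, sub_eq_add_z2]
  have : pw k + ind s + pw k = ind s := by
    funext x
    simp only [Pi.add_apply]
    have key : ∀ p q : ZMod 2, p + q + p = q := by decide
    exact key _ _
  rw [this, hammingNorm_ind]
  exact hs

end Cfsg.Agent.Lib.Cl.Punct
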