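import Mathlib
import Cfsg.Prelude.Def_QuasithinSetup
import Cfsg.Agent.Lib.Cl.CharTwo
import Cfsg.Agent.Lib.Cl.PComp
import Cfsg.Agent.Lib.FStar.PComponent
import Cfsg.Agent.Lib.Techniques.Conj

/-!
# Perfect subnormal subgroups, and ℒ(G, T) in a group of even characteristic
-/

set_option autoImplicit false
open Cfsg

namespace Cfsg.Agent.Lib.Cl

open Subgroup Cfsg.Agent.Lib.Core Cfsg.Agent.Lib.FStar

section Perfect

variable {A : Type*} [Group A]

/-- A perfect subgroup of a solvable group is trivial. -/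
theorem perfect_eq_bot_of_isSolvable [Group.IsSolvable A] {K : Subgroup A} (h : ⁅K, K⁆ = K) : K = ⊥ := by
  obtain ⟨n, hn⟩ := (Group.isSolvable_def A).1 inferInstance
  have key : ∀ m, K ≤ derivedSeries A m := by
    intro m
    induction m with
    | zero => exact le_top
    | succ m ih =>
      rw [derivedSeries_succ, ← h]
      exact Subgroup.commutator_mono ih ih
  exact le_bot_iff.1 (hn ▸ key n)

/-- A perfect subgroup lies in a normal subgroup with solvable quotient. -/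
theorem le_of_perfect_of_solvable_quotient {N J : Subgroup A} [N.Normal] [Group.IsSolvable (A ⧸ N)]
    (hJ : ⁅J, J⁆ = J) : J ≤ N := by
  have h1 : ⁅J.map (QuotientGroup.mk' N), J.map (QuotientGroup.mk' N)⁆ = J.map (QuotientGroup.mk' N) := by
    rw [← Subgroup.map_commutator, hJ]
  have h2 := perfect_eq_bot_of_isSolvable h1
  intro x hx
  have h3 : QuotientGroup.mk' N x ∈ J.map (QuotientGroup.mk' N) := ⟨x, hx, rfl⟩
  rw [h2, Subgroup.mem_bot] at h3
  exact (QuotientGroup.eq_one_iff x).1 h3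

theorem perfect_subgroupOf {G : Type*} [Group G] {J B : Subgroup G} (hJB : J ≤ B) (hJ : ⁅J, J⁆ = J) :
    ⁅J.subgroupOf B, J.subgroupOf B⁆ = J.subgroupOf B := by
  apply Subgroup.map_injective B.subtype_injective
  rw [Subgroup.map_commutator, Subgroup.map_subgroupOf_eq_of_le hJB, hJ]

theorem perfect_of_subgroupOf {G : Type*} [Group G] {J B : Subgroup G} (hJB : J ≤ B)
    (hJ : ⁅J.subgroupOf B, J.subgroupOf B⁆ = J.subgroupOf B) : ⁅J, J⁆ = J := by
  have := congrArg (Subgroup.map B.subtype) hJ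
  rwa [Subgroup.map_commutator, Subgroup.map_subgroupOf_eq_of_le hJB] at this

theorem perfect_map {G H : Type*} [Group G] [Group H] (f : G →* H) {J : Subgroup G} (hJ : ⁅J, J⁆ = J) :
    ⁅J.map f, J.map f⁆ = J.map f := by
  rw [← Subgroup.map_commutator, hJ]

/-- A perfect subnormal subgroup `L` is normalized by a solvable subgroup which it normalizes. -/
theorem conj_mem_of_perfect_of_subnormal {Y : Type*} [Group Y] {L Q : Subgroup Y} (hL : ⁅L, L⁆ = L)
    (hS : L.IsSubnormal) (hQs : Group.IsSolvable Q) (hLQ : ∀ l ∈ L, ∀ q ∈ Q, l * q * l⁻¹ ∈ Q) :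
    ∀ q ∈ Q, ∀ l ∈ L, q * l * q⁻¹ ∈ L := by
  classical
  let W : Subgroup Y :=
    { carrier := {w | ∃ l ∈ L, ∃ q ∈ Q, w = l * q}
      one_mem' := ⟨1, L.one_mem, 1, Q.one_mem, by simp⟩
      mul_mem' := by
        rintro _ _ ⟨a, ha, b, hb, rfl⟩ ⟨c, hc, d, hd, rfl⟩
        refine ⟨a * c, L.mul_mem ha hc, c⁻¹ * b * c * d, Q.mul_mem ?_ hd, by group⟩
        have := hLQ c⁻¹ (L.inv_mem hc) b hb
        simpa using this
      inv_mem' := by
        rintro _ ⟨a, ha, b, hb, rfl⟩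
        refine ⟨a⁻¹, L.inv_mem ha, a * b⁻¹ * a⁻¹, hLQ a ha _ (Q.inv_mem hb), by group⟩ }
  have hLW : L ≤ W := fun l hl => ⟨l, hl, 1, Q.one_mem, by simp⟩
  have hQW : Q ≤ W := fun q hq => ⟨1, L.one_mem, q, hq, by simp⟩
  have key : ∀ H : Subgroup Y, H.IsSubnormal → L ≤ H →
      (∀ x ∈ H, x ∈ W → ∀ l ∈ L, x * l * x⁻¹ ∈ L) → ∀ x ∈ W, ∀ l ∈ L, x * l * x⁻¹ ∈ L := by
    intro H hH
    induction hH with
    | top => intro _ h x hx l hl; exact h x trivial hx l hl
    | step H K hHK _ hN ih =>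
      intro hLH hA
      apply ih (hLH.trans hHK)
      intro x hxK hxW l hl
      set C : Subgroup Y := H ⊓ W with hC
      have hLC : L ≤ C := le_inf hLH hLW
      haveI hLn : (L.subgroupOf C).Normal := by
        refine ⟨fun a ha c => ?_⟩
        rw [Subgroup.mem_subgroupOf] at ha ⊢
        exact hA c c.2.1 c.2.2 a ha
      haveI hsolv : Group.IsSolvable (C ⧸ L.subgroupOf C) := by
        let f : (Q.subgroupOf C) →* C ⧸ L.subgroupOf C :=
          (QuotientGroup.mk' (L.subgroupOf C)).comp (Q.subgroupOf C).subtype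
        have hf : Function.Surjective f := by
          intro y
          obtain ⟨c, rfl⟩ := QuotientGroup.mk'_surjective _ y
          obtain ⟨a, ha, b, hb, hab⟩ := c.2.2
          have hbC : b ∈ C := by
            have : b = a⁻¹ * (c : Y) := by rw [hab]; group
            rw [this]
            exact C.mul_mem (C.inv_mem (hLC ha)) c.2
          refine ⟨⟨⟨b, hbC⟩, hb⟩, ?_⟩
          show (QuotientGroup.mk' (L.subgroupOf C)) ⟨b, hbC⟩ = (QuotientGroup.mk' (L.subgroupOf C)) c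
          rw [eq_comm, QuotientGroup.mk'_apply, QuotientGroup.mk'_apply, QuotientGroup.eq,
            Subgroup.mem_subgroupOf]
          have : ((c : Y))⁻¹ * b = b⁻¹ * a⁻¹ * b := by rw [hab]; group
          simp only [Subgroup.coe_mul, InvMemClass.coe_inv]
          rw [this]
          have h5 := hA b⁻¹ (C.inv_mem hbC).1 (C.inv_mem hbC).2 a⁻¹ (L.inv_mem ha)
          simpa using h5
        haveI : Group.IsSolvable (Q.subgroupOf C) := by
          let g : (Q.subgroupOf C) →* Q :=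
            { toFun := fun z => ⟨((z : C) : Y), z.2⟩
              map_one' := rfl
              map_mul' := fun _ _ => rfl }
          refine Group.isSolvable_of_isSolvable_injective (f := g) ?_
          intro a b hab
          apply Subtype.ext
          apply Subtype.ext
          have h9 : ((g a : Q) : Y) = ((g b : Q) : Y) := congrArg Subtype.val hab
          exact h9
        exact Group.isSolvable_of_surjective hf
      -- the conjugate of `L`
      set J : Subgroup Y := L.map (MulAut.conj x).toMonoidHom with hJ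
      have hJp : ⁅J, J⁆ = J := perfect_map _ hL
      have hJC : J ≤ C := by
        rintro _ ⟨l', hl', rfl⟩
        refine ⟨?_, W.mul_mem (W.mul_mem hxW (hLW hl')) (W.inv_mem hxW)⟩
        have h6 := (Subgroup.normal_subgroupOf_iff_le_normalizer hHK).1 hN hxK
        rw [Subgroup.mem_normalizer_iff] at h6
        exact (h6 _).1 (hLH hl')
      have hJ' := le_of_perfect_of_solvable_quotient (N := L.subgroupOf C) (J := J.subgroupOf C)
        (perfect_subgroupOf hJC hJp)
      have h7 : x * l * x⁻¹ ∈ J := ⟨l, hl, rfl⟩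
      have h8 : (⟨x * l * x⁻¹, hJC h7⟩ : C) ∈ J.subgroupOf C := Subgroup.mem_subgroupOf.2 h7
      exact Subgroup.mem_subgroupOf.1 (hJ' h8)
  exact fun q hq l hl => key L hS le_rfl
    (fun x hx _ l' hl' => L.mul_mem (L.mul_mem hx hl') (L.inv_mem hx)) q (hQW hq) l hl

end Perfect

section Gen

/-- `F* = O₂` is inherited by subnormal subgroups. -/
theorem gen_eq_of_subnormal {H : Type*} [Group H] [Finite H] {p : ℕ} [Fact p.Prime]
    (h : generalizedFittingSubgroup H = pCore p H) {A : Subgroup H} (hA : A.IsSubnormal) :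
    generalizedFittingSubgroup A = pCore p A := by
  rw [gen_eq_iff]
  have h1 := gen_eq_iff.1 h
  refine ⟨pPrimeCore_eq_bot_of_subnormal hA h1.1, ?_⟩
  have h2 := layer_map_le_of_subnormal hA
  rw [h1.2, le_bot_iff] at h2
  exact (Subgroup.map_eq_bot_iff_of_injective _ A.subtype_injective).1 h2

/-- Transport of `F* = O_p`. -/
theorem gen_eq_of_equiv {X Y : Type*} [Group X] [Group Y] {p : ℕ} (e : X ≃* Y)
    (h : generalizedFittingSubgroup X = pCore p X) :
    generalizedFittingSubgroup Y = pCore p Y := by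
  rw [← gen_map_equiv e, h, map_pCore_equiv]

variable {G : Type*} [Group G] [Finite G]

/-- Characteristic 2 descends to a subgroup containing `O₂`. -/
theorem charTwo_of_le {H M : Subgroup G} (hHM : H ≤ M) (hM : IsOfCharacteristicTwo M)
    (hle : pCoreTwoOf M ≤ H) : IsOfCharacteristicTwo H := by
  haveI : Fact (Nat.Prime 2) := ⟨Nat.prime_two⟩
  have h1 : pCoreTwoOf M ≤ pCoreTwoOf H := by
    have h2 : (pCoreTwoOf M).subgroupOf H ≤ pCore 2 H := by
      apply le_pCore
      · refine ⟨fun a ha c => ?_⟩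
        rw [Subgroup.mem_subgroupOf] at ha ⊢
        obtain ⟨m, hm, hma⟩ := ha
        refine ⟨⟨(c : G), hHM c.2⟩ * m * ⟨(c : G), hHM c.2⟩⁻¹, ?_, ?_⟩
        · exact (pCore_normal 2 M).conj_mem _ hm _
        · simp only [Subgroup.coe_subtype, Subgroup.coe_mul, InvMemClass.coe_inv] at hma ⊢
          rw [hma]
      · have h3 : IsPGroup 2 (pCoreTwoOf M) := (pCore_isPGroup 2 M).map _
        exact h3.comap_of_injective H.subtype H.subtype_injective
    intro x hx
    exact ⟨⟨x, hle hx⟩, h2 (Subgroup.mem_subgroupOf.2 hx), rfl⟩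
  intro x hx
  have hxM : ((x : G)) ∈ M := hHM x.2
  have h4 : (⟨x, hxM⟩ : M) ∈ pCore 2 M := by
    apply hM
    rw [Subgroup.mem_centralizer_iff]
    intro y hy
    apply Subtype.ext
    have hyG : (y : G) ∈ pCoreTwoOf M := ⟨y, hy, rfl⟩
    obtain ⟨z, hz, hzy⟩ := h1 hyG
    have h5 := (Subgroup.mem_centralizer_iff.1 hx) z hz
    have h6 := congrArg Subtype.val h5
    simpa [← hzy] using h6
  have h7 : (x : G) ∈ pCoreTwoOf H := h1 ⟨_, h4, rfl⟩
  obtain ⟨z, hz, hzx⟩ := h7
  have : z = x := Subtype.ext hzx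
  exact this ▸ hz

end Gen

section Odd

variable {G : Type*} [Group G] [Finite G]

theorem mem_normalizer_of_forall_conj {A : Subgroup G} {x : G} (h : ∀ a ∈ A, x * a * x⁻¹ ∈ A) :
    x ∈ normalizer (A : Set G) := by
  apply Cfsg.Agent.Lib.Techniques.mem_normalizer_of_conjS_le
  rintro _ ⟨a, ha, rfl⟩
  exact h a ha

/-- An odd order element commuting with the action of a 2-group on an elementary abelian 2-group, and
centralizing the fixed points of that 2-group, centralizes the whole group. -/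
theorem centralizes_of_odd_action {Z Q : Subgroup G} (hZc : ∀ a ∈ Z, ∀ b ∈ Z, a * b = b * a)
    (hZ2 : ∀ a ∈ Z, a ^ 2 = 1) (hQ : IsPGroup 2 Q) (hQZ : ∀ q ∈ Q, ∀ v ∈ Z, q * v * q⁻¹ ∈ Z)
    {y : G} (hy : Odd (orderOf y)) (hyZ : ∀ v ∈ Z, y * v * y⁻¹ ∈ Z)
    (hcomm : ∀ q ∈ Q, ∀ v ∈ Z, q * (y * v * y⁻¹) * q⁻¹ = y * (q * v * q⁻¹) * y⁻¹)
    (hfix : ∀ b ∈ Z, (∀ q ∈ Q, q * b = b * q) → y * b = b * y) :
    ∀ v ∈ Z, y * v = v * y := by
  classical
  haveI : Fact (Nat.Prime 2) := ⟨Nat.prime_two⟩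
  -- the commutator subgroup
  let B : Subgroup G :=
    { carrier := {b | ∃ v ∈ Z, b = y * v * y⁻¹ * v⁻¹}
      one_mem' := ⟨1, Z.one_mem, by simp⟩
      mul_mem' := by
        rintro _ _ ⟨a, ha, rfl⟩ ⟨c, hc, rfl⟩
        refine ⟨a * c, Z.mul_mem ha hc, ?_⟩
        have h1 := hZc _ (Z.mul_mem (hyZ c hc) (Z.inv_mem hc)) _ (Z.inv_mem ha)
        calc y * a * y⁻¹ * a⁻¹ * (y * c * y⁻¹ * c⁻¹)
            = y * a * y⁻¹ * (a⁻¹ * (y * c * y⁻¹ * c⁻¹)) := by group
          _ = y * a * y⁻¹ * ((y * c * y⁻¹ * c⁻¹) * a⁻¹) := by rw [h1]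
          _ = y * (a * c) * y⁻¹ * (a * c)⁻¹ := by group
      inv_mem' := by
        rintro _ ⟨a, ha, rfl⟩
        refine ⟨a⁻¹, Z.inv_mem ha, ?_⟩
        have h3 := hZc _ ha _ (hyZ a⁻¹ (Z.inv_mem ha))
        calc (y * a * y⁻¹ * a⁻¹)⁻¹ = a * (y * a⁻¹ * y⁻¹) := by group
          _ = (y * a⁻¹ * y⁻¹) * a := h3
          _ = y * a⁻¹ * y⁻¹ * a⁻¹⁻¹ := by group }
  have hBZ : B ≤ Z := by
    rintro _ ⟨v, hv, rfl⟩
    exact Z.mul_mem (hyZ v hv) (Z.inv_mem hv)
  by_cases hB : B = ⊥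
  · intro v hv
    have h1 : y * v * y⁻¹ * v⁻¹ ∈ B := ⟨v, hv, rfl⟩
    rw [hB, Subgroup.mem_bot] at h1
    have h2 : y * v * y⁻¹ = v := mul_inv_eq_one.1 h1
    calc y * v = y * v * y⁻¹ * y := by group
      _ = v * y := by rw [h2]
  exfalso
  -- a 2-group containing `Q` and `Z`
  have hZp : IsPGroup 2 Z := by
    intro z
    refine ⟨1, ?_⟩
    apply Subtype.ext
    simpa using hZ2 z z.2
  have hQN : Q ≤ normalizer (Z : Set G) := fun q hq =>
    mem_normalizer_of_forall_conj fun v hv => hQZ q hq v hv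
  have hR := IsPGroup.to_sup_of_normal_right' hQ hZp hQN
  set R : Subgroup G := Q ⊔ Z with hRdef
  have hQNB : Q ≤ normalizer (B : Set G) := by
    intro q hq
    apply mem_normalizer_of_forall_conj
    rintro _ ⟨v, hv, rfl⟩
    refine ⟨q * v * q⁻¹, hQZ q hq v hv, ?_⟩
    rw [← hcomm q hq v hv]
    group
  have hZNB : Z ≤ normalizer (B : Set G) := by
    intro z hz
    apply mem_normalizer_of_forall_conj
    intro b hb
    have h1 := hZc z hz b (hBZ hb)
    rw [h1]
    simpa using hb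
  have hRN : R ≤ normalizer (B : Set G) := sup_le hQNB hZNB
  have hBR : B ≤ R := hBZ.trans le_sup_right
  haveI : Group.IsNilpotent R := hR.isNilpotent
  haveI hBn : (B.subgroupOf R).Normal := by
    refine ⟨fun a ha c => ?_⟩
    rw [Subgroup.mem_subgroupOf] at ha ⊢
    exact (Subgroup.mem_normalizer_iff.1 (hRN c.2) _).1 ha
  have hBne : B.subgroupOf R ≠ ⊥ := by
    intro h
    apply hB
    have h2 := congrArg (Subgroup.map R.subtype) h
    rwa [Subgroup.map_subgroupOf_eq_of_le hBR, Subgroup.map_bot] at h2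
  have h := normal_inf_center_ne_bot (B.subgroupOf R) hBne
  obtain ⟨b, hb1⟩ := Subgroup.ne_bot_iff_exists_ne_one.mp h
  have hbB : (((b : _) : R) : G) ∈ B := Subgroup.mem_subgroupOf.1 b.2.1
  have hbc : ∀ q ∈ Q, q * (((b : _) : R) : G) = ((b : _) : R) * q := by
    intro q hq
    have h2 := (Subgroup.mem_center_iff.mp b.2.2) ⟨q, le_sup_left (a := Q) hq⟩
    exact congrArg Subtype.val h2
  have hyb := hfix _ (hBZ hbB) hbc
  obtain ⟨v, hv, hbv⟩ := hbB
  set c : G := b.1.1 with hc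
  have hpow : ∀ i : ℕ, c ^ i = y ^ i * v * (y ^ i)⁻¹ * v⁻¹ := by
    intro i
    induction i with
    | zero => simp
    | succ i ih =>
      rw [pow_succ', ih]
      have h1 : y ^ i * c * (y ^ i)⁻¹ = c := by
        have h0 : Commute (y ^ i) c := Commute.pow_left hyb i
        rw [h0.eq]
        group
      have h2 : c * v = y * v * y⁻¹ := by rw [hbv]; group
      calc c * (y ^ i * v * (y ^ i)⁻¹ * v⁻¹)
          = (y ^ i * c * (y ^ i)⁻¹) * (y ^ i * v * (y ^ i)⁻¹ * v⁻¹) := by rw [h1]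
        _ = y ^ i * (c * v) * (y ^ i)⁻¹ * v⁻¹ := by group
        _ = y ^ i * (y * v * y⁻¹) * (y ^ i)⁻¹ * v⁻¹ := by rw [h2]
        _ = y ^ (i + 1) * v * (y ^ (i + 1))⁻¹ * v⁻¹ := by rw [pow_succ]; group
  have h3 := hpow (orderOf y)
  rw [pow_orderOf_eq_one] at h3
  simp only [one_mul, inv_one, mul_one, mul_inv_cancel] at h3
  have h4 : c ^ 2 = 1 := hZ2 _ (hBZ ⟨v, hv, hbv⟩)
  obtain ⟨k, hk⟩ := hy
  have h5 : c = 1 := by
    rw [hk, pow_succ, pow_mul, h4, one_pow, one_mul] at h3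
    exact h3
  apply hb1
  apply Subtype.ext
  apply Subtype.ext
  exact h5

/-- A perfect subgroup is generated by its elements of odd order. -/
theorem oddGenerated_eq_of_perfect {K : Subgroup G} (hK : ⁅K, K⁆ = K) : oddGenerated K = K := by
  classical
  haveI : Fact (Nat.Prime 2) := ⟨Nat.prime_two⟩
  set D := oddGenerated K with hD
  have hDK : D ≤ K := by
    rw [hD, oddGenerated, Subgroup.closure_le]
    exact fun x hx => hx.1
  apply le_antisymm hDK
  haveI hn : (D.subgroupOf K).Normal := by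
    refine ⟨fun a ha c => ?_⟩
    rw [Subgroup.mem_subgroupOf] at ha ⊢
    have h1 : D ≤ D.comap (MulAut.conj (c : G)).toMonoidHom := by
      rw [hD, oddGenerated, Subgroup.closure_le]
      rintro x ⟨hx, hxo⟩
      apply Subgroup.subset_closure
      refine ⟨K.mul_mem (K.mul_mem c.2 hx) (K.inv_mem c.2), ?_⟩
      have h2 : orderOf ((c : G) * x * (c : G)⁻¹) = orderOf x := by
        have := orderOf_injective (MulAut.conj (c : G)).toMonoidHom (MulAut.conj (c : G)).injective x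
        simpa using this
      show Odd (orderOf ((c : G) * x * (c : G)⁻¹))
      rwa [h2]
    exact h1 ha
  have hp : IsPGroup 2 (K ⧸ D.subgroupOf K) := by
    intro g
    obtain ⟨x, rfl⟩ := QuotientGroup.mk'_surjective _ g
    obtain ⟨k, hk⟩ := exists_pow_orderOf_coprime (p := 2) x
    refine ⟨k, ?_⟩
    rw [← map_pow, QuotientGroup.mk'_apply, QuotientGroup.eq_one_iff, Subgroup.mem_subgroupOf]
    apply Subgroup.subset_closure
    refine ⟨(x ^ 2 ^ k).2, ?_⟩
    rw [Subgroup.orderOf_coe]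
    exact Nat.Coprime.odd_of_right hk
  haveI : Group.IsNilpotent (K ⧸ D.subgroupOf K) := hp.isNilpotent
  haveI : Group.IsSolvable (K ⧸ D.subgroupOf K) := IsNilpotent.to_isSolvable
  have hperf := perfect_subgroupOf (le_refl K) hK
  rw [Subgroup.subgroupOf_self] at hperf
  have h := le_of_perfect_of_solvable_quotient (N := D.subgroupOf K) hperf
  intro x hx
  exact Subgroup.mem_subgroupOf.1 (h (Subgroup.mem_top (⟨x, hx⟩ : K)))

/-- The elements of `Ω₁` of a commutative subgroup. -/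
theorem mem_omegaOne_two_of_comm {A : Subgroup G} (hA : ∀ a ∈ A, ∀ b ∈ A, a * b = b * a) {x : G}
    (hx : x ∈ omegaOne 2 A) : x ∈ A ∧ x ^ 2 = 1 := by
  induction hx using Subgroup.closure_induction with
  | mem y hy => exact hy
  | one => exact ⟨A.one_mem, one_pow _⟩
  | mul a b _ _ ha hb =>
    refine ⟨A.mul_mem ha.1 hb.1, ?_⟩
    have h1 : a * b = b * a := hA a ha.1 b hb.1
    rw [(show Commute a b from h1).mul_pow, ha.2, hb.2, one_mul]
  | inv a _ ha =>
    exact ⟨A.inv_mem ha.1, by rw [inv_pow, ha.2, inv_one]⟩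

variable (T : Sylow 2 G)

/-- A member of `ℒ(G, T)`, in a group of even characteristic, lies in `ℋ^e`. -/
theorem mem_calHe_of_mem_calL (hE : IsOfEvenCharacteristic G) {K : Subgroup G}
    (hK : K ∈ calL (T : Subgroup G)) : K ∈ calHe G := by
  haveI : Fact (Nat.Prime 2) := ⟨Nat.prime_two⟩
  obtain ⟨hC, ⟨P, hP⟩, hO⟩ := hK
  set H : Subgroup G := K ⊔ T with hH
  have hKH : K ≤ H := le_sup_left
  have hTH : (T : Subgroup G) ≤ H := le_sup_right
  set U : Subgroup G := pCoreTwoOf H with hU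
  have hUp : IsPGroup 2 U := (pCore_isPGroup 2 H).map _
  have hUne : U ≠ ⊥ := fun h => hO ((Subgroup.map_eq_bot_iff_of_injective _ H.subtype_injective).1 h)
  have hHN : H ≤ normalizer (U : Set G) := by
    intro h hh
    apply mem_normalizer_of_forall_conj
    rintro _ ⟨x, hx, rfl⟩
    exact ⟨⟨h, hh⟩ * x * ⟨h, hh⟩⁻¹, (pCore_normal 2 H).conj_mem _ hx _, rfl⟩
  set M : Subgroup G := normalizer (U : Set G) with hM
  have hTL : IsTwoLocal M := ⟨U, hUp, hUne, rfl⟩
  have hTM := hTH.trans hHN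
  have hchar := hE M hTL ⟨T, hTM⟩
  have hle : pCoreTwoOf M ≤ H := by
    let TM : Sylow 2 M := T.subtype hTM
    rintro _ ⟨x, hx, rfl⟩
    have h1 := pCore_le_sylow TM hx
    have h2 : x ∈ (T : Subgroup G).subgroupOf M := by simpa [TM, Sylow.coe_subtype] using h1
    exact hTH (Subgroup.mem_subgroupOf.1 h2)
  have hcH : IsOfCharacteristicTwo H := charTwo_of_le hHN hchar hle
  have hgH := gen_eq_of_charTwo hcH
  have hsub : (K.subgroupOf H).IsSubnormal := hC.2.2.1
  have hgK := gen_eq_of_subnormal hgH hsub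
  exact gen_eq_of_equiv (subgroupOfEquivOfLe hKH) hgK

/-- `O₂` of a member of `ℒ(G, T)` lies in `T`. -/
theorem pCoreTwoOf_le_sylow_of_mem_calL {K : Subgroup G} (hK : K ∈ calL (T : Subgroup G)) :
    pCoreTwoOf K ≤ T := by
  haveI : Fact (Nat.Prime 2) := ⟨Nat.prime_two⟩
  obtain ⟨hC, ⟨P, hP⟩, hO⟩ := hK
  have hKH : K ≤ K ⊔ (T : Subgroup G) := le_sup_left
  have hsub : (K.subgroupOf (K ⊔ (T : Subgroup G))).IsSubnormal := hC.2.2.1
  have h1 := pCore_map_le_of_subnormal 2 hsub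
  rintro _ ⟨x, hx, rfl⟩
  let e : K.subgroupOf (K ⊔ (T : Subgroup G)) ≃* K := subgroupOfEquivOfLe hKH
  have h2 : x ∈ (pCore 2 (K.subgroupOf (K ⊔ (T : Subgroup G)))).map e.toMonoidHom := by
    rw [map_pCore_equiv]
    exact hx
  obtain ⟨y, hy, hyx⟩ := h2
  have h3 := h1 ⟨y, hy, rfl⟩
  have h4 := pCore_le_sylow P h3
  rw [hP] at h4
  have h5 := Subgroup.mem_subgroupOf.1 h4
  have h6 : ((y : ↥(K ⊔ (T : Subgroup G))) : G) = (x : G) := by
    have := congrArg Subtype.val hyx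
    simpa [e] using this
  simpa [h6] using h5

/-- The overgroup of a faithful member of `ℒ(G, T)` is faithful. -/
theorem moduleV_ne_bot_of_le (hE : IsOfEvenCharacteristic G) {L K : Subgroup G}
    (hL : L ∈ calLf (T : Subgroup G)) (hK : K ∈ calL (T : Subgroup G)) (hLK : L ≤ K) :
    moduleV K ≠ ⊥ := by
  classical
  haveI : Fact (Nat.Prime 2) := ⟨Nat.prime_two⟩
  intro hV
  obtain ⟨hLl, ⟨hLne, hLodd, hLe⟩, hLV⟩ := hL
  apply hLV
  have hKe := mem_calHe_of_mem_calL T hE hK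
  have hQT := pCoreTwoOf_le_sylow_of_mem_calL T hK
  have hLperf : ⁅L, L⁆ = L := perfect_of_subgroupOf le_sup_left hLl.1.2.1
  set Q : Subgroup G := pCoreTwoOf K with hQdef
  set P : Subgroup G := pCoreTwoOf L with hPdef
  have hQp : IsPGroup 2 Q := (pCore_isPGroup 2 K).map _
  have hQK : Q ≤ K := Subgroup.map_subtype_le _
  have hPL : P ≤ L := Subgroup.map_subtype_le _
  have hKQ : ∀ k ∈ K, ∀ q ∈ Q, k * q * k⁻¹ ∈ Q := by
    rintro k hk _ ⟨q, hq, rfl⟩
    exact ⟨⟨k, hk⟩ * q * ⟨k, hk⟩⁻¹, (pCore_normal 2 K).conj_mem _ hq _, rfl⟩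
  have hLPn : ∀ l ∈ L, ∀ p ∈ P, l * p * l⁻¹ ∈ P := by
    rintro l hl _ ⟨p, hp, rfl⟩
    exact ⟨⟨l, hl⟩ * p * ⟨l, hl⟩⁻¹, (pCore_normal 2 L).conj_mem _ hp _, rfl⟩
  -- `Q` normalizes `L`
  have hconj : ∀ q ∈ Q, ∀ l ∈ L, q * l * q⁻¹ ∈ L := by
    intro q hq l hl
    have hLY : L ≤ L ⊔ (T : Subgroup G) := le_sup_left
    have hTY : (T : Subgroup G) ≤ L ⊔ (T : Subgroup G) := le_sup_right
    have hsolv : Group.IsSolvable (Q.subgroupOf (L ⊔ (T : Subgroup G))) := by
      have h1 : IsPGroup 2 (Q.subgroupOf (L ⊔ (T : Subgroup G))) :=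
        hQp.comap_of_injective _ (Subgroup.subtype_injective _)
      haveI := h1.isNilpotent
      exact IsNilpotent.to_isSolvable
    have h := conj_mem_of_perfect_of_subnormal (L := L.subgroupOf (L ⊔ (T : Subgroup G)))
      (Q := Q.subgroupOf (L ⊔ (T : Subgroup G))) hLl.1.2.1 hLl.1.2.2.1 hsolv ?_
      ⟨q, hTY (hQT hq)⟩ (Subgroup.mem_subgroupOf.2 hq) ⟨l, hLY hl⟩ (Subgroup.mem_subgroupOf.2 hl)
    · exact Subgroup.mem_subgroupOf.1 h
    · intro a ha b hb
      rw [Subgroup.mem_subgroupOf] at ha hb ⊢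
      exact hKQ _ (hLK ha) _ hb
  -- `[Q, L] ≤ P`
  have hcomm : ∀ q ∈ Q, ∀ l ∈ L, q * l * q⁻¹ * l⁻¹ ∈ P := by
    intro q hq l hl
    have h1 : q * l * q⁻¹ * l⁻¹ ∈ L := L.mul_mem (hconj q hq l hl) (L.inv_mem hl)
    have h2 : q * l * q⁻¹ * l⁻¹ ∈ Q := by
      have h3 := hKQ l (hLK hl) q⁻¹ (Q.inv_mem hq)
      have h4 := Q.mul_mem hq h3
      have e : q * (l * q⁻¹ * l⁻¹) = q * l * q⁻¹ * l⁻¹ := by group
      rwa [e] at h4
    have hD : (Q.subgroupOf L) ≤ pCore 2 L := by
      apply le_pCore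
      · refine ⟨fun a ha c => ?_⟩
        rw [Subgroup.mem_subgroupOf] at ha ⊢
        exact hKQ _ (hLK c.2) _ ha
      · exact hQp.comap_of_injective _ (Subgroup.subtype_injective _)
    exact ⟨⟨_, h1⟩, hD (Subgroup.mem_subgroupOf.2 h2), rfl⟩
  have hQPn : ∀ q ∈ Q, ∀ p ∈ P, q * p * q⁻¹ ∈ P := by
    intro q hq p hp
    have h1 := P.mul_mem (hcomm q hq p (hPL hp)) hp
    have e : q * p * q⁻¹ * p⁻¹ * p = q * p * q⁻¹ := by group
    rwa [e] at h1
  -- the module
  set A : Subgroup G := P ⊓ centralizer (P : Set G) with hA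
  set Z : Subgroup G := omegaOne 2 A with hZdef
  have hAc : ∀ a ∈ A, ∀ b ∈ A, a * b = b * a := by
    intro a ha b hb
    exact ((Subgroup.mem_centralizer_iff.1 hb.2) a ha.1).symm ▸ rfl
  have hZmem : ∀ v ∈ Z, v ∈ A ∧ v ^ 2 = 1 := fun v hv => mem_omegaOne_two_of_comm hAc hv
  have hZc : ∀ a ∈ Z, ∀ b ∈ Z, a * b = b * a := fun a ha b hb =>
    hAc a (hZmem a ha).1 b (hZmem b hb).1
  have hZinv : ∀ g, (∀ p ∈ P, g * p * g⁻¹ ∈ P) → ∀ v ∈ Z, g * v * g⁻¹ ∈ Z := by
    intro g hg v hv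
    obtain ⟨hvA, hv2⟩ := hZmem v hv
    apply Subgroup.subset_closure
    refine ⟨⟨hg v hvA.1, ?_⟩, ?_⟩
    · show g * v * g⁻¹ ∈ centralizer (P : Set G)
      rw [Subgroup.mem_centralizer_iff]
      intro p hp
      have hgn := mem_normalizer_of_forall_conj (A := P) hg
      have h1 : g⁻¹ * p * g ∈ P := by
        have := (Subgroup.mem_normalizer_iff.1 (Subgroup.inv_mem _ hgn) p).1 hp
        simpa using this
      have h2 := (Subgroup.mem_centralizer_iff.1 hvA.2) _ h1
      calc p * (g * v * g⁻¹) = g * ((g⁻¹ * p * g) * v) * g⁻¹ := by group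
        _ = g * (v * (g⁻¹ * p * g)) * g⁻¹ := by rw [h2]
        _ = g * v * g⁻¹ * p := by group
    · rw [conj_pow, hv2]
      simp
  -- odd elements centralize
  have hodd : ∀ y ∈ L, Odd (orderOf y) → ∀ v ∈ Z, y * v = v * y := by
    intro y hy hyo
    refine centralizes_of_odd_action hZc (fun a ha => (hZmem a ha).2) hQp
      (fun q hq v hv => hZinv q (hQPn q hq) v hv) hyo (fun v hv => hZinv y (hLPn y hy) v hv) ?_ ?_
    · intro q hq v hv
      set c := q * y * q⁻¹ * y⁻¹ with hc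
      have hcP : c ∈ P := hcomm q hq y hy
      set v' := q * v * q⁻¹ with hv'
      have hv'Z : v' ∈ Z := hZinv q (hQPn q hq) v hv
      have hw : y * v' * y⁻¹ ∈ Z := hZinv y (hLPn y hy) v' hv'Z
      have h1 : c * (y * v' * y⁻¹) * c⁻¹ = y * v' * y⁻¹ := by
        have h2 := (Subgroup.mem_centralizer_iff.1 (hZmem _ hw).1.2) c hcP
        rw [h2]
        group
      rw [← h1, hc, hv']
      group
    · intro b hb hbq
      obtain ⟨hbA, hb2⟩ := hZmem b hb
      have hbK : b ∈ K := hLK (hPL hbA.1)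
      have h1 : centralizer (pCore 2 K : Set K) ≤ pCore 2 K := by
        have h3 := centralizer_gen_le (G := K)
        rwa [show generalizedFittingSubgroup K = pCore 2 K from hKe] at h3
      have h2 : (⟨b, hbK⟩ : K) ∈ pCore 2 K := by
        apply h1
        rw [Subgroup.mem_centralizer_iff]
        intro z hz
        apply Subtype.ext
        exact hbq (z : G) ⟨z, hz, rfl⟩
      have hbQ : b ∈ Q := ⟨_, h2, rfl⟩
      have hbZ' : b ∈ omegaOne 2 (Q ⊓ centralizer (Q : Set G)) := by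
        apply Subgroup.subset_closure
        refine ⟨⟨hbQ, ?_⟩, hb2⟩
        show b ∈ centralizer (Q : Set G)
        rw [Subgroup.mem_centralizer_iff]
        exact fun q hq => hbq q hq
      have h3 : ⁅omegaOne 2 (Q ⊓ centralizer (Q : Set G)), K⁆ = ⊥ := hV
      have h4 := mul_comm_of_commutator_eq_bot h3 hbZ' (hLK hy)
      exact h4.symm
  -- conclusion
  show ⁅Z, L⁆ = ⊥
  rw [Subgroup.commutator_eq_bot_iff_le_centralizer]
  have hLc : L ≤ centralizer (Z : Set G) := by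
    rw [← hLodd, oddGenerated, Subgroup.closure_le]
    rintro y ⟨hy, hyo⟩
    rw [SetLike.mem_coe, Subgroup.mem_centralizer_iff]
    intro v hv
    exact (hodd y hy hyo v hv).symm
  intro v hv
  rw [Subgroup.mem_centralizer_iff]
  intro l hl
  have := (Subgroup.mem_centralizer_iff.1 (hLc hl)) v hv
  exact this.symm

end Odd

end Cfsg.Agent.Lib.Cl
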