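import Mathlib
import Cfsg.Prelude.Def_LieRecognition

/-!
The rank-one set-up: `Q` acts regularly off `a`, the canonical form `G_a t Q`, counting.
-/

namespace Cfsg.Agent.Lib.Cl.RankOne

open MulAction

variable {G Ω : Type*} [Group G] [MulAction G Ω] {a : Ω} {t : G} {Q : Subgroup G}

section
variable (hS : Cfsg.IsRankOneSetup G Ω a t Q)
include hS

theorem t_inv : t⁻¹ = t := inv_eq_of_mul_eq_one_left hS.mul_self

theorem t_t_smul : t • t • a = a := by rw [smul_smul, hS.mul_self, one_smul]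

theorem b_ne : t • a ≠ a := hS.not_mem

theorem Q_fix_b {x : G} (hx : x ∈ Q) (h : x • (t • a) = t • a) : x = 1 := by
  have : x ∈ Q ⊓ stabilizer G (t • a) := ⟨hx, h⟩
  rw [hS.inf_eq_bot] at this
  simpa using this

theorem Q_fix_a {x : G} (hx : x ∈ Q) : x • a = a := hS.le hx

theorem decomp {g : G} (hg : g ∈ stabilizer G a) :
    ∃ x ∈ Q, ∃ d ∈ stabilizer G a ⊓ stabilizer G (t • a), g = x * d := by
  let K : Subgroup G :=
    { carrier := {g | ∃ x ∈ Q, ∃ d ∈ stabilizer G a ⊓ stabilizer G (t • a), g = x * d}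
      one_mem' := ⟨1, Q.one_mem, 1, Subgroup.one_mem _, by simp⟩
      mul_mem' := by
        rintro _ _ ⟨x, hx, d, hd, rfl⟩ ⟨x', hx', d', hd', rfl⟩
        refine ⟨x * (d * x' * d⁻¹), Q.mul_mem hx (hS.conj_mem d hd.1 x' hx'), d * d',
          Subgroup.mul_mem _ hd hd', by group⟩
      inv_mem' := by
        rintro _ ⟨x, hx, d, hd, rfl⟩
        refine ⟨d⁻¹ * x⁻¹ * d⁻¹⁻¹, hS.conj_mem d⁻¹ (Subgroup.inv_mem _ hd.1) x⁻¹ (Q.inv_mem hx),
          d⁻¹, Subgroup.inv_mem _ hd, by group⟩ }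
  have hle : Q ⊔ (stabilizer G a ⊓ stabilizer G (t • a)) ≤ K := by
    apply sup_le
    · intro x hx
      exact ⟨x, hx, 1, Subgroup.one_mem _, by simp⟩
    · intro d hd
      exact ⟨1, Q.one_mem, d, hd, by simp⟩
  rw [hS.sup_eq] at hle
  exact hle hg

theorem decomp_unique {q q' d d' : G} (hq : q ∈ Q) (hq' : q' ∈ Q)
    (hd : d ∈ stabilizer G a ⊓ stabilizer G (t • a)) (hd' : d' ∈ stabilizer G a ⊓ stabilizer G (t • a))
    (h : q * d = q' * d') : q = q' ∧ d = d' := by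
  have h1 : q'⁻¹ * q = d' * d⁻¹ := by
    rw [inv_mul_eq_iff_eq_mul, ← mul_assoc, ← mul_inv_eq_iff_eq_mul.mpr h.symm.symm]
    group
  have h2 : q'⁻¹ * q ∈ Q := Q.mul_mem (Q.inv_mem hq') hq
  have h3 : q'⁻¹ * q ∈ stabilizer G (t • a) := by
    rw [h1]
    exact Subgroup.mul_mem _ hd'.2 (Subgroup.inv_mem _ hd.2)
  have h4 := Q_fix_b hS h2 h3
  have h5 : q = q' := by
    rw [inv_mul_eq_one] at h4
    exact h4.symm
  subst h5
  exact ⟨rfl, mul_left_cancel h⟩

theorem Q_trans {c : Ω} (hc : c ≠ a) : ∃ x ∈ Q, x • (t • a) = c := by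
  obtain ⟨g, hg1, hg2⟩ := (MulAction.is_two_pretransitive_iff.mp hS.two_transitive)
    (Ne.symm (b_ne hS)) (Ne.symm hc)
  obtain ⟨x, hx, d, hd, rfl⟩ := decomp hS (g := g) hg1
  refine ⟨x, hx, ?_⟩
  rw [← hg2, mul_smul]
  congr 1
  exact hd.2.symm

theorem Q_free {c : Ω} (hc : c ≠ a) {x : G} (hx : x ∈ Q) (h : x • c = c) : x = 1 := by
  obtain ⟨y, hy, rfl⟩ := Q_trans hS hc
  have h1 : y⁻¹ * x * y⁻¹⁻¹ ∈ Q :=
    hS.conj_mem y⁻¹ (Subgroup.inv_mem _ (hS.le hy)) x hx
  have h2 : (y⁻¹ * x * y⁻¹⁻¹) • (t • a) = t • a := by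
    simp only [inv_inv, mul_smul]
    rw [h, inv_smul_smul]
  have h3 := Q_fix_b hS h1 h2
  have : x = y * (y⁻¹ * x * y⁻¹⁻¹) * y⁻¹ := by group
  rw [this, h3]
  group

theorem Q_fix_only {x : G} (hx : x ∈ Q) (h1 : x ≠ 1) {c : Ω} (h : x • c = c) : c = a := by
  by_contra hc
  exact h1 (Q_free hS hc hx h)

theorem regular (b c : Ω) (hb : b ≠ a) (hc : c ≠ a) : ∃! x : Q, (x : G) • b = c := by
  obtain ⟨y, hy, rfl⟩ := Q_trans hS hb
  obtain ⟨z, hz, rfl⟩ := Q_trans hS hc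
  refine ⟨⟨z * y⁻¹, Q.mul_mem hz (Q.inv_mem hy)⟩, ?_, ?_⟩
  · simp [mul_smul]
  · rintro ⟨w, hw⟩ he
    simp only at he
    have h1 : (z⁻¹ * w * y) • (t • a) = t • a := by
      rw [mul_smul, mul_smul, he, inv_smul_smul]
    have h2 := Q_fix_b hS (Q.mul_mem (Q.mul_mem (Q.inv_mem hz) hw) hy) h1
    apply Subtype.ext
    show w = z * y⁻¹
    have : w = z * (z⁻¹ * w * y) * y⁻¹ := by group
    rw [this, h2]
    group

theorem canon_unique {p₁ p₂ p₁' p₂' : G} (hp₁ : p₁ ∈ stabilizer G a) (hp₂ : p₂ ∈ Q)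
    (hp₁' : p₁' ∈ stabilizer G a) (hp₂' : p₂' ∈ Q) (h : p₁ * t * p₂ = p₁' * t * p₂') :
    p₁ = p₁' ∧ p₂ = p₂' := by
  have htt := hS.mul_self
  have hti := t_inv hS
  have h1 : p₂' * p₂⁻¹ = t * (p₁'⁻¹ * p₁) * t := by
    have e : p₁ * t = p₁' * t * (p₂' * p₂⁻¹) := by
      rw [← mul_assoc, ← h]; group
    have e2 : p₂' * p₂⁻¹ = t⁻¹ * (p₁'⁻¹ * p₁) * t := by
      rw [mul_assoc t⁻¹, mul_assoc p₁'⁻¹, e]; group
    rwa [hti] at e2
  have h2 : p₂' * p₂⁻¹ ∈ Q := Q.mul_mem hp₂' (Q.inv_mem hp₂)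
  have h3 : (p₂' * p₂⁻¹) • (t • a) = t • a := by
    rw [h1]
    have e1 : (p₁'⁻¹ * p₁) • a = a := Subgroup.mul_mem _ (Subgroup.inv_mem _ hp₁') hp₁
    rw [mul_smul, mul_smul, t_t_smul hS, e1]
  have h4 := Q_fix_b hS h2 h3
  have h5 : p₂' = p₂ := by
    rw [mul_inv_eq_one] at h4
    exact h4
  subst h5
  exact ⟨by simpa using mul_right_cancel (mul_right_cancel h), rfl⟩

theorem canon_exists {g : G} (hg : g ∉ stabilizer G a) :
    ∃ p₁ ∈ stabilizer G a, ∃ p₂ ∈ Q, g = p₁ * t * p₂ := by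
  have h0 : g⁻¹ • a ≠ a := by
    intro h
    apply hg
    rw [mem_stabilizer_iff]
    conv_lhs => rw [← h]
    rw [smul_inv_smul]
  obtain ⟨y, hy, hye⟩ := Q_trans hS h0
  refine ⟨g * y * t⁻¹, ?_, y⁻¹, Q.inv_mem hy, by group⟩
  rw [mem_stabilizer_iff, t_inv hS]
  simp only [mul_smul]
  rw [hye, smul_inv_smul]

theorem tct_mem {c : G} (hc : c ∈ stabilizer G a ⊓ stabilizer G (t • a)) :
    t * c * t ∈ stabilizer G a ⊓ stabilizer G (t • a) := by
  refine ⟨?_, ?_⟩
  · show (t * c * t) • a = a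
    simp only [mul_smul]
    have : c • t • a = t • a := hc.2
    rw [this, t_t_smul hS]
  · show (t * c * t) • (t • a) = t • a
    simp only [mul_smul]
    rw [t_t_smul hS]
    have : c • a = a := hc.1
    rw [this]

theorem tQt_not_stab {x : G} (hx : x ∈ Q) (h1 : x ≠ 1) : t * x * t ∉ stabilizer G a := by
  intro h
  rw [mem_stabilizer_iff] at h
  simp only [mul_smul] at h
  apply h1
  apply Q_fix_b hS hx
  calc x • t • a = t • t • x • t • a := by rw [smul_smul t t, hS.mul_self, one_smul]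
    _ = t • a := by rw [h]

theorem inv_of_sq_mem {s : G} (hs : s ∈ stabilizer G a) (h2 : s * s = 1) [Finite G] : s ∈ Q := by
  obtain ⟨x, hx, d, hd, rfl⟩ := decomp hS hs
  have hx' : d * x * d⁻¹ ∈ Q := hS.conj_mem d hd.1 x hx
  have e : (x * (d * x * d⁻¹)) * (d * d) = 1 * 1 := by
    rw [mul_one, ← h2]; group
  have hdd : d * d = 1 := (decomp_unique hS (Q.mul_mem hx hx') Q.one_mem
    (Subgroup.mul_mem _ hd hd) (Subgroup.one_mem _) e).2
  -- d has odd order
  obtain ⟨k, hk⟩ := hS.odd_card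
  have hpow : d ^ Nat.card ↥(stabilizer G a ⊓ stabilizer G (t • a)) = 1 := by
    have h := congrArg Subtype.val (pow_card_eq_one' (x := (⟨d, hd⟩ : ↥(stabilizer G a ⊓ stabilizer G (t • a)))))
    simpa only [SubmonoidClass.coe_pow, OneMemClass.coe_one] using h
  have hd1 : d = 1 := by
    rw [hk, pow_succ, pow_mul, pow_two, hdd, one_pow, one_mul] at hpow
    exact hpow
  rw [hd1, mul_one]
  exact hx

theorem exists_ne_one : ∃ x ∈ Q, x ≠ 1 := by
  classical
  by_contra h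
  push Not at h
  have hQ : Q = ⊥ := by
    rw [eq_bot_iff]
    intro x hx
    simpa using h x hx
  have := hS.even_card
  rw [hQ] at this
  simp at this

/-- `|Ω| = |Q| + 1`. -/
theorem card_Omega [Finite G] : Nat.card Ω = Nat.card Q + 1 := by
  classical
  let f : Option Q → Ω := fun o => match o with
    | none => a
    | some x => (x : G) • (t • a)
  have hbij : Function.Bijective f := by
    constructor
    · have hne : ∀ x : Q, (x : G) • (t • a) ≠ a := by
        intro x h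
        apply b_ne hS
        have := congrArg (fun c => (x : G)⁻¹ • c) h
        simp only [inv_smul_smul] at this
        rw [this]
        exact (Q_fix_a hS (Q.inv_mem x.2))
      rintro (_ | x) (_ | y) h
      · rfl
      · exact absurd h.symm (hne y)
      · exact absurd h (hne x)
      · have h' : (x : G) • (t • a) = (y : G) • (t • a) := h
        have h1 : ((y : G)⁻¹ * x) • (t • a) = t • a := by
          rw [mul_smul, h', inv_smul_smul]
        have h2 := Q_fix_b hS (Q.mul_mem (Q.inv_mem y.2) x.2) h1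
        have h3 : (x : G) = y := by
          rw [inv_mul_eq_one] at h2
          exact h2.symm
        rw [Subtype.ext h3]
    · intro c
      by_cases hc : c = a
      · exact ⟨none, hc.symm⟩
      · obtain ⟨x, hx, e⟩ := Q_trans hS hc
        exact ⟨some ⟨x, hx⟩, e⟩
  rw [← Nat.card_congr (Equiv.ofBijective f hbij), Finite.card_option]

theorem card_stab [Finite G] : Nat.card (stabilizer G a) =
    Nat.card Q * Nat.card ↥(stabilizer G a ⊓ stabilizer G (t • a)) := by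
  let f : Q × ↥(stabilizer G a ⊓ stabilizer G (t • a)) → stabilizer G a := fun p =>
    ⟨(p.1 : G) * p.2, Subgroup.mul_mem _ (hS.le p.1.2) p.2.2.1⟩
  have hbij : Function.Bijective f := by
    constructor
    · rintro ⟨⟨x, hx⟩, ⟨d, hd⟩⟩ ⟨⟨y, hy⟩, ⟨e, he⟩⟩ h
      have h' : x * d = y * e := congrArg Subtype.val h
      obtain ⟨h1, h2⟩ := decomp_unique hS hx hy hd he h'
      subst h1 h2
      rfl
    · rintro ⟨g, hg⟩
      obtain ⟨x, hx, d, hd, rfl⟩ := decomp hS hg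
      exact ⟨(⟨x, hx⟩, ⟨d, hd⟩), rfl⟩
  rw [← Nat.card_congr (Equiv.ofBijective f hbij), Nat.card_prod]

theorem card_group [Finite G] : Nat.card G = Nat.card Q *
    Nat.card ↥(stabilizer G a ⊓ stabilizer G (t • a)) * (Nat.card Q + 1) := by
  haveI : MulAction.IsPretransitive G Ω :=
    @MulAction.isPretransitive_of_is_two_pretransitive G Ω _ _ hS.two_transitive
  rw [← card_Omega hS, ← card_stab hS, ← Subgroup.card_mul_index (stabilizer G a),
    MulAction.index_stabilizer, MulAction.orbit_eq_univ]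
  simp

theorem exists_sylow_le [Finite G] : ∃ P : Sylow 2 G, (P : Subgroup G) ≤ Q := by
  classical
  haveI : Fact (Nat.Prime 2) := ⟨Nat.prime_two⟩
  obtain ⟨P₀⟩ : Nonempty (Sylow 2 Q) := inferInstance
  let R : Subgroup G := (P₀ : Subgroup Q).map Q.subtype
  have hRQ : R ≤ Q := by
    rintro _ ⟨x, _, rfl⟩
    exact x.2
  have hcardR : Nat.card R = Nat.card (P₀ : Subgroup Q) :=
    Nat.card_congr ((P₀ : Subgroup Q).equivMapOfInjective _ Q.subtype_injective).toEquiv.symm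
  have hR : IsPGroup 2 R := by
    apply IsPGroup.of_card (n := (Nat.card R).factorization 2)
    have h1 : IsPGroup 2 (P₀ : Subgroup Q) := P₀.isPGroup'
    obtain ⟨k, hk⟩ := IsPGroup.iff_card.mp h1
    rw [hcardR, hk]
    simp [Nat.Prime.factorization_self Nat.prime_two]
  have hindex : ¬ 2 ∣ R.index := by
    intro hdvd
    have h1 : Nat.card G = Nat.card R * R.index := (Subgroup.card_mul_index R).symm
    have h2 := card_group hS
    have hP := P₀.card_coprime_index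
    have h3 : Nat.card Q = Nat.card R * (P₀ : Subgroup Q).index := by
      rw [hcardR, Subgroup.card_mul_index]
    have hR0 : 0 < Nat.card R := Nat.card_pos
    have h4 : R.index = (P₀ : Subgroup Q).index *
        Nat.card ↥(stabilizer G a ⊓ stabilizer G (t • a)) * (Nat.card Q + 1) := by
      apply Nat.eq_of_mul_eq_mul_left hR0
      rw [← h1, h2, h3]
      ring
    rw [h4] at hdvd
    have hevenQ := hS.even_card
    have hoddD := hS.odd_card
    have hnotP : ¬ 2 ∣ (P₀ : Subgroup Q).index := P₀.not_dvd_index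
    have hnotD : ¬ 2 ∣ Nat.card ↥(stabilizer G a ⊓ stabilizer G (t • a)) := by
      rw [← even_iff_two_dvd, Nat.not_even_iff_odd]; exact hoddD
    have hnotQ : ¬ 2 ∣ Nat.card Q + 1 := by
      rw [← even_iff_two_dvd, Nat.not_even_iff_odd]
      exact hevenQ.add_one
    rcases (Nat.Prime.dvd_mul Nat.prime_two).mp hdvd with h | h
    · rcases (Nat.Prime.dvd_mul Nat.prime_two).mp h with h | h
      · exact hnotP h
      · exact hnotD h
    · exact hnotQ h
  exact ⟨hR.toSylow hindex, hRQ⟩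

end

end Cfsg.Agent.Lib.Cl.RankOne

namespace Cfsg.Agent.Lib.Cl.RankOne

open MulAction

variable {G Ω : Type*} [Group G] [MulAction G Ω] {a : Ω} {t : G} {Q : Subgroup G}

/-- Uniqueness of the refined canonical form `Q D t Q`. -/
theorem canon_key (hS : Cfsg.IsRankOneSetup G Ω a t Q) {q d p g₀ h₀ f₀ : G} (hq : q ∈ Q)
    (hd : d ∈ stabilizer G a ⊓ stabilizer G (t • a)) (hp : p ∈ Q) (hg₀ : g₀ ∈ Q)
    (hh₀ : h₀ ∈ stabilizer G a ⊓ stabilizer G (t • a)) (hf₀ : f₀ ∈ Q)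
    (he : q * d * t * p = g₀ * h₀ * t * f₀) : q = g₀ ∧ d = h₀ ∧ p = f₀ := by
  obtain ⟨h1, h2⟩ := canon_unique hS (Subgroup.mul_mem _ (hS.le hq) hd.1) hp
    (Subgroup.mul_mem _ (hS.le hg₀) hh₀.1) hf₀ he
  obtain ⟨h3, h4⟩ := decomp_unique hS hq hg₀ hd hh₀ h1
  exact ⟨h3, h4, h2⟩

theorem conj_Q (hS : Cfsg.IsRankOneSetup G Ω a t Q) {c x : G}
    (hc : c ∈ stabilizer G a) (hx : x ∈ Q) : c⁻¹ * x * c ∈ Q := by
  have := hS.conj_mem c⁻¹ (Subgroup.inv_mem _ hc) x hx
  rwa [inv_inv] at this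

end Cfsg.Agent.Lib.Cl.RankOne
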