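import Mathlib
import Cfsg.Agent.Lib.Cl.RankOne

/-!
The rank-one set-up, part 2: fixed points of involutions, inverted elements, the structure equation.
-/

namespace Cfsg.Agent.Lib.Cl.RankOne

open MulAction

variable {G Ω : Type*} [Group G] [Finite G] [MulAction G Ω] {a : Ω} {t : G} {Q : Subgroup G}

local notation "DD" => (stabilizer G a ⊓ stabilizer G (t • a) : Subgroup G)
local notation "KK" => (Cfsg.invertedBy (stabilizer G a ⊓ stabilizer G (t • a) : Subgroup G) t)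

section
variable (hS : Cfsg.IsRankOneSetup G Ω a t Q)
include hS

/-- Every involution is conjugate into `Q`. -/
theorem inv_conj_Q {u : G} (hu1 : u ≠ 1) (hu2 : u * u = 1) : ∃ g : G, g * u * g⁻¹ ∈ Q := by
  classical
  haveI : Fact (Nat.Prime 2) := ⟨Nat.prime_two⟩
  obtain ⟨P, hP⟩ := exists_sylow_le hS
  have hu2' : IsPGroup 2 (Subgroup.zpowers u) := by
    rw [IsPGroup.iff_card]
    refine ⟨1, ?_⟩
    rw [Nat.card_zpowers, pow_one]
    exact orderOf_eq_prime (by rw [pow_two]; exact hu2) hu1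
  obtain ⟨P', hP'⟩ := hu2'.exists_le_sylow
  obtain ⟨g, hg⟩ := MulAction.exists_smul_eq G P' P
  refine ⟨g, hP ?_⟩
  rw [← hg, Sylow.coe_subgroup_smul, Subgroup.mem_pointwise_smul_iff_inv_smul_mem]
  have : (MulAut.conj g)⁻¹ • (g * u * g⁻¹) = u := by
    simp [MulAut.smul_def, MulAut.inv_def, MulAut.conj_symm_apply]
    group
  rw [this]
  exact hP' (Subgroup.mem_zpowers u)

/-- Every involution has exactly one fixed point. -/
theorem inv_fix {u : G} (hu1 : u ≠ 1) (hu2 : u * u = 1) :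
    ∃ c : Ω, u • c = c ∧ ∀ c' : Ω, u • c' = c' → c' = c := by
  obtain ⟨g, hg⟩ := inv_conj_Q hS hu1 hu2
  have hne : g * u * g⁻¹ ≠ 1 := by
    intro h
    apply hu1
    have : u = g⁻¹ * (g * u * g⁻¹) * g := by group
    rw [this, h]; group
  refine ⟨g⁻¹ • a, ?_, ?_⟩
  · have h1 : (g * u * g⁻¹) • a = a := Q_fix_a hS hg
    have h2 : g • u • g⁻¹ • a = a := by simpa [mul_smul] using h1
    calc u • g⁻¹ • a = g⁻¹ • g • u • g⁻¹ • a := by rw [inv_smul_smul]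
      _ = g⁻¹ • a := by rw [h2]
  · intro c' hc'
    have h1 : (g * u * g⁻¹) • (g • c') = g • c' := by
      simp [mul_smul, hc']
    have h2 := Q_fix_only hS hg hne h1
    rw [← h2, inv_smul_smul]

/-- An involution fixing `a` fixes only `a`. -/
theorem inv_fix_a {u : G} (hu : u ∈ stabilizer G a) (hu1 : u ≠ 1) (hu2 : u * u = 1) {c : Ω}
    (hc : u • c = c) : c = a :=
  Q_fix_only hS (inv_of_sq_mem hS hu hu2) hu1 hc

/-! ### Inverted elements -/

theorem K_pow {k : G} (hk : k ∈ KK) (n : ℕ) : k ^ n ∈ KK := by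
  refine ⟨Subgroup.pow_mem _ hk.1 n, ?_⟩
  rw [← conj_pow, hk.2, inv_pow]

theorem K_inv {k : G} (hk : k ∈ KK) : k⁻¹ ∈ KK := by
  refine ⟨Subgroup.inv_mem _ hk.1, ?_⟩
  have : t * k⁻¹ * t⁻¹ = (t * k * t⁻¹)⁻¹ := by group
  rw [this, hk.2]

omit [Finite G] in
theorem K_one : (1 : G) ∈ KK := ⟨Subgroup.one_mem _, by group⟩

theorem D_pow_card {d : G} (hd : d ∈ DD) : d ^ Nat.card DD = 1 := by
  have h := congrArg Subtype.val (pow_card_eq_one' (x := (⟨d, hd⟩ : DD)))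
  simpa only [SubmonoidClass.coe_pow, OneMemClass.coe_one] using h

/-- Square roots in `D` are powers. -/
theorem exists_sqrt_pow : ∃ j : ℕ, ∀ d ∈ DD, (d ^ j) * (d ^ j) = d := by
  obtain ⟨l, hl⟩ := hS.odd_card
  refine ⟨l + 1, fun d hd => ?_⟩
  have h := D_pow_card hS hd
  rw [← pow_add, show l + 1 + (l + 1) = Nat.card DD + 1 by omega, pow_succ, h, one_mul]

theorem K_sqrt {k : G} (hk : k ∈ KK) : ∃ m ∈ KK, m * m = k := by
  obtain ⟨j, hj⟩ := exists_sqrt_pow hS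
  exact ⟨k ^ j, K_pow hS hk j, hj k hk.1⟩

theorem D_sq_inj {d d' : G} (hd : d ∈ DD) (hd' : d' ∈ DD) (h : d * d = d' * d') : d = d' := by
  obtain ⟨l, hl⟩ := hS.odd_card
  have e : ∀ x ∈ DD, (x * x) ^ (l + 1) = x := by
    intro x hx
    have h := D_pow_card hS hx
    rw [← pow_two, ← pow_mul, show 2 * (l + 1) = Nat.card DD + 1 by omega, pow_succ, h, one_mul]
  rw [← e d hd, ← e d' hd', h]

/-- An element of `D` conjugating `x ∈ D` to its inverse: then `x = 1` (or they commute). -/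
theorem D_conj_inv {x k : G} (hx : x ∈ DD) (hk : k ∈ DD) (h : k * x * k⁻¹ = x⁻¹) : x = 1 := by
  obtain ⟨j, hj⟩ := exists_sqrt_pow hS
  have h2 : (k * k) * x * (k * k)⁻¹ = x := by
    have : (k * k) * x * (k * k)⁻¹ = k * (k * x * k⁻¹) * k⁻¹ := by group
    rw [this, h]
    have : k * x⁻¹ * k⁻¹ = (k * x * k⁻¹)⁻¹ := by group
    rw [this, h, inv_inv]
  -- `k` is a power of `k * k`
  have hpow : k = (k * k) ^ ((Nat.card DD + 1) / 2) := by
    obtain ⟨l, hl⟩ := hS.odd_card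
    have e : (Nat.card DD + 1) / 2 = l + 1 := by omega
    rw [e, ← pow_two, ← pow_mul, show 2 * (l + 1) = Nat.card DD + 1 by omega, pow_succ,
      D_pow_card hS hk, one_mul]
  have hcomm : k * x * k⁻¹ = x := by
    generalize (Nat.card DD + 1) / 2 = n at hpow
    have key : ∀ n : ℕ, (k * k) ^ n * x * ((k * k) ^ n)⁻¹ = x := by
      intro n
      induction n with
      | zero => simp
      | succ n ih =>
        have : (k * k) ^ (n + 1) * x * ((k * k) ^ (n + 1))⁻¹ =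
            (k * k) ^ n * ((k * k) * x * (k * k)⁻¹) * ((k * k) ^ n)⁻¹ := by
          rw [pow_succ]; group
        rw [this, h2, ih]
    rw [hpow]
    exact key n
  rw [hcomm] at h
  -- `x = x⁻¹` with `x` of odd order
  have h3 : x * x = 1 := by
    nth_rewrite 2 [h]
    group
  have := D_sq_inj hS hx (Subgroup.one_mem _) (h3.trans (by simp))
  exact this

/-- Existence of `k` carrying one element of `K` to another under `z ↦ k⁻¹ z k⁻¹`. -/
theorem K_trans {k₁ k₂ : G} (hk₁ : k₁ ∈ KK) (hk₂ : k₂ ∈ KK) : ∃ k ∈ KK, k⁻¹ * k₁ * k⁻¹ = k₂ := by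
  have htt := hS.mul_self
  have hti := t_inv hS
  set r := k₁ * k₂ with hr
  have hrD : r ∈ DD := Subgroup.mul_mem _ hk₁.1 hk₂.1
  obtain ⟨l, hl⟩ : Odd (orderOf r) := by
    have h1 : orderOf r ∣ Nat.card DD := orderOf_dvd_of_pow_eq_one (D_pow_card hS hrD)
    exact Odd.of_dvd_nat hS.odd_card h1
  have hr1 : r ^ (2 * l + 1) = 1 := by rw [← hl, pow_orderOf_eq_one]
  refine ⟨r ^ l * k₁, ⟨Subgroup.mul_mem _ (Subgroup.pow_mem _ hrD l) hk₁.1, ?_⟩, ?_⟩
  · -- inverted by t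
    have e1 : t * (r ^ l * k₁) * t⁻¹ = (t * r * t⁻¹) ^ l * (t * k₁ * t⁻¹) := by
      rw [conj_pow]; group
    have e2 : t * r * t⁻¹ = k₁⁻¹ * r⁻¹ * k₁ := by
      have : t * r * t⁻¹ = (t * k₁ * t⁻¹) * (t * k₂ * t⁻¹) := by rw [hr]; group
      rw [this, hk₁.2, hk₂.2, hr]; group
    have e3 : (k₁⁻¹ * r⁻¹ * k₁) ^ l = k₁⁻¹ * (r⁻¹) ^ l * k₁ := by
      have := conj_pow (a := k₁⁻¹) (b := r⁻¹) (i := l)
      simpa using this
    rw [e1, e2, e3, hk₁.2, inv_pow]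
    group
  · have e : (r ^ l * k₁)⁻¹ * k₁ * (r ^ l * k₁)⁻¹ = k₁⁻¹ * (r ^ (2 * l))⁻¹ := by
      rw [two_mul, pow_add]; group
    rw [e]
    have : (r ^ (2 * l))⁻¹ = r := by
      rw [pow_succ] at hr1
      exact inv_eq_of_mul_eq_one_right hr1
    rw [this, hr]
    group

/-- An involution sending `a` to `t • a` is `t k` with `k ∈ K`. -/
theorem swap_form {u : G} (hu2 : u * u = 1) (hua : u • a = t • a) : ∃ k ∈ KK, u = t * k := by
  have htt := hS.mul_self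
  have hti := t_inv hS
  have hfa : (t * u) • a = a := by rw [mul_smul, hua, t_t_smul hS]
  have hfb : (t * u) • (t • a) = t • a := by
    have h0 : u • (t • a) = a := by rw [← hua, ← mul_smul, hu2, one_smul]
    rw [mul_smul, h0]
  refine ⟨t * u, ⟨⟨hfa, hfb⟩, ?_⟩, ?_⟩
  · rw [hti]
    have h1 : (t * u)⁻¹ = u * t := by
      rw [mul_inv_rev, hti, inv_eq_of_mul_eq_one_left hu2]
    rw [h1]
    have : t * (t * u) * t = (t * t) * u * t := by group
    rw [this, htt, one_mul]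
  · rw [← mul_assoc, htt, one_mul]

theorem to_t {k : G} (hk : k ∈ KK) : ∃ m ∈ KK, m * (t * k) * m⁻¹ = t := by
  obtain ⟨m, hm, hmm⟩ := K_sqrt hS hk
  have hti := t_inv hS
  refine ⟨m, hm, ?_⟩
  have h1 : m * t = t * m⁻¹ := by
    have := hm.2
    rw [hti] at this
    -- t m t = m⁻¹
    have e : t * (t * m * t) = t * m⁻¹ := by rw [this]
    rw [← mul_assoc, ← mul_assoc, hS.mul_self, one_mul] at e
    exact e
  rw [← mul_assoc, h1, ← hmm]
  group

/-- Any involution moving `a` is conjugate to `t` by an element of `G_a`. -/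
theorem conj_to_t {u : G} (hu2 : u * u = 1) (hua : u • a ≠ a) :
    ∃ g ∈ stabilizer G a, g * u * g⁻¹ = t := by
  obtain ⟨y, hy, hye⟩ := Q_trans hS hua
  -- y • t • a = u • a
  have hu' : (y⁻¹ * u * y⁻¹⁻¹) * (y⁻¹ * u * y⁻¹⁻¹) = 1 := by
    have : (y⁻¹ * u * y⁻¹⁻¹) * (y⁻¹ * u * y⁻¹⁻¹) = y⁻¹ * (u * u) * y := by group
    rw [this, hu2]; group
  have hua' : (y⁻¹ * u * y⁻¹⁻¹) • a = t • a := by
    have h1 : y • a = a := Q_fix_a hS hy
    simp only [inv_inv, mul_smul]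
    rw [h1, ← hye, inv_smul_smul]
  obtain ⟨k, hk, hke⟩ := swap_form hS hu' hua'
  obtain ⟨m, hm, hme⟩ := to_t hS hk
  refine ⟨m * y⁻¹, Subgroup.mul_mem _ hm.1.1 (Subgroup.inv_mem _ (hS.le hy)), ?_⟩
  rw [← hme, ← hke]
  group

/-! ### The value of an involution -/

/-- The relation between an involution of `G_a` and its element of `K`. -/
def Val (t : G) (Q : Subgroup G) (s k₀ : G) : Prop := ∃ r ∈ Q, t * s * t = r⁻¹ * (t * k₀) * r

theorem val_exists {s : G} (hs : s ∈ stabilizer G a) (hs1 : s ≠ 1) (hs2 : s * s = 1) :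
    ∃ k₀ ∈ KK, Val t Q s k₀ := by
  have htt := hS.mul_self
  have hti := t_inv hS
  have hsQ : s ∈ Q := inv_of_sq_mem hS hs hs2
  set u := t * s * t with hu
  have hu2 : u * u = 1 := by
    have : u * u = t * s * (t * t) * s * t := by rw [hu]; group
    rw [this, htt, mul_one, mul_assoc t s s, hs2, mul_one, htt]
  have hua : u • a ≠ a := tQt_not_stab hS hsQ hs1
  obtain ⟨r, hr, hre⟩ := Q_trans hS hua
  -- r • t • a = u • a
  have hu' : (r⁻¹ * u * r⁻¹⁻¹) * (r⁻¹ * u * r⁻¹⁻¹) = 1 := by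
    have : (r⁻¹ * u * r⁻¹⁻¹) * (r⁻¹ * u * r⁻¹⁻¹) = r⁻¹ * (u * u) * r := by group
    rw [this, hu2]; group
  have hua' : (r⁻¹ * u * r⁻¹⁻¹) • a = t • a := by
    have h1 : r • a = a := Q_fix_a hS hr
    simp only [inv_inv, mul_smul]
    rw [h1, ← hre, inv_smul_smul]
  obtain ⟨k, hk, hke⟩ := swap_form hS hu' hua'
  refine ⟨k, hk, r⁻¹, Q.inv_mem hr, ?_⟩
  show u = _
  rw [← hke]
  group

theorem val_unique {k₁ k₂ r₁ r₂ : G} (hk₁ : k₁ ∈ KK) (hk₂ : k₂ ∈ KK) (hr₁ : r₁ ∈ Q) (hr₂ : r₂ ∈ Q)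
    (h : r₁⁻¹ * (t * k₁) * r₁ = r₂⁻¹ * (t * k₂) * r₂) : k₁ = k₂ ∧ r₁ = r₂ := by
  have hti := t_inv hS
  have htk : ∀ k ∈ KK, t * k = k⁻¹ * t := by
    intro k hk
    have := hk.2
    rw [hti] at this
    rw [← this]
    have e : t * k * t * t = t * k * (t * t) := by group
    rw [e, hS.mul_self, mul_one]
  rw [htk k₁ hk₁, htk k₂ hk₂] at h
  have h' : (r₁⁻¹ * k₁⁻¹) * t * r₁ = (r₂⁻¹ * k₂⁻¹) * t * r₂ := by
    simpa [mul_assoc] using h
  obtain ⟨e1, e2⟩ := canon_unique hS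
    (Subgroup.mul_mem _ (hS.le (Q.inv_mem hr₁)) (Subgroup.inv_mem _ hk₁.1.1)) hr₁
    (Subgroup.mul_mem _ (hS.le (Q.inv_mem hr₂)) (Subgroup.inv_mem _ hk₂.1.1)) hr₂ h'
  subst e2
  have : k₁⁻¹ = k₂⁻¹ := mul_left_cancel e1
  exact ⟨inv_injective this, rfl⟩

theorem val_unique' {s k₁ k₂ : G} (hk₁ : k₁ ∈ KK) (hk₂ : k₂ ∈ KK) (h₁ : Val t Q s k₁) (h₂ : Val t Q s k₂) :
    k₁ = k₂ := by
  obtain ⟨r₁, hr₁, e₁⟩ := h₁
  obtain ⟨r₂, hr₂, e₂⟩ := h₂
  exact (val_unique hS hk₁ hk₂ hr₁ hr₂ (e₁.symm.trans e₂)).1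

theorem val_conj {s k k₀ : G} (hk : k ∈ KK) (h : Val t Q s k₀) :
    Val t Q (k⁻¹ * s * k) (k⁻¹ * k₀ * k⁻¹) := by
  obtain ⟨r, hr, e⟩ := h
  have htt := hS.mul_self
  have hti := t_inv hS
  have hkt : t * k * t = k⁻¹ := by
    have := hk.2
    rwa [hti] at this
  have hkit : t * k⁻¹ * t = k := by
    have := (K_inv hS hk).2
    rwa [hti, inv_inv] at this
  refine ⟨k * r * k⁻¹, hS.conj_mem k hk.1.1 r hr, ?_⟩
  have e1 : t * (k⁻¹ * s * k) * t = (t * k⁻¹ * t) * (t * s * t) * (t * k * t) := by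
    have : (t * k⁻¹ * t) * (t * s * t) * (t * k * t) = t * k⁻¹ * (t * t) * s * (t * t) * k * t := by group
    rw [this, htt]; group
  rw [e1, hkit, hkt, e]
  have e2 : k * t = t * k⁻¹ := by
    have : t * (t * k * t) = t * k⁻¹ := by rw [hkt]
    rw [← mul_assoc, ← mul_assoc, htt, one_mul] at this
    exact this
  have e3 : (k * r * k⁻¹)⁻¹ * (t * (k⁻¹ * k₀ * k⁻¹)) * (k * r * k⁻¹) =
      k * r⁻¹ * k⁻¹ * (t * k⁻¹) * k₀ * k⁻¹ * (k * r * k⁻¹) := by group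
  rw [e3, ← e2]
  group

/-- The special pair: `t` fixes exactly one point, and the pair is determined by it. -/
theorem pair_exists : ∃ s r : G, s ∈ stabilizer G a ∧ s ≠ 1 ∧ s * s = 1 ∧ r ∈ Q ∧ t * s * t = r⁻¹ * t * r := by
  have htt := hS.mul_self
  have hti := t_inv hS
  obtain ⟨c, hc, -⟩ := inv_fix hS hS.ne_one htt
  have hca : c ≠ a := by
    rintro rfl
    exact b_ne hS hc
  obtain ⟨r, hr, hre⟩ := Q_trans hS hca
  refine ⟨t * (r⁻¹ * t * r) * t, r, ?_, ?_, ?_, hr, ?_⟩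
  · show (t * (r⁻¹ * t * r) * t) • a = a
    simp only [mul_smul]
    rw [hre, hc, ← hre, inv_smul_smul, t_t_smul hS]
  · intro h
    have h1 : r⁻¹ * t * r = 1 := by
      have : r⁻¹ * t * r = t⁻¹ * (t * (r⁻¹ * t * r) * t) * t⁻¹ := by group
      rw [this, h, hti, mul_one, htt]
    have h2 : t = 1 := by
      have : t = r * (r⁻¹ * t * r) * r⁻¹ := by group
      rw [this, h1]; group
    exact hS.ne_one h2
  · have hX : (r⁻¹ * t * r) * (r⁻¹ * t * r) = 1 := by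
      have : (r⁻¹ * t * r) * (r⁻¹ * t * r) = r⁻¹ * (t * t) * r := by group
      rw [this, htt]; group
    have h3 : t * (r⁻¹ * t * r) * t * (t * (r⁻¹ * t * r) * t) =
        t * ((r⁻¹ * t * r) * (r⁻¹ * t * r)) * t := by
      calc t * (r⁻¹ * t * r) * t * (t * (r⁻¹ * t * r) * t)
          = t * (r⁻¹ * t * r) * (t * t) * (r⁻¹ * t * r) * t := by group
        _ = _ := by rw [htt]; group
    rw [h3, hX, mul_one, htt]
  · have : t * (t * (r⁻¹ * t * r) * t) * t = (t * t) * (r⁻¹ * t * r) * (t * t) := by group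
    rw [this, htt]; group

/-- A pair gives a fixed point of `t`. -/
theorem pair_fixed {s r : G} (hs : s ∈ stabilizer G a) (hs1 : s ≠ 1) (hs2 : s * s = 1)
    (hr : r ∈ Q) (h : t * s * t = r⁻¹ * t * r) : t • (r • (t • a)) = r • (t • a) := by
  have h1 : (t * s * t) • (t • a) = t • a := by
    simp only [mul_smul]
    rw [t_t_smul hS]
    have : s • a = a := hs
    rw [this]
  rw [h] at h1
  simp only [mul_smul] at h1
  calc t • r • t • a = r • r⁻¹ • t • r • t • a := by rw [smul_inv_smul]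
    _ = r • t • a := by rw [h1]

theorem pair_unique {s r s' r' : G} (hs : s ∈ stabilizer G a) (hs1 : s ≠ 1) (hs2 : s * s = 1)
    (hr : r ∈ Q) (h : t * s * t = r⁻¹ * t * r)
    (hs' : s' ∈ stabilizer G a) (hs1' : s' ≠ 1) (hs2' : s' * s' = 1)
    (hr' : r' ∈ Q) (h' : t * s' * t = r'⁻¹ * t * r') : s = s' ∧ r = r' := by
  have htt := hS.mul_self
  obtain ⟨c, hc, hcu⟩ := inv_fix hS hS.ne_one htt
  have e1 := hcu _ (pair_fixed hS hs hs1 hs2 hr h)
  have e2 := hcu _ (pair_fixed hS hs' hs1' hs2' hr' h')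
  have e3 : r • (t • a) = r' • (t • a) := e1.trans e2.symm
  have h1 : (r'⁻¹ * r) • (t • a) = t • a := by
    rw [mul_smul, e3, inv_smul_smul]
  have h2 := Q_fix_b hS (Q.mul_mem (Q.inv_mem hr') hr) h1
  have hrr : r = r' := by
    rw [inv_mul_eq_one] at h2
    exact h2.symm
  subst hrr
  refine ⟨?_, rfl⟩
  have : t * s * t = t * s' * t := h.trans h'.symm
  have h3 : t * s = t * s' := mul_right_cancel this
  exact mul_left_cancel h3

theorem val_of_pair {s r : G} (hr : r ∈ Q) (h : t * s * t = r⁻¹ * t * r) : Val t Q s 1 :=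
  ⟨r, hr, by rw [h, mul_one]⟩

theorem pair_of_val {s : G} (h : Val t Q s 1) : ∃ r ∈ Q, t * s * t = r⁻¹ * t * r := by
  obtain ⟨r, hr, e⟩ := h
  exact ⟨r, hr, by rw [e, mul_one]⟩

/-- Conjugation of an involution by `k ∈ K` stays an involution of `G_a`. -/
theorem conj_inv_mem {s k : G} (hs : s ∈ stabilizer G a) (hs1 : s ≠ 1) (hs2 : s * s = 1) (hk : k ∈ DD) :
    k⁻¹ * s * k ∈ stabilizer G a ∧ k⁻¹ * s * k ≠ 1 ∧ (k⁻¹ * s * k) * (k⁻¹ * s * k) = 1 := by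
  refine ⟨Subgroup.mul_mem _ (Subgroup.mul_mem _ (Subgroup.inv_mem _ hk.1) hs) hk.1, ?_, ?_⟩
  · intro h
    apply hs1
    have : s = k * (k⁻¹ * s * k) * k⁻¹ := by group
    rw [this, h]; group
  · have : (k⁻¹ * s * k) * (k⁻¹ * s * k) = k⁻¹ * (s * s) * k := by group
    rw [this, hs2]; group

/-- The value determines the involution. -/
theorem val_inj {s s' k₀ : G} (hs : s ∈ stabilizer G a) (hs1 : s ≠ 1) (hs2 : s * s = 1)
    (hs' : s' ∈ stabilizer G a) (hs1' : s' ≠ 1) (hs2' : s' * s' = 1) (hk₀ : k₀ ∈ KK)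
    (h : Val t Q s k₀) (h' : Val t Q s' k₀) : s = s' := by
  obtain ⟨m, hm, hmm⟩ := K_sqrt hS hk₀
  have e : m⁻¹ * k₀ * m⁻¹ = 1 := by rw [← hmm]; group
  have h1 := val_conj hS hm h
  have h2 := val_conj hS hm h'
  rw [e] at h1 h2
  obtain ⟨r₁, hr₁, e₁⟩ := pair_of_val hS h1
  obtain ⟨r₂, hr₂, e₂⟩ := pair_of_val hS h2
  obtain ⟨a1, a2, a3⟩ := conj_inv_mem hS hs hs1 hs2 hm.1
  obtain ⟨b1, b2, b3⟩ := conj_inv_mem hS hs' hs1' hs2' hm.1
  have := (pair_unique hS a1 a2 a3 hr₁ e₁ b1 b2 b3 hr₂ e₂).1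
  have h3 : m⁻¹ * s = m⁻¹ * s' := mul_right_cancel this
  exact mul_left_cancel h3

/-- `K` acts transitively on the involutions of `G_a`. -/
theorem K_transitive {s s' : G} (hs : s ∈ stabilizer G a) (hs1 : s ≠ 1) (hs2 : s * s = 1)
    (hs' : s' ∈ stabilizer G a) (hs1' : s' ≠ 1) (hs2' : s' * s' = 1) :
    ∃ k ∈ KK, k⁻¹ * s * k = s' := by
  obtain ⟨k₁, hk₁, h₁⟩ := val_exists hS hs hs1 hs2
  obtain ⟨k₂, hk₂, h₂⟩ := val_exists hS hs' hs1' hs2'
  obtain ⟨k, hk, e⟩ := K_trans hS hk₁ hk₂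
  refine ⟨k, hk, ?_⟩
  have h3 := val_conj hS hk h₁
  rw [e] at h3
  obtain ⟨a1, a2, a3⟩ := conj_inv_mem hS hs hs1 hs2 hk.1
  exact val_inj hS a1 a2 a3 hs' hs1' hs2' hk₂ h3 h₂

/-- The parametrisation of the involutions of `G_a` is injective. -/
theorem K_param_inj {s₀ r₀ k k' : G} (hr₀ : r₀ ∈ Q) (he₀ : t * s₀ * t = r₀⁻¹ * t * r₀)
    (hk : k ∈ KK) (hk' : k' ∈ KK) (h : k⁻¹ * s₀ * k = k'⁻¹ * s₀ * k') : k = k' := by
  have v0 : Val t Q s₀ 1 := val_of_pair hS hr₀ he₀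
  have h1 := val_conj hS hk v0
  have h2 := val_conj hS hk' v0
  rw [h] at h1
  have e : ∀ x : G, x⁻¹ * 1 * x⁻¹ = x⁻¹ ^ 2 := fun x => by rw [mul_one, pow_two]
  rw [e] at h1 h2
  have e2 := val_unique' hS (K_pow hS (K_inv hS hk) 2) (K_pow hS (K_inv hS hk') 2) h1 h2
  rw [pow_two, pow_two] at e2
  have := D_sq_inj hS (Subgroup.inv_mem _ hk.1) (Subgroup.inv_mem _ hk'.1) e2
  exact inv_injective this

end

end Cfsg.Agent.Lib.Cl.RankOne
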