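import Mathlib
import Cfsg.Agent.Lib.Cl.RankOne2

/-!
The rank-one set-up, part 3: subsets of `D` fixing at least three points.
-/

namespace Cfsg.Agent.Lib.Cl.RankOne

open MulAction

variable {G Ω : Type*} [Group G] [Finite G] [MulAction G Ω] {a : Ω} {t : G} {Q : Subgroup G}

local notation "DD" => (stabilizer G a ⊓ stabilizer G (t • a) : Subgroup G)
local notation "KK" => (Cfsg.invertedBy (stabilizer G a ⊓ stabilizer G (t • a) : Subgroup G) t)

section
variable (hS : Cfsg.IsRankOneSetup G Ω a t Q) {X : Set G}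
include hS

omit [Finite G] in
theorem C_Q_trans (hX : X ⊆ (DD : Set G)) {c : Ω} (hF : ∀ z ∈ X, z • c = c) (hc : c ≠ a) :
    ∃ x ∈ Q, x • (t • a) = c ∧ x ∈ Subgroup.centralizer X := by
  obtain ⟨x, hx, e⟩ := Q_trans hS hc
  refine ⟨x, hx, e, ?_⟩
  rw [Subgroup.mem_centralizer_iff]
  intro z hz
  have hzD : z ∈ DD := hX hz
  have hw : x⁻¹ * (z * x * z⁻¹) ∈ Q := Q.mul_mem (Q.inv_mem hx) (hS.conj_mem z hzD.1 x hx)
  have hfix : (x⁻¹ * (z * x * z⁻¹)) • (t • a) = t • a := by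
    have h1 : z⁻¹ • (t • a) = t • a := by
      have := Subgroup.inv_mem _ hzD.2
      exact this
    simp only [mul_smul]
    rw [h1, e, hF z hz, ← e, inv_smul_smul]
  have h1 := Q_fix_b hS hw hfix
  have h2 : z * x * z⁻¹ = x := by
    rw [inv_mul_eq_one] at h1
    exact h1.symm
  exact mul_inv_eq_iff_eq_mul.mp h2

omit [Finite G] in
theorem C_Q'_trans (hX : X ⊆ (DD : Set G)) {c : Ω} (hF : ∀ z ∈ X, z • c = c) (hc : c ≠ t • a) :
    ∃ y : G, y • a = c ∧ y ∈ Subgroup.centralizer X ∧ t * y * t ∈ Q := by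
  have htt := hS.mul_self
  have htt' : ∀ z : G, t * (t * z) = z := fun z => by rw [← mul_assoc, htt, one_mul]
  let X' : Set G := (fun z => t * z * t) '' X
  have hX' : X' ⊆ (DD : Set G) := by
    rintro _ ⟨z, hz, rfl⟩
    exact tct_mem hS (hX hz)
  have hF' : ∀ z ∈ X', z • (t • c) = t • c := by
    rintro _ ⟨z, hz, rfl⟩
    simp only [mul_smul]
    rw [← mul_smul t t, htt, one_smul, hF z hz]
  have hc' : t • c ≠ a := by
    intro h
    apply hc
    rw [← h, ← mul_smul, htt, one_smul]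
  obtain ⟨x, hx, e, hxc⟩ := C_Q_trans hS hX' hF' hc'
  refine ⟨t * x * t, ?_, ?_, ?_⟩
  · simp only [mul_smul]
    rw [e, ← mul_smul, htt, one_smul]
  · rw [Subgroup.mem_centralizer_iff] at hxc ⊢
    intro z hz
    have h1 := hxc (t * z * t) ⟨z, hz, rfl⟩
    calc z * (t * x * t) = t * ((t * z * t) * x) * t := by
          simp only [mul_assoc, htt, htt', mul_one]
      _ = t * (x * (t * z * t)) * t := by rw [h1]
      _ = t * x * t * z := by
          simp only [mul_assoc, htt, mul_one, htt']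
  · have : t * (t * x * t) * t = x := by
      simp only [mul_assoc, htt, htt', mul_one]
    rw [this]
    exact hx

/-- The centraliser of `X` moves any pair of fixed points to `(a, t a)`. -/
theorem C_pair (hX : X ⊆ (DD : Set G)) {d : Ω} (hd : ∀ z ∈ X, z • d = d) (hda : d ≠ a) (hdb : d ≠ t • a)
    {b₁ b₂ : Ω} (h1 : ∀ z ∈ X, z • b₁ = b₁) (h2 : ∀ z ∈ X, z • b₂ = b₂) (hne : b₁ ≠ b₂) :
    ∃ g ∈ Subgroup.centralizer X, g • b₁ = a ∧ g • b₂ = t • a := by
  -- first move `b₁` to `a`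
  have step1 : ∃ g ∈ Subgroup.centralizer X, g • b₁ = a := by
    by_cases hb : b₁ = t • a
    · obtain ⟨x, hx, e, hxc⟩ := C_Q_trans hS hX hd hda
      obtain ⟨y, e', hyc, -⟩ := C_Q'_trans hS hX hd hdb
      refine ⟨y⁻¹ * x, Subgroup.mul_mem _ (Subgroup.inv_mem _ hyc) hxc, ?_⟩
      rw [hb, mul_smul, e, ← e', inv_smul_smul]
    · obtain ⟨y, e', hyc, -⟩ := C_Q'_trans hS hX h1 hb
      exact ⟨y⁻¹, Subgroup.inv_mem _ hyc, by rw [← e', inv_smul_smul]⟩
  obtain ⟨g, hg, e⟩ := step1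
  have hF2 : ∀ z ∈ X, z • (g • b₂) = g • b₂ := by
    intro z hz
    have hc := Subgroup.mem_centralizer_iff.mp hg z hz
    rw [← mul_smul, hc, mul_smul, h2 z hz]
  have hne2 : g • b₂ ≠ a := by
    rw [← e]
    intro h
    exact hne (smul_left_cancel g h).symm
  obtain ⟨x, hx, e2, hxc⟩ := C_Q_trans hS hX hF2 hne2
  refine ⟨x⁻¹ * g, Subgroup.mul_mem _ (Subgroup.inv_mem _ hxc) hg, ?_, ?_⟩
  · rw [mul_smul, e]
    exact Q_fix_a hS (Q.inv_mem hx)
  · rw [mul_smul, ← e2, inv_smul_smul]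

/-- Double transitivity on the fixed points. -/
theorem C_two_trans (hX : X ⊆ (DD : Set G)) {d : Ω} (hd : ∀ z ∈ X, z • d = d) (hda : d ≠ a) (hdb : d ≠ t • a)
    {b₁ b₂ c₁ c₂ : Ω} (h1 : ∀ z ∈ X, z • b₁ = b₁) (h2 : ∀ z ∈ X, z • b₂ = b₂)
    (h3 : ∀ z ∈ X, z • c₁ = c₁) (h4 : ∀ z ∈ X, z • c₂ = c₂) (hb : b₁ ≠ b₂) (hc : c₁ ≠ c₂) :
    ∃ g ∈ Subgroup.centralizer X, g • b₁ = c₁ ∧ g • b₂ = c₂ := by
  obtain ⟨g, hg, e1, e2⟩ := C_pair hS hX hd hda hdb h1 h2 hb
  obtain ⟨g', hg', e1', e2'⟩ := C_pair hS hX hd hda hdb h3 h4 hc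
  refine ⟨g'⁻¹ * g, Subgroup.mul_mem _ (Subgroup.inv_mem _ hg') hg, ?_, ?_⟩
  · rw [mul_smul, e1, ← e1', inv_smul_smul]
  · rw [mul_smul, e2, ← e2', inv_smul_smul]

theorem fix_a (hX : X ⊆ (DD : Set G)) : ∀ z ∈ X, z • a = a := fun z hz => (hX hz).1
theorem fix_b (hX : X ⊆ (DD : Set G)) : ∀ z ∈ X, z • (t • a) = t • a := fun z hz => (hX hz).2

/-- There is an involution in `C(X)` interchanging `a` and `t a`. -/
theorem C_swap (hX : X ⊆ (DD : Set G)) {d : Ω} (hd : ∀ z ∈ X, z • d = d) (hda : d ≠ a) (hdb : d ≠ t • a) :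
    ∃ u ∈ Subgroup.centralizer X, u * u = 1 ∧ u • a = t • a := by
  have hab : a ≠ t • a := Ne.symm (b_ne hS)
  obtain ⟨g, hg, e1, e2⟩ := C_two_trans hS hX hd hda hdb (fix_a hS hX) (fix_b hS hX)
    (fix_b hS hX) (fix_a hS hX) hab (Ne.symm hab)
  have hggD : g * g ∈ DD := by
    refine ⟨?_, ?_⟩
    · show (g * g) • a = a
      rw [mul_smul, e1, e2]
    · show (g * g) • (t • a) = t • a
      rw [mul_smul, e2, e1]
  obtain ⟨l, hl⟩ : Odd (orderOf (g * g)) := by
    have h1 : orderOf (g * g) ∣ Nat.card DD := orderOf_dvd_of_pow_eq_one (D_pow_card hS hggD)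
    exact Odd.of_dvd_nat hS.odd_card h1
  have hpow : ∀ n : ℕ, (g * g) ^ n • (t • a) = t • a := by
    intro n
    induction n with
    | zero => simp
    | succ n ih =>
      rw [pow_succ, mul_smul]
      have : (g * g) • (t • a) = t • a := hggD.2
      rw [this, ih]
  refine ⟨(g * g) ^ l * g, Subgroup.mul_mem _ (Subgroup.pow_mem _ (Subgroup.mul_mem _ hg hg) l) hg, ?_, ?_⟩
  · have hc : g * (g * g) ^ l = (g * g) ^ l * g := by
      have : Commute g (g * g) := Commute.mul_right (Commute.refl g) (Commute.refl g)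
      exact (this.pow_right l).eq
    have : (g * g) ^ l * g * ((g * g) ^ l * g) = (g * g) ^ (2 * l + 1) := by
      rw [pow_succ, pow_mul', pow_two]
      calc (g * g) ^ l * g * ((g * g) ^ l * g) = (g * g) ^ l * (g * (g * g) ^ l) * g := by group
        _ = (g * g) ^ l * ((g * g) ^ l * g) * g := by rw [hc]
        _ = _ := by group
    rw [this, ← hl, pow_orderOf_eq_one]
  · rw [mul_smul, e1, hpow]

/-- Conjugating by an element of `D`, such an involution becomes `t`. -/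
theorem conj_D_of_swap {u : G} (hu2 : u * u = 1) (hu : u • a = t • a) : ∃ m ∈ DD, m * u * m⁻¹ = t := by
  obtain ⟨k, hk, rfl⟩ := swap_form hS hu2 hu
  obtain ⟨m, hm, e⟩ := to_t hS hk
  exact ⟨m, hm.1, e⟩

/-- The third fixed point from the hypothesis in the statements. -/
theorem third_point {b c d : Ω} (h1 : b ≠ c) (h2 : b ≠ d) (h3 : c ≠ d) {P : Ω → Prop} (hb : P b) (hc : P c)
    (hd : P d) : ∃ e, P e ∧ e ≠ a ∧ e ≠ t • a := by
  by_cases hba : b = a
  · by_cases hcb : c = t • a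
    · refine ⟨d, hd, ?_, ?_⟩
      · rw [← hba]; exact h2.symm
      · rw [← hcb]; exact h3.symm
    · refine ⟨c, hc, ?_, hcb⟩
      rw [← hba]; exact h1.symm
  · by_cases hbb : b = t • a
    · by_cases hca : c = a
      · refine ⟨d, hd, ?_, ?_⟩
        · rw [← hca]; exact h3.symm
        · rw [← hbb]; exact h2.symm
      · refine ⟨c, hc, hca, ?_⟩
        rw [← hbb]; exact h1.symm
    · exact ⟨b, hb, hba, hbb⟩

/-- (S1128 core) A non-identity element of `D` inverted by `t` centralises no non-identity element of `Q`. -/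
theorem K_fpf {x : G} (hx : x ∈ KK) (hx1 : x ≠ 1) : Q ⊓ Subgroup.centralizer {x} = ⊥ := by
  rw [eq_bot_iff]
  rintro y ⟨hyQ, hyC⟩
  rw [Subgroup.mem_bot]
  by_contra hy1
  have hyC' : y * x = x * y := by
    have : y ∈ Subgroup.centralizer {x} := hyC
    exact Subgroup.mem_centralizer_singleton_iff.mp this
  have hX : ({x} : Set G) ⊆ (DD : Set G) := by
    intro z hz
    have hz' : z = x := hz
    rw [hz']
    exact hx.1
  have hd : ∀ z ∈ ({x} : Set G), z • (y • t • a) = y • t • a := by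
    intro z hz
    have hz' : z = x := hz
    rw [hz', ← mul_smul, ← hyC', mul_smul]
    have : x • (t • a) = t • a := hx.1.2
    rw [this]
  have hda : y • t • a ≠ a := by
    intro h
    apply b_ne hS
    have h1 := congrArg (fun c => y⁻¹ • c) h
    simp only [inv_smul_smul] at h1
    rw [h1]
    exact Q_fix_a hS (Q.inv_mem hyQ)
  have hdb : y • t • a ≠ t • a := fun h => hy1 (Q_fix_b hS hyQ h)
  obtain ⟨u, huC, hu2, hua⟩ := C_swap hS hX hd hda hdb
  obtain ⟨k, hk, rfl⟩ := swap_form hS hu2 hua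
  have hc : x * (t * k) = (t * k) * x :=
    (Subgroup.mem_centralizer_iff.mp huC x rfl)
  have hti := t_inv hS
  have : k * x * k⁻¹ = x⁻¹ := by
    have h3 : t * x * t = x⁻¹ := by
      have h2 := hx.2
      rwa [hti] at h2
    have e2 : k * x = x⁻¹ * k := by
      calc k * x = t * ((t * k) * x) := by
            rw [← mul_assoc, ← mul_assoc, hS.mul_self, one_mul]
        _ = t * (x * (t * k)) := by rw [hc]
        _ = (t * x * t) * k := by group
        _ = x⁻¹ * k := by rw [h3]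
    rw [e2]
    group
  exact hx1 (D_conj_inv hS hx.1 hk.1 this)

/-- Commuting with the square implies commuting, in `D`. -/
theorem D_comm_of_sq {z x : G} (hz : z ∈ DD) (h : (z * z) * x = x * (z * z)) : z * x = x * z := by
  obtain ⟨l, hl⟩ := hS.odd_card
  have hpow : z = (z * z) ^ (l + 1) := by
    rw [← pow_two, ← pow_mul, show 2 * (l + 1) = Nat.card DD + 1 by omega, pow_succ,
      D_pow_card hS hz, one_mul]
  rw [hpow]
  exact ((show Commute (z * z) x from h).pow_left (l + 1)).eq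

end

end Cfsg.Agent.Lib.Cl.RankOne
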