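import Mathlib
import Cfsg.Agent.Lib.Cl.RankOne3
import Cfsg.Agent.Lib.FrobThm.FixedPointFree
import Cfsg.Agent.Lib.Core.Basic

/-!
The rank-one set-up, part 4: `Q` is nilpotent (Thompson), the involutions of `G_a` are central in `Q`,
products of two involutions.
-/

namespace Cfsg.Agent.Lib.Cl.RankOne

open MulAction

universe u v

variable {G : Type u} {Ω : Type v} [Group G] [Finite G] [MulAction G Ω] {a : Ω} {t : G} {Q : Subgroup G}

local notation "DD" => (stabilizer G a ⊓ stabilizer G (t • a) : Subgroup G)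
local notation "KK" => (Cfsg.invertedBy (stabilizer G a ⊓ stabilizer G (t • a) : Subgroup G) t)

section
variable (hS : Cfsg.IsRankOneSetup G Ω a t Q)
include hS

omit [Finite G] in
theorem exists_move (c d : Ω) : ∃ g : G, g • c = d := by
  haveI : MulAction.IsPretransitive G Ω :=
    @MulAction.isPretransitive_of_is_two_pretransitive G Ω _ _ hS.two_transitive
  exact MulAction.exists_smul_eq G c d

theorem two_inv (h2 : ∃ x y : G, x ≠ 1 ∧ y ≠ 1 ∧ x ≠ y ∧ x * x = 1 ∧ y * y = 1 ∧ x * y = y * x) :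
    ∃ s s' : G, s ∈ stabilizer G a ∧ s ≠ 1 ∧ s * s = 1 ∧ s' ∈ stabilizer G a ∧ s' ≠ 1 ∧ s' * s' = 1 ∧ s ≠ s' := by
  obtain ⟨x, y, hx1, hy1, hxy, hx2, hy2, hc⟩ := h2
  obtain ⟨c, hc1, hc2⟩ := inv_fix hS hx1 hx2
  have hyc : y • c = c := by
    apply hc2
    rw [← mul_smul, hc, mul_smul, hc1]
  obtain ⟨g, hg⟩ := exists_move hS c a
  have hconj : ∀ z : G, z ≠ 1 → z * z = 1 → z • c = c →
      g * z * g⁻¹ ∈ stabilizer G a ∧ g * z * g⁻¹ ≠ 1 ∧ (g * z * g⁻¹) * (g * z * g⁻¹) = 1 := by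
    intro z hz1 hz2 hzc
    refine ⟨?_, ?_, ?_⟩
    · show (g * z * g⁻¹) • a = a
      simp only [mul_smul]
      rw [← hg, inv_smul_smul, hzc]
    · intro h
      apply hz1
      have : z = g⁻¹ * (g * z * g⁻¹) * g := by group
      rw [this, h]; group
    · have : (g * z * g⁻¹) * (g * z * g⁻¹) = g * (z * z) * g⁻¹ := by group
      rw [this, hz2]; group
  obtain ⟨a1, a2, a3⟩ := hconj x hx1 hx2 hc1
  obtain ⟨b1, b2, b3⟩ := hconj y hy1 hy2 hyc
  refine ⟨_, _, a1, a2, a3, b1, b2, b3, ?_⟩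
  intro h
  apply hxy
  have h' : g * x = g * y := mul_right_cancel h
  exact mul_left_cancel h'

theorem K_nontrivial (h2 : ∃ x y : G, x ≠ 1 ∧ y ≠ 1 ∧ x ≠ y ∧ x * x = 1 ∧ y * y = 1 ∧ x * y = y * x) :
    ∃ k ∈ KK, k ≠ 1 := by
  obtain ⟨s, s', h1, h3, h4, h5, h6, h7, hne⟩ := two_inv hS h2
  obtain ⟨k, hk, e⟩ := K_transitive hS h1 h3 h4 h5 h6 h7
  refine ⟨k, hk, ?_⟩
  rintro rfl
  apply hne
  rw [← e]
  group

/-- `Q` is nilpotent. -/
theorem Q_nilpotent (h2 : ∃ x y : G, x ≠ 1 ∧ y ≠ 1 ∧ x ≠ y ∧ x * x = 1 ∧ y * y = 1 ∧ x * y = y * x) :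
    Group.IsNilpotent Q := by
  obtain ⟨k, hk, hk1⟩ := K_nontrivial hS h2
  have hord1 : orderOf k ≠ 1 := by
    rw [Ne, orderOf_eq_one_iff]
    exact hk1
  set p := (orderOf k).minFac with hp
  have hpp : p.Prime := Nat.minFac_prime hord1
  have hdvd : p ∣ orderOf k := Nat.minFac_dvd _
  set w := k ^ (orderOf k / p) with hw
  have hword : orderOf w = p := orderOf_pow_orderOf_div (orderOf_pos k).ne' hdvd
  have hwK : w ∈ KK := K_pow hS hk _
  have hw1 : w ≠ 1 := by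
    intro h
    rw [h, orderOf_one] at hword
    exact hpp.one_lt.ne hword
  have hfpf := K_fpf hS hwK hw1
  have hwp : w ^ p = 1 := by rw [← hword, pow_orderOf_eq_one]
  let α : Q ≃* Q :=
    { toFun := fun x => ⟨w * x * w⁻¹, hS.conj_mem w hwK.1.1 x x.2⟩
      invFun := fun x => ⟨w⁻¹ * x * w⁻¹⁻¹, hS.conj_mem w⁻¹ (Subgroup.inv_mem _ hwK.1.1) x x.2⟩
      left_inv := fun x => Subtype.ext (by simp [mul_assoc])
      right_inv := fun x => Subtype.ext (by simp [mul_assoc])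
      map_mul' := fun x y => Subtype.ext (by simp [mul_assoc]) }
  have hαit : ∀ (n : ℕ) (x : Q), ((α^[n] x : Q) : G) = w ^ n * x * (w ^ n)⁻¹ := by
    intro n x
    induction n generalizing x with
    | zero => simp
    | succ n ih =>
      rw [Function.iterate_succ_apply, ih]
      show w ^ n * (w * x * w⁻¹) * (w ^ n)⁻¹ = _
      rw [pow_succ]
      group
  apply Cfsg.Agent.Lib.FrobThm.fpf_nilpotent hpp α
  · intro x hx
    have h1 : w * (x : G) * w⁻¹ = x := congrArg Subtype.val hx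
    have h2 : (x : G) ∈ Q ⊓ Subgroup.centralizer {w} := by
      refine ⟨x.2, Subgroup.mem_centralizer_singleton_iff.mpr ?_⟩
      exact (mul_inv_eq_iff_eq_mul.mp h1).symm
    rw [hfpf] at h2
    exact Subtype.ext (by simpa using h2)
  · intro x
    apply Subtype.ext
    rw [hαit, hwp]
    simp

/-- The involutions of `G_a` lie in the centre of `Q`. -/
theorem inv_central (h2 : ∃ x y : G, x ≠ 1 ∧ y ≠ 1 ∧ x ≠ y ∧ x * x = 1 ∧ y * y = 1 ∧ x * y = y * x)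
    {s : G} (hs : s ∈ stabilizer G a) (hs1 : s ≠ 1) (hs2 : s * s = 1) : ∀ x ∈ Q, s * x = x * s := by
  classical
  haveI : Fact (Nat.Prime 2) := ⟨Nat.prime_two⟩
  haveI hnil : Group.IsNilpotent Q := Q_nilpotent hS h2
  -- a central involution
  obtain ⟨P⟩ : Nonempty (Sylow 2 Q) := inferInstance
  have hPn : (P : Subgroup Q).Normal := inferInstance
  have hPne : (P : Subgroup Q) ≠ ⊥ := by
    intro h
    have hc : Nat.card (P : Subgroup Q) = 1 := by rw [h]; simp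
    have hd : ¬ 2 ∣ (P : Subgroup Q).index := P.not_dvd_index
    have hmul := Subgroup.card_mul_index (P : Subgroup Q)
    rw [hc, one_mul] at hmul
    rw [hmul] at hd
    exact hd (even_iff_two_dvd.mp hS.even_card)
  have hne := Cfsg.Agent.Lib.Core.normal_inf_center_ne_bot (P : Subgroup Q) hPne
  obtain ⟨⟨z, hzP, hzZ⟩, hz1⟩ := Subgroup.ne_bot_iff_exists_ne_one.mp hne
  have hz1' : z ≠ 1 := fun h => hz1 (Subtype.ext h)
  obtain ⟨m, hm⟩ := P.isPGroup' ⟨z, hzP⟩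
  have hm' : z ^ (2 ^ m) = 1 := by
    have := congrArg Subtype.val hm
    simpa using this
  have hdvd : 2 ∣ orderOf z := by
    obtain ⟨j, -, hj⟩ := (Nat.dvd_prime_pow Nat.prime_two).mp (orderOf_dvd_of_pow_eq_one hm')
    rw [hj]
    rcases j with _ | j
    · simp only [pow_zero, orderOf_eq_one_iff] at hj
      exact absurd hj hz1'
    · exact dvd_pow_self 2 (by omega)
  set w : Q := z ^ (orderOf z / 2) with hw
  have hword : orderOf w = 2 := orderOf_pow_orderOf_div (orderOf_pos z).ne' hdvd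
  have hwZ : w ∈ Subgroup.center Q := Subgroup.pow_mem _ hzZ _
  have hw2 : (w : G) * w = 1 := by
    have h := pow_orderOf_eq_one w
    rw [hword, pow_two] at h
    exact congrArg Subtype.val h
  have hw1 : (w : G) ≠ 1 := by
    intro h
    have h' : w = 1 := Subtype.ext h
    rw [h', orderOf_one] at hword
    omega
  obtain ⟨k, hk, e⟩ := K_transitive hS (hS.le w.2) hw1 hw2 hs hs1 hs2
  intro x hx
  have hx' : k * x * k⁻¹ ∈ Q := hS.conj_mem k hk.1.1 x hx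
  have hcomm : (w : G) * (k * x * k⁻¹) = (k * x * k⁻¹) * w := by
    have := (Subgroup.mem_center_iff.mp hwZ) ⟨_, hx'⟩
    exact (congrArg Subtype.val this).symm
  rw [← e]
  calc k⁻¹ * (w : G) * k * x = k⁻¹ * ((w : G) * (k * x * k⁻¹)) * k := by group
    _ = k⁻¹ * ((k * x * k⁻¹) * w) * k := by rw [hcomm]
    _ = _ := by group

/-- Two involutions of `G_a` commute. -/
theorem inv_comm (h2 : ∃ x y : G, x ≠ 1 ∧ y ≠ 1 ∧ x ≠ y ∧ x * x = 1 ∧ y * y = 1 ∧ x * y = y * x)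
    {s s' : G} (hs : s ∈ stabilizer G a) (hs1 : s ≠ 1) (hs2 : s * s = 1) (hs' : s' ∈ stabilizer G a)
    (hs2' : s' * s' = 1) : s * s' = s' * s :=
  inv_central hS h2 hs hs1 hs2 s' (inv_of_sq_mem hS hs' hs2')

/-- Two involutions fixing a common point commute. -/
theorem inv_comm_of_fix (h2 : ∃ x y : G, x ≠ 1 ∧ y ≠ 1 ∧ x ≠ y ∧ x * x = 1 ∧ y * y = 1 ∧ x * y = y * x)
    {u v : G} {c : Ω} (hu1 : u ≠ 1) (hu2 : u * u = 1) (hv2 : v * v = 1) (hu : u • c = c) (hv : v • c = c) :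
    u * v = v * u := by
  obtain ⟨g, hg⟩ := exists_move hS c a
  have hconj : ∀ z : G, z * z = 1 → z • c = c →
      g * z * g⁻¹ ∈ stabilizer G a ∧ (g * z * g⁻¹) * (g * z * g⁻¹) = 1 := by
    intro z hz2 hzc
    refine ⟨?_, ?_⟩
    · show (g * z * g⁻¹) • a = a
      simp only [mul_smul]
      rw [← hg, inv_smul_smul, hzc]
    · have : (g * z * g⁻¹) * (g * z * g⁻¹) = g * (z * z) * g⁻¹ := by group
      rw [this, hz2]; group
  obtain ⟨a1, a3⟩ := hconj u hu2 hu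
  obtain ⟨b1, b3⟩ := hconj v hv2 hv
  have a2 : g * u * g⁻¹ ≠ 1 := by
    intro h
    apply hu1
    have : u = g⁻¹ * (g * u * g⁻¹) * g := by group
    rw [this, h]; group
  have := inv_comm hS h2 a1 a2 a3 b1 b3
  have h3 : g * (u * v) * g⁻¹ = g * (v * u) * g⁻¹ := by
    calc g * (u * v) * g⁻¹ = (g * u * g⁻¹) * (g * v * g⁻¹) := by group
      _ = (g * v * g⁻¹) * (g * u * g⁻¹) := this
      _ = _ := by group
  have h4 : g * (u * v) = g * (v * u) := mul_right_cancel h3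
  exact mul_left_cancel h4

/-- The product of two non-commuting involutions. -/
theorem prod_conj (h2 : ∃ x y : G, x ≠ 1 ∧ y ≠ 1 ∧ x ≠ y ∧ x * x = 1 ∧ y * y = 1 ∧ x * y = y * x)
    {u v : G} (hu1 : u ≠ 1) (hu2 : u * u = 1) (hv1 : v ≠ 1) (hv2 : v * v = 1) (hx : (u * v) * (u * v) ≠ 1) :
    ∃ g : G, ∃ u' ∈ Cfsg.involutionsIn (stabilizer G a : Set G), g * (u * v) * g⁻¹ = u' * t := by
  obtain ⟨c, hc, hcu⟩ := inv_fix hS hu1 hu2
  obtain ⟨g₁, hg₁⟩ := exists_move hS c a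
  set u₁ := g₁ * u * g₁⁻¹ with hu₁
  set v₁ := g₁ * v * g₁⁻¹ with hv₁
  have hu₁a : u₁ • a = a := by
    rw [hu₁]
    simp only [mul_smul]
    rw [← hg₁, inv_smul_smul, hc]
  have hv₁2 : v₁ * v₁ = 1 := by
    have : v₁ * v₁ = g₁ * (v * v) * g₁⁻¹ := by rw [hv₁]; group
    rw [this, hv2]; group
  have hu₁2 : u₁ * u₁ = 1 := by
    have : u₁ * u₁ = g₁ * (u * u) * g₁⁻¹ := by rw [hu₁]; group
    rw [this, hu2]; group
  have hu₁1 : u₁ ≠ 1 := by
    intro h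
    apply hu1
    have : u = g₁⁻¹ * u₁ * g₁ := by rw [hu₁]; group
    rw [this, h]; group
  have hv₁a : v₁ • a ≠ a := by
    intro h
    have h1 : v • c = c := by
      have h3 : (g₁⁻¹ * v₁ * g₁) • c = c := by
        simp only [mul_smul]
        rw [hg₁, h, ← hg₁, inv_smul_smul]
      have : g₁⁻¹ * v₁ * g₁ = v := by rw [hv₁]; group
      rwa [this] at h3
    exact hx (by
      have hcomm := inv_comm_of_fix hS h2 hu1 hu2 hv2 hc h1
      calc u * v * (u * v) = u * (v * u) * v := by group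
        _ = u * (u * v) * v := by rw [hcomm]
        _ = (u * u) * (v * v) := by group
        _ = 1 := by rw [hu2, hv2, one_mul])
  obtain ⟨g₂, hg₂, e₂⟩ := conj_to_t hS hv₁2 hv₁a
  refine ⟨g₂ * g₁, g₂ * u₁ * g₂⁻¹, ?_, ?_⟩
  · refine ⟨Subgroup.mul_mem _ (Subgroup.mul_mem _ hg₂ hu₁a) (Subgroup.inv_mem _ hg₂), ?_, ?_⟩
    · intro h
      apply hu₁1
      have : u₁ = g₂⁻¹ * (g₂ * u₁ * g₂⁻¹) * g₂ := by group
      rw [this, h]; group
    · have : (g₂ * u₁ * g₂⁻¹) * (g₂ * u₁ * g₂⁻¹) = g₂ * (u₁ * u₁) * g₂⁻¹ := by group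
      rw [this, hu₁2]; group
  · rw [← e₂, hu₁, hv₁]
    group

/-- The centraliser of a product of two non-commuting involutions has odd order. -/
theorem prod_odd (h2 : ∃ x y : G, x ≠ 1 ∧ y ≠ 1 ∧ x ≠ y ∧ x * x = 1 ∧ y * y = 1 ∧ x * y = y * x)
    {u v : G} (hu1 : u ≠ 1) (hu2 : u * u = 1) (hv1 : v ≠ 1) (hv2 : v * v = 1) (hx : (u * v) * (u * v) ≠ 1) :
    Odd (Nat.card ↥(Subgroup.centralizer {u * v})) := by
  classical
  by_contra hne
  rw [Nat.not_odd_iff_even, even_iff_two_dvd] at hne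
  haveI : Fact (Nat.Prime 2) := ⟨Nat.prime_two⟩
  obtain ⟨⟨w, hwC⟩, hw⟩ := exists_prime_orderOf_dvd_card' 2 hne
  have hwo : orderOf w = 2 := by
    rw [← hw]
    exact (Subgroup.orderOf_mk w hwC).symm
  have hw2 : w * w = 1 := by
    have := pow_orderOf_eq_one w
    rwa [hwo, pow_two] at this
  have hw1 : w ≠ 1 := by
    rintro rfl
    simp at hwo
  have hcw : w * (u * v) = (u * v) * w := Subgroup.mem_centralizer_singleton_iff.mp hwC
  obtain ⟨e, he, heu⟩ := inv_fix hS hw1 hw2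
  -- x fixes e
  have hxe : (u * v) • e = e := by
    apply heu
    rw [← mul_smul, hcw, mul_smul, he]
  obtain ⟨g₁, hg₁⟩ := exists_move hS e a
  -- conjugates
  set u₁ := g₁ * u * g₁⁻¹ with hu₁
  set v₁ := g₁ * v * g₁⁻¹ with hv₁
  set w₁ := g₁ * w * g₁⁻¹ with hw₁
  have hfix : ∀ z : G, z • e = e → (g₁ * z * g₁⁻¹) • a = a := by
    intro z hz
    simp only [mul_smul]
    rw [← hg₁, inv_smul_smul, hz]
  have hsq : ∀ z : G, z * z = 1 → (g₁ * z * g₁⁻¹) * (g₁ * z * g₁⁻¹) = 1 := by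
    intro z hz
    have : (g₁ * z * g₁⁻¹) * (g₁ * z * g₁⁻¹) = g₁ * (z * z) * g₁⁻¹ := by group
    rw [this, hz]; group
  have hne1 : ∀ z : G, z ≠ 1 → g₁ * z * g₁⁻¹ ≠ 1 := by
    intro z hz h
    apply hz
    have : z = g₁⁻¹ * (g₁ * z * g₁⁻¹) * g₁ := by group
    rw [this, h]; group
  have hu₁2 : u₁ * u₁ = 1 := hsq u hu2
  have hv₁2 : v₁ * v₁ = 1 := hsq v hv2
  have hw₁2 : w₁ * w₁ = 1 := hsq w hw2
  have hw₁1 : w₁ ≠ 1 := hne1 w hw1
  have hw₁a : w₁ ∈ stabilizer G a := hfix w he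
  have hw₁Q : w₁ ∈ Q := inv_of_sq_mem hS hw₁a hw₁2
  have hx₁ : u₁ * v₁ = g₁ * (u * v) * g₁⁻¹ := by rw [hu₁, hv₁]; group
  have hx₁a : (u₁ * v₁) • a = a := by rw [hx₁]; exact hfix _ hxe
  have hx₁2 : (u₁ * v₁) * (u₁ * v₁) ≠ 1 := by
    rw [hx₁]
    intro h
    apply hx
    have h3 := hne1 ((u * v) * (u * v))
    by_contra h4
    apply h3 h4
    have : g₁ * (u * v * (u * v)) * g₁⁻¹ = g₁ * (u * v) * g₁⁻¹ * (g₁ * (u * v) * g₁⁻¹) := by group
    rw [this, h]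
  have hcw₁ : w₁ * (u₁ * v₁) = (u₁ * v₁) * w₁ := by
    rw [hx₁, hw₁]
    calc g₁ * w * g₁⁻¹ * (g₁ * (u * v) * g₁⁻¹) = g₁ * (w * (u * v)) * g₁⁻¹ := by group
      _ = g₁ * ((u * v) * w) * g₁⁻¹ := by rw [hcw]
      _ = _ := by group
  -- u₁ moves a
  have hu₁1 : u₁ ≠ 1 := hne1 u hu1
  have hu₁a : u₁ • a ≠ a := by
    intro h
    have hv₁a : v₁ • a = a := by
      have := hx₁a
      rw [mul_smul] at this
      have h5 : u₁⁻¹ • (u₁ • v₁ • a) = u₁⁻¹ • a := by rw [this]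
      rw [inv_smul_smul] at h5
      rw [h5]
      exact Subgroup.inv_mem _ (show u₁ ∈ stabilizer G a from h)
    apply hx₁2
    have hcomm := inv_comm hS h2 (show u₁ ∈ stabilizer G a from h) hu₁1 hu₁2 (show v₁ ∈ stabilizer G a from hv₁a) hv₁2
    calc u₁ * v₁ * (u₁ * v₁) = u₁ * (v₁ * u₁) * v₁ := by group
      _ = u₁ * (u₁ * v₁) * v₁ := by rw [hcomm]
      _ = (u₁ * u₁) * (v₁ * v₁) := by group
      _ = 1 := by rw [hu₁2, hv₁2, one_mul]
  obtain ⟨g₂, hg₂, e₂⟩ := conj_to_t hS hu₁2 hu₁a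
  set x₂ := g₂ * (u₁ * v₁) * g₂⁻¹ with hx₂
  set v₂ := g₂ * v₁ * g₂⁻¹ with hv₂
  set w₂ := g₂ * w₁ * g₂⁻¹ with hw₂
  have hx₂e : x₂ = t * v₂ := by
    rw [hx₂, hv₂, ← e₂]; group
  have hv₂2 : v₂ * v₂ = 1 := by
    have : v₂ * v₂ = g₂ * (v₁ * v₁) * g₂⁻¹ := by rw [hv₂]; group
    rw [this, hv₁2]; group
  have htt := hS.mul_self
  have hti := t_inv hS
  have hx₂a : x₂ • a = a := by
    rw [hx₂]
    simp only [mul_smul]
    have h5 : g₂⁻¹ • a = a := Subgroup.inv_mem _ hg₂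
    have h6 : (u₁ * v₁) • a = a := hx₁a
    rw [mul_smul] at h6
    rw [h5, h6]
    exact hg₂
  have hv₂a : v₂ • a = t • a := by
    have h7 : (t * v₂) • a = a := by rw [← hx₂e]; exact hx₂a
    rw [mul_smul] at h7
    calc v₂ • a = t • t • v₂ • a := by rw [← mul_smul t t, htt, one_smul]
      _ = t • a := by rw [h7]
  have hv₂b : v₂ • (t • a) = a := by
    rw [← hv₂a, ← mul_smul, hv₂2, one_smul]
  have hx₂D : x₂ ∈ stabilizer G a ⊓ stabilizer G (t • a) := by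
    refine ⟨hx₂a, ?_⟩
    show x₂ • (t • a) = t • a
    rw [hx₂e, mul_smul, hv₂b]
  have hx₂K : x₂ ∈ Cfsg.invertedBy (stabilizer G a ⊓ stabilizer G (t • a)) t := by
    refine ⟨hx₂D, ?_⟩
    rw [hti, hx₂e]
    have hvi : v₂⁻¹ = v₂ := inv_eq_of_mul_eq_one_left hv₂2
    rw [mul_inv_rev, hvi, hti]
    calc t * (t * v₂) * t = (t * t) * v₂ * t := by group
      _ = v₂ * t := by rw [htt, one_mul]
  have hx₂1 : x₂ ≠ 1 := by
    intro h
    apply hx₁2
    have : u₁ * v₁ = g₂⁻¹ * x₂ * g₂ := by rw [hx₂]; group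
    rw [this, h]
    group
  have hfpf := K_fpf hS hx₂K hx₂1
  have hw₂Q : w₂ ∈ Q := hS.conj_mem g₂ hg₂ w₁ hw₁Q
  have hw₂C : w₂ ∈ Subgroup.centralizer {x₂} := by
    apply Subgroup.mem_centralizer_singleton_iff.mpr
    rw [hw₂, hx₂]
    calc g₂ * w₁ * g₂⁻¹ * (g₂ * (u₁ * v₁) * g₂⁻¹) = g₂ * (w₁ * (u₁ * v₁)) * g₂⁻¹ := by group
      _ = g₂ * ((u₁ * v₁) * w₁) * g₂⁻¹ := by rw [hcw₁]
      _ = _ := by group
  have hmem : w₂ ∈ Q ⊓ Subgroup.centralizer {x₂} := ⟨hw₂Q, hw₂C⟩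
  rw [hfpf, Subgroup.mem_bot] at hmem
  apply hw₁1
  have : w₁ = g₂⁻¹ * w₂ * g₂ := by rw [hw₂]; group
  rw [this, hmem]
  group

end

end Cfsg.Agent.Lib.Cl.RankOne
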