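import Mathlib
import Cfsg.Agent.Lib.Fusion.GlaubS4

/-!
# `S₄` is involved iff `S₃` is involved in `N(T)/C(T)` for a `2`-subgroup `T`
-/

set_option autoImplicit false

universe u

namespace Cfsg.Agent.Lib.Cl.S4Inv

open Cfsg Cfsg.Agent.Lib.Amalgam Cfsg.Agent.Lib.Fusion
open scoped Pointwise

theorem perm3_even : ∀ a b : Equiv.Perm (Fin 3), Equiv.Perm.sign a = 1 → a ≠ 1 → Equiv.Perm.sign b = 1 →
    b = 1 ∨ b = a ∨ b = a * a := by decide

/-- the transposition -/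
def τ3 : Equiv.Perm (Fin 3) := Equiv.swap 0 1
/-- the three-cycle -/
def c3 : Equiv.Perm (Fin 3) := Equiv.swap 0 1 * Equiv.swap 1 2

theorem perm3_comm : ∀ a : Equiv.Perm (Fin 3), Equiv.Perm.sign a = 1 → a ≠ 1 →
    a⁻¹ * (τ3 * a * τ3⁻¹) ≠ 1 := by decide

theorem τ3_sq : τ3 * τ3 = 1 := by decide
theorem c3_cube : c3 ^ 3 = 1 := by decide
theorem c3_ne : c3 ≠ 1 := by decide
theorem c3_sign : Equiv.Perm.sign c3 = 1 := by decide

/-- Elements of prime-power order with the same image. -/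
theorem exists_three_element {L : Type*} [Group L] [Finite L] (y₀ : L) :
    ∃ (n e : ℕ), ¬ 3 ∣ n ∧ (y₀ ^ n) ^ (3 ^ e) = 1 := by
  have h0 : orderOf y₀ ≠ 0 := (orderOf_pos y₀).ne'
  obtain ⟨e, n, hn, hk⟩ := Nat.exists_eq_pow_mul_and_not_dvd h0 3 (by norm_num)
  refine ⟨n, e, hn, ?_⟩
  rw [← pow_mul, mul_comm, ← hk, pow_orderOf_eq_one]

theorem exists_two_element {L : Type*} [Group L] [Finite L] (t₀ : L) :
    ∃ (n e : ℕ), Odd n ∧ (t₀ ^ n) ^ (2 ^ e) = 1 := by
  have h0 : orderOf t₀ ≠ 0 := (orderOf_pos t₀).ne'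
  obtain ⟨e, n, hn, hk⟩ := Nat.exists_eq_two_pow_mul_odd h0
  refine ⟨n, e, hn, ?_⟩
  rw [← pow_mul, mul_comm, ← hk, pow_orderOf_eq_one]

theorem zpow_isP {G : Type*} [Group G] {p e : ℕ} (x : G) (h : x ^ (p ^ e) = 1) :
    IsPGroup p (Subgroup.zpowers x) := by
  rintro ⟨g, ⟨i, rfl⟩⟩
  refine ⟨e, Subtype.ext ?_⟩
  show (x ^ i) ^ (p ^ e) = 1
  rw [← zpow_natCast, zpow_comm, zpow_natCast, h, one_zpow]

/-- **Lemma E**: a finite group with quotient `S₃` has a `3`-element outside the kernel inverted by a `2`-element. -/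
theorem lemE : ∀ (n : ℕ) (L : Type u) [Group L] [Finite L] (φ : L →* Equiv.Perm (Fin 3)),
    Nat.card L = n → Function.Surjective φ →
    ∃ (z t : L) (a b : ℕ), z ^ (3 ^ a) = 1 ∧ t ^ (2 ^ b) = 1 ∧ t * z * t⁻¹ = z⁻¹ ∧ φ z ≠ 1 := by
  intro n
  induction n using Nat.strong_induction_on with
  | _ n IH =>
  intro L _ _ φ hn hφ
  by_cases hex : ∃ H : Subgroup L, H ≠ ⊤ ∧ H.map φ = ⊤
  · obtain ⟨H, hH, hmap⟩ := hex
    have hlt : Nat.card H < n := by
      rw [← hn]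
      have hle := Subgroup.card_le_card_group H
      rcases hle.lt_or_eq with h | h
      · exact h
      · exact absurd (Subgroup.eq_top_of_card_eq H h) hH
    have hs : Function.Surjective (φ.comp H.subtype) := by
      intro σ
      have : σ ∈ H.map φ := by rw [hmap]; trivial
      obtain ⟨h, hh, rfl⟩ := this
      exact ⟨⟨h, hh⟩, rfl⟩
    obtain ⟨z, t, a, b, h1, h2, h3, h4⟩ := IH _ hlt H (φ.comp H.subtype) rfl hs
    refine ⟨z, t, a, b, ?_, ?_, ?_, h4⟩
    · have := congrArg Subtype.val h1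
      simpa using this
    · have := congrArg Subtype.val h2
      simpa using this
    · have := congrArg Subtype.val h3
      simpa using this
  push_neg at hex
  have hmin : ∀ H : Subgroup L, H.map φ = ⊤ → H = ⊤ := by
    intro H hH
    by_contra h
    exact hex H h hH
  classical
  haveI : Fact (Nat.Prime 3) := ⟨by norm_num⟩
  haveI : Fact (Nat.Prime 2) := ⟨Nat.prime_two⟩
  -- the three-element
  obtain ⟨y₀, hy₀⟩ := hφ c3
  obtain ⟨k, e, hk, hy3⟩ := exists_three_element y₀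
  obtain ⟨y₁, hy₁⟩ : ∃ y₁, y₁ = y₀ ^ k := ⟨_, rfl⟩
  rw [← hy₁] at hy3
  have hφy : φ y₁ ≠ 1 := by
    rw [hy₁, map_pow, hy₀]
    intro h
    have h3 : orderOf c3 = 3 := orderOf_eq_prime c3_cube c3_ne
    have := orderOf_dvd_of_pow_eq_one h
    rw [h3] at this
    exact hk this
  have hsign : Equiv.Perm.sign (φ y₁) = 1 := by
    rw [hy₁, map_pow, hy₀, map_pow, c3_sign, one_pow]
  let s : L →* ℤˣ := Equiv.Perm.sign.comp φ
  let N₃ : Subgroup L := s.ker
  haveI hN₃ : N₃.Normal := s.normal_ker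
  have hy₁N : y₁ ∈ N₃ := hsign
  obtain ⟨Y, hY⟩ := (zpow_isP (p := 3) (e := e) (⟨y₁, hy₁N⟩ : N₃) (Subtype.ext hy3)).exists_le_sylow
  let Y' : Subgroup L := (Y : Subgroup N₃).map N₃.subtype
  have hyY' : y₁ ∈ Y' := ⟨⟨y₁, hy₁N⟩, hY (Subgroup.mem_zpowers _), rfl⟩
  have hFrat : Subgroup.normalizer (Y' : Set L) ⊔ N₃ = ⊤ := Sylow.normalizer_sup_eq_top (p := 3) (N := N₃) Y
  have hyN : y₁ ∈ Subgroup.normalizer (Y' : Set L) := Subgroup.le_normalizer hyY'
  have hMtop : (Subgroup.normalizer (Y' : Set L)).map φ = ⊤ := by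
    rw [eq_top_iff]
    intro σ _
    obtain ⟨g, rfl⟩ := hφ σ
    have hg : g ∈ Subgroup.normalizer (Y' : Set L) ⊔ N₃ := by rw [hFrat]; trivial
    rw [← SetLike.mem_coe, Subgroup.mul_normal, Set.mem_mul] at hg
    obtain ⟨m, hm, n', hn', rfl⟩ := hg
    rw [map_mul]
    refine mul_mem ⟨m, hm, rfl⟩ ?_
    rcases perm3_even _ _ hsign hφy hn' with h | h | h
    · rw [h]; exact one_mem _
    · rw [h]; exact ⟨y₁, hyN, rfl⟩
    · rw [h, ← map_mul]; exact ⟨y₁ * y₁, mul_mem hyN hyN, rfl⟩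
  have hY'n : Y'.Normal := Subgroup.normalizer_eq_top_iff.mp (hmin _ hMtop)
  have hY'p : IsPGroup 3 Y' := Y.2.map N₃.subtype
  -- the kernel
  let N₀ : Subgroup L := φ.ker
  haveI hN₀ : N₀.Normal := φ.normal_ker
  obtain ⟨S⟩ : Nonempty (Sylow 2 N₀) := inferInstance
  let S' : Subgroup L := (S : Subgroup N₀).map N₀.subtype
  have hFrat2 : Subgroup.normalizer (S' : Set L) ⊔ N₀ = ⊤ := Sylow.normalizer_sup_eq_top (p := 2) (N := N₀) S
  have hMtop2 : (Subgroup.normalizer (S' : Set L)).map φ = ⊤ := by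
    rw [eq_top_iff]
    intro σ _
    obtain ⟨g, rfl⟩ := hφ σ
    have hg : g ∈ Subgroup.normalizer (S' : Set L) ⊔ N₀ := by rw [hFrat2]; trivial
    rw [← SetLike.mem_coe, Subgroup.mul_normal, Set.mem_mul] at hg
    obtain ⟨m, hm, n', hn', rfl⟩ := hg
    rw [map_mul, show φ n' = 1 from hn', mul_one]
    exact ⟨m, hm, rfl⟩
  have hS'n : S'.Normal := Subgroup.normalizer_eq_top_iff.mp (hmin _ hMtop2)
  have hS'p : IsPGroup 2 S' := S.2.map N₀.subtype
  -- the two-element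
  obtain ⟨t₀, ht₀⟩ := hφ τ3
  obtain ⟨k2, e2, hk2, ht2⟩ := exists_two_element t₀
  obtain ⟨t, ht⟩ : ∃ t, t = t₀ ^ k2 := ⟨_, rfl⟩
  rw [← ht] at ht2
  have hφt : φ t = τ3 := by
    obtain ⟨j, hj⟩ := hk2
    rw [ht, map_pow, ht₀, hj, pow_succ, pow_mul, sq, τ3_sq, one_pow, one_mul]
  have htt0 : t * t ∈ N₀ := by
    show φ (t * t) = 1
    rw [map_mul, hφt, τ3_sq]
  have htt2 : (t * t) ^ (2 ^ e2) = 1 := by
    rw [← sq, ← pow_mul, mul_comm, pow_mul, ht2, one_pow]
  have htt : t * t ∈ S' := by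
    obtain ⟨S₂, hS₂⟩ := (zpow_isP (p := 2) (e := e2) (⟨t * t, htt0⟩ : N₀) (Subtype.ext htt2)).exists_le_sylow
    obtain ⟨g, hg⟩ := MulAction.exists_smul_eq N₀ S₂ S
    have h1 : (⟨t * t, htt0⟩ : N₀) ∈ (S₂ : Subgroup N₀) := hS₂ (Subgroup.mem_zpowers _)
    have h2 : MulAut.conj g • (⟨t * t, htt0⟩ : N₀) ∈ MulAut.conj g • (S₂ : Subgroup N₀) :=
      Subgroup.smul_mem_pointwise_smul _ _ _ h1
    have hgS : MulAut.conj g • (S₂ : Subgroup N₀) = (S : Subgroup N₀) := by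
      have := congrArg (fun Q : Sylow 2 N₀ => (Q : Subgroup N₀)) hg
      exact this
    rw [hgS] at h2
    have h3 : (g : L) * (t * t) * (g : L)⁻¹ ∈ S' := ⟨_, h2, rfl⟩
    have h4 := hS'n.conj_mem _ h3 (g : L)⁻¹
    have h5 : (g : L)⁻¹ * ((g : L) * (t * t) * (g : L)⁻¹) * ((g : L)⁻¹)⁻¹ = t * t := by group
    rwa [h5] at h4
  have hdis : Disjoint Y' S' := IsPGroup.disjoint_of_ne 3 2 (by norm_num) _ _ hY'p hS'p
  have hcomm : t * t * y₁ = y₁ * (t * t) :=
    (Subgroup.commute_of_normal_of_disjoint S' Y' hS'n hY'n hdis.symm _ _ htt hyY').eq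
  let z : L := y₁⁻¹ * (t * y₁ * t⁻¹)
  have hz : z ∈ Y' := mul_mem (inv_mem hyY') (hY'n.conj_mem _ hyY' t)
  obtain ⟨a, ha⟩ := hY'p ⟨z, hz⟩
  have ha' : z ^ (3 ^ a) = 1 := by
    have := congrArg Subtype.val ha
    simpa using this
  refine ⟨z, t, a, e2, ha', ht2, ?_, ?_⟩
  · have h1 : t * t * y₁ * t⁻¹ * t⁻¹ = y₁ := by
      rw [hcomm]; group
    show t * (y₁⁻¹ * (t * y₁ * t⁻¹)) * t⁻¹ = (y₁⁻¹ * (t * y₁ * t⁻¹))⁻¹
    have h2 : t * y₁ * t⁻¹ * t⁻¹ = t⁻¹ * y₁ := by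
      have h3 : t * y₁ * t⁻¹ * t⁻¹ = t⁻¹ * (t * t * y₁ * t⁻¹ * t⁻¹) := by group
      rw [h3, h1]
    calc t * (y₁⁻¹ * (t * y₁ * t⁻¹)) * t⁻¹ = t * y₁⁻¹ * (t * y₁ * t⁻¹ * t⁻¹) := by group
      _ = t * y₁⁻¹ * (t⁻¹ * y₁) := by rw [h2]
      _ = (y₁⁻¹ * (t * y₁ * t⁻¹))⁻¹ := by group
  · show φ (y₁⁻¹ * (t * y₁ * t⁻¹)) ≠ 1
    rw [map_mul, map_inv, map_mul, map_mul, map_inv, hφt]
    exact perm3_comm _ hsign hφy

/-- The vector-space core: a `σ`-fixed vector moved by `ζ`. -/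
theorem core {V : Type*} [CommGroup V] (hV : ∀ x : V, x * x = 1) (ζ σ : V → V)
    (hζ : ∀ x y, ζ (x * y) = ζ x * ζ y) (hσ : ∀ x y, σ (x * y) = σ x * σ y)
    (hζ3 : ∀ x, ζ (ζ (ζ x)) = x) (hσ2 : ∀ x, σ (σ x) = x)
    (hrel : ∀ x, σ (ζ x) = ζ (ζ (σ x))) (x : V) (hx : ζ x ≠ x) :
    ∃ v : V, v ≠ 1 ∧ σ v = v ∧ ζ v ≠ v ∧ ζ (ζ v) = v * ζ v ∧ σ (ζ v) = v * ζ v := by
  have hσ1 : σ 1 = 1 := by
    have := hσ 1 1
    simpa using this
  have hne : ∀ a b : V, a ≠ b → a * b ≠ 1 := by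
    intro a b hab h
    apply hab
    have h1 : a * b * b = b := by rw [h, one_mul]
    rwa [mul_assoc, hV, mul_one] at h1
  have hPσ : ∀ y, y * ζ y * ζ (ζ y) = 1 → σ y * ζ (σ y) * ζ (ζ (σ y)) = 1 := by
    intro y hy
    have h1 : ζ (σ y) = σ (ζ (ζ y)) := by
      rw [hrel (ζ y), hrel y, hζ3]
    rw [← hrel y, h1]
    calc σ y * σ (ζ (ζ y)) * σ (ζ y) = σ (y * ζ y * ζ (ζ y)) := by
          rw [hσ, hσ]
          ac_rfl
      _ = 1 := by rw [hy, hσ1]
  have hPm : ∀ a b, a * ζ a * ζ (ζ a) = 1 → b * ζ b * ζ (ζ b) = 1 →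
      (a * b) * ζ (a * b) * ζ (ζ (a * b)) = 1 := by
    intro a b ha hb
    rw [hζ, hζ]
    calc a * b * (ζ a * ζ b) * (ζ (ζ a) * ζ (ζ b))
        = (a * ζ a * ζ (ζ a)) * (b * ζ b * ζ (ζ b)) := by ac_rfl
      _ = 1 := by rw [ha, hb, one_mul]
  have hw1 : x * ζ x ≠ 1 := hne _ _ hx.symm
  have hwP : (x * ζ x) * ζ (x * ζ x) * ζ (ζ (x * ζ x)) = 1 := by
    rw [hζ, hζ, hζ3]
    calc x * ζ x * (ζ x * ζ (ζ x)) * (ζ (ζ x) * x)
        = (x * x) * (ζ x * ζ x) * (ζ (ζ x) * ζ (ζ x)) := by ac_rfl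
      _ = 1 := by simp [hV]
  obtain ⟨w, hw⟩ : ∃ w, w = x * ζ x := ⟨_, rfl⟩
  rw [← hw] at hw1 hwP
  obtain ⟨v, hv1, hv2, hvP⟩ : ∃ v, v ≠ 1 ∧ σ v = v ∧ v * ζ v * ζ (ζ v) = 1 := by
    by_cases h : σ w = w
    · exact ⟨w, hw1, h, hwP⟩
    · refine ⟨w * σ w, hne _ _ (Ne.symm h), ?_, hPm _ _ hwP (hPσ _ hwP)⟩
      rw [hσ, hσ2, mul_comm]
  have hsq : ∀ a b : V, a * b = 1 → b = a := by
    intro a b h
    have h1 : a * (a * b) = a := by rw [h, mul_one]
    rwa [← mul_assoc, hV, one_mul] at h1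
  have hv4 : ζ (ζ v) = v * ζ v := hsq _ _ hvP
  refine ⟨v, hv1, hv2, ?_, hv4, ?_⟩
  · intro h
    rw [h, h, hV, one_mul] at hvP
    exact hv1 hvP
  · rw [hrel, hv2, hv4]

/-- Invariance in one direction suffices in a finite group. -/
theorem mem_normalizer_of_forall {G : Type*} [Group G] [Finite G] (U : Subgroup G) (w : G)
    (h : ∀ x ∈ U, w * x * w⁻¹ ∈ U) : w ∈ Subgroup.normalizer (U : Set G) := by
  rw [Subgroup.mem_normalizer_iff]
  intro x
  refine ⟨h x, fun hx => ?_⟩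
  let f : U → U := fun y => ⟨w * y * w⁻¹, h y y.2⟩
  have hf : Function.Injective f := by
    intro a b hab
    have h1 : w * (a : G) * w⁻¹ = w * b * w⁻¹ := congrArg Subtype.val hab
    exact Subtype.ext (by simpa using h1)
  obtain ⟨y, hy⟩ := (Finite.injective_iff_surjective.mp hf) ⟨_, hx⟩
  have h1 : w * (y : G) * w⁻¹ = w * x * w⁻¹ := congrArg Subtype.val hy
  have h2 : (y : G) = x := by simpa using h1
  rw [← h2]
  exact y.2

/-- The final configuration gives `S₄`. -/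
theorem lemF {G : Type u} [Group G] [Finite G] (T : Subgroup G) (z t : G) (a b : ℕ)
    (hab : ∀ x ∈ T, ∀ y ∈ T, x * y = y * x) (h2 : ∀ x ∈ T, x * x = 1)
    (hzN : z ∈ Subgroup.normalizer (T : Set G)) (htN : t ∈ Subgroup.normalizer (T : Set G))
    (hz3 : z ^ 3 ∈ Subgroup.centralizer (T : Set G)) (hzC : z ∉ Subgroup.centralizer (T : Set G))
    (hza : z ^ (3 ^ a) = 1) (htb : t ^ (2 ^ b) = 1)
    (htt : t * t ∈ Subgroup.centralizer (T : Set G)) (hinv : t * z * t⁻¹ = z⁻¹) :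
    Involves (Equiv.Perm (Fin 4)) G := by
  letI : CommGroup T := { (inferInstance : Group T) with
    mul_comm := fun x y => Subtype.ext (hab _ x.2 _ y.2) }
  let ζ : T → T := fun y => ⟨z * y * z⁻¹, (Subgroup.mem_normalizer_iff.mp hzN _).mp y.2⟩
  let σ : T → T := fun y => ⟨t * y * t⁻¹, (Subgroup.mem_normalizer_iff.mp htN _).mp y.2⟩
  have hz3' : ∀ y ∈ T, y * z ^ 3 = z ^ 3 * y := fun y hy => Subgroup.mem_centralizer_iff.mp hz3 y hy
  have htt' : ∀ y ∈ T, y * (t * t) = t * t * y := fun y hy => Subgroup.mem_centralizer_iff.mp htt y hy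
  obtain ⟨x, hx, hxz⟩ : ∃ x ∈ T, z * x * z⁻¹ ≠ x := by
    by_contra h
    push_neg at h
    refine hzC (Subgroup.mem_centralizer_iff.mpr fun y hy => ?_)
    have h1 := h y hy
    calc y * z = (z * y * z⁻¹) * z := by rw [h1]
      _ = z * y := by group
  obtain ⟨v, hv1, hv2, hv3, hv4, hv5⟩ := core (V := T) (fun x => Subtype.ext (h2 _ x.2)) ζ σ
    (fun x y => Subtype.ext (by
      show z * (x * y : G) * z⁻¹ = z * (x : G) * z⁻¹ * (z * (y : G) * z⁻¹)
      group))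
    (fun x y => Subtype.ext (by
      show t * (x * y : G) * t⁻¹ = t * (x : G) * t⁻¹ * (t * (y : G) * t⁻¹)
      group))
    (fun y => Subtype.ext (by
      show z * (z * (z * (y : G) * z⁻¹) * z⁻¹) * z⁻¹ = y
      have h1 := hz3' y y.2
      have h3 : z ^ 3 = z * z * z := by rw [pow_succ, pow_two]
      rw [h3] at h1
      calc z * (z * (z * (y : G) * z⁻¹) * z⁻¹) * z⁻¹ = (z * z * z) * (y : G) * (z * z * z)⁻¹ := by group
        _ = y * (z * z * z) * (z * z * z)⁻¹ := by rw [h1]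
        _ = y := by group))
    (fun y => Subtype.ext (by
      show t * (t * (y : G) * t⁻¹) * t⁻¹ = y
      have h1 := htt' y y.2
      calc t * (t * (y : G) * t⁻¹) * t⁻¹ = (t * t) * (y : G) * (t * t)⁻¹ := by group
        _ = y * (t * t) * (t * t)⁻¹ := by rw [h1]
        _ = y := by group))
    (fun y => Subtype.ext (by
      show t * (z * (y : G) * z⁻¹) * t⁻¹ = z * (z * (t * (y : G) * t⁻¹) * z⁻¹) * z⁻¹
      have hs : t * (y : G) * t⁻¹ ∈ T := (Subgroup.mem_normalizer_iff.mp htN _).mp y.2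
      have h1 := hz3' _ hs
      have h3 : z ^ 3 = z * z * z := by rw [pow_succ, pow_two]
      rw [h3] at h1
      have h4 : t * (z * (y : G) * z⁻¹) * t⁻¹ = (t * z * t⁻¹) * (t * (y : G) * t⁻¹) * (t * z * t⁻¹)⁻¹ := by group
      rw [h4, hinv]
      obtain ⟨s, hs'⟩ : ∃ s, s = t * (y : G) * t⁻¹ := ⟨_, rfl⟩
      rw [← hs'] at h1 ⊢
      calc z⁻¹ * s * z⁻¹⁻¹ = z⁻¹ * (s * (z * z * z)) * (z * z)⁻¹ := by group
        _ = z⁻¹ * (z * z * z * s) * (z * z)⁻¹ := by rw [h1]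
        _ = z * (z * s * z⁻¹) * z⁻¹ := by group))
    ⟨x, hx⟩ (fun h => hxz (congrArg Subtype.val h))
  obtain ⟨u₁, hu₁⟩ : ∃ u₁ : G, u₁ = (v : G) := ⟨_, rfl⟩
  obtain ⟨u₂, hu₂⟩ : ∃ u₂ : G, u₂ = z * u₁ * z⁻¹ := ⟨_, rfl⟩
  have hu₁T : u₁ ∈ T := hu₁ ▸ v.2
  have hu₂T : u₂ ∈ T := hu₂ ▸ (Subgroup.mem_normalizer_iff.mp hzN _).mp hu₁T
  have hne1 : u₁ ≠ 1 := by
    rw [hu₁]
    intro h
    exact hv1 (Subtype.ext h)
  have hne2 : u₂ ≠ 1 := by
    rw [hu₂]
    intro h
    apply hne1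
    have : u₁ = z⁻¹ * (z * u₁ * z⁻¹) * z := by group
    rw [this, h]
    group
  have hne12 : u₁ ≠ u₂ := by
    intro h
    apply hv3
    apply Subtype.ext
    show z * (v : G) * z⁻¹ = v
    rw [← hu₁, ← hu₂, h]
  have e1 : t * u₁ * t⁻¹ = u₁ := by
    have := congrArg Subtype.val hv2
    rw [hu₁]
    exact this
  have e2 : z * u₂ * z⁻¹ = u₁ * u₂ := by
    have := congrArg Subtype.val hv4
    rw [hu₂, hu₁]
    exact this
  have e3 : t * u₂ * t⁻¹ = u₁ * u₂ := by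
    have := congrArg Subtype.val hv5
    rw [hu₂, hu₁]
    exact this
  have e4 : z * u₁ * z⁻¹ = u₂ := hu₂.symm
  have huu : u₁ * u₁ = 1 := h2 _ hu₁T
  have hvv : u₂ * u₂ = 1 := h2 _ hu₂T
  have huv : u₁ * u₂ = u₂ * u₁ := hab _ hu₁T _ hu₂T
  have hcard := card_kleinOf (huu := huu) (hvv := hvv) (huv := huv) hne1 hne2 hne12
  have e5 : u₂ * (u₁ * u₂) = u₁ := by
    rw [← mul_assoc, ← huv, mul_assoc, hvv, mul_one]
  have e6 : u₁ * (u₁ * u₂) = u₂ := by
    rw [← mul_assoc, huu, one_mul]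
  have hzW : z ∈ Subgroup.normalizer ((kleinOf u₁ u₂ huu hvv huv : Subgroup G) : Set G) := by
    refine mem_normalizer_of_forall _ _ fun w hw => ?_
    rcases mem_kleinOf.1 hw with h | h | h | h
    · rw [h]; simp only [mul_one, mul_inv_cancel]; exact one_mem _
    · rw [h, e4]; exact mem_kleinOf.2 (Or.inr (Or.inr (Or.inl rfl)))
    · rw [h, e2]; exact mem_kleinOf.2 (Or.inr (Or.inr (Or.inr rfl)))
    · have : z * (u₁ * u₂) * z⁻¹ = (z * u₁ * z⁻¹) * (z * u₂ * z⁻¹) := by group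
      rw [h, this, e4, e2, e5]; exact mem_kleinOf.2 (Or.inr (Or.inl rfl))
  have htW : t ∈ Subgroup.normalizer ((kleinOf u₁ u₂ huu hvv huv : Subgroup G) : Set G) := by
    refine mem_normalizer_of_forall _ _ fun w hw => ?_
    rcases mem_kleinOf.1 hw with h | h | h | h
    · rw [h]; simp only [mul_one, mul_inv_cancel]; exact one_mem _
    · rw [h, e1]; exact mem_kleinOf.2 (Or.inr (Or.inl rfl))
    · rw [h, e3]; exact mem_kleinOf.2 (Or.inr (Or.inr (Or.inr rfl)))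
    · have : t * (u₁ * u₂) * t⁻¹ = (t * u₁ * t⁻¹) * (t * u₂ * t⁻¹) := by group
      rw [h, this, e1, e3, e6]; exact mem_kleinOf.2 (Or.inr (Or.inr (Or.inl rfl)))
  have hzNC : z ∉ Subgroup.centralizer ((kleinOf u₁ u₂ huu hvv huv : Subgroup G) : Set G) := by
    intro h
    have h1 := Subgroup.mem_centralizer_iff.mp h u₁ (mem_kleinOf.2 (Or.inr (Or.inl rfl)))
    apply hne12
    rw [← e4, ← h1]
    group
  have htNC : t ∉ Subgroup.centralizer ((kleinOf u₁ u₂ huu hvv huv : Subgroup G) : Set G) := by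
    intro h
    have h1 := Subgroup.mem_centralizer_iff.mp h u₂ (mem_kleinOf.2 (Or.inr (Or.inr (Or.inl rfl))))
    apply hne1
    have h3 : t * u₂ * t⁻¹ = u₂ := by
      rw [← h1]; group
    rw [e3] at h3
    simpa using h3
  exact involves_S4_of_four hcard htW htb htNC (q := 3) (by norm_num) (by norm_num) hzW hza hzNC

/-- A `3`-power lemma: reduce to an element whose cube centralizes. -/
theorem lemZ1 {G : Type u} [Group G] (C : Subgroup G) (z : G) (a : ℕ) (hza : z ^ (3 ^ a) = 1) (hzC : z ∉ C) :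
    ∃ j : ℕ, z ^ (3 ^ j) ∉ C ∧ (z ^ (3 ^ j)) ^ 3 ∈ C := by
  classical
  have hex : ∃ j, z ^ (3 ^ j) ∈ C := ⟨a, by rw [hza]; exact one_mem _⟩
  have h0 : Nat.find hex ≠ 0 := by
    intro h
    have := Nat.find_spec hex
    rw [h] at this
    exact hzC (by simpa using this)
  obtain ⟨j, hj⟩ := Nat.exists_eq_succ_of_ne_zero h0
  refine ⟨j, Nat.find_min hex (by omega), ?_⟩
  have := Nat.find_spec hex
  rw [hj] at this
  rwa [← pow_mul, ← pow_succ]

/-- Fixed points of a `2`-element on an elementary abelian `2`-group. -/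
theorem fix_two {G : Type*} [Group G] (T : Subgroup G) (hab : ∀ x ∈ T, ∀ y ∈ T, x * y = y * x)
    (h2 : ∀ x ∈ T, x * x = 1) (hne : ∃ x ∈ T, x ≠ 1) :
    ∀ (b : ℕ) (s : G), s ∈ Subgroup.normalizer (T : Set G) → s ^ (2 ^ b) = 1 →
      ∃ y ∈ T, y ≠ 1 ∧ s * y * s⁻¹ = y := by
  intro b
  induction b with
  | zero =>
    intro s _ hs
    obtain ⟨x, hx, hx1⟩ := hne
    have : s = 1 := by simpa using hs
    exact ⟨x, hx, hx1, by simp [this]⟩
  | succ b ih =>
    intro s hsN hs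
    obtain ⟨y₀, hy₀, hy₀1, hy₀f⟩ := ih (s * s) (mul_mem hsN hsN) (by
      rw [← hs, ← pow_two, ← pow_mul, pow_succ' 2 b])
    by_cases h : s * y₀ * s⁻¹ = y₀
    · exact ⟨y₀, hy₀, hy₀1, h⟩
    · have hsy : s * y₀ * s⁻¹ ∈ T := (Subgroup.mem_normalizer_iff.mp hsN _).mp hy₀
      refine ⟨y₀ * (s * y₀ * s⁻¹), mul_mem hy₀ hsy, ?_, ?_⟩
      · intro h1
        apply h
        have h3 : y₀ * (y₀ * (s * y₀ * s⁻¹)) = y₀ := by rw [h1, mul_one]
        rwa [← mul_assoc, h2 _ hy₀, one_mul] at h3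
      · have h3 : s * (s * y₀ * s⁻¹) * s⁻¹ = y₀ := by
          have : s * (s * y₀ * s⁻¹) * s⁻¹ = s * s * y₀ * (s * s)⁻¹ := by group
          rw [this, hy₀f]
        calc s * (y₀ * (s * y₀ * s⁻¹)) * s⁻¹ = (s * y₀ * s⁻¹) * (s * (s * y₀ * s⁻¹) * s⁻¹) := by group
          _ = (s * y₀ * s⁻¹) * y₀ := by rw [h3]
          _ = y₀ * (s * y₀ * s⁻¹) := hab _ hsy _ hy₀

/-- The irreducible case of Lemma B. -/
theorem lemB_irred {G : Type u} [Group G] [Finite G] (T : Subgroup G) (z t : G) (a b : ℕ)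
    (hT2 : IsPGroup 2 T) (hzN : z ∈ Subgroup.normalizer (T : Set G)) (htN : t ∈ Subgroup.normalizer (T : Set G))
    (hza : z ^ (3 ^ a) = 1) (htb : t ^ (2 ^ b) = 1) (hinv : t * z * t⁻¹ = z⁻¹)
    (hzC : z ∉ Subgroup.centralizer (T : Set G))
    (hU : ∀ U : Subgroup G, U ≤ T → U ≠ ⊥ → T ≤ Subgroup.normalizer (U : Set G) →
      z ∈ Subgroup.normalizer (U : Set G) → t ∈ Subgroup.normalizer (U : Set G) → U = T) :
    Involves (Equiv.Perm (Fin 4)) G := by
  haveI : Fact (Nat.Prime 2) := ⟨Nat.prime_two⟩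
  have hTne : ∃ x ∈ T, x ≠ 1 := by
    by_contra h
    push_neg at h
    exact hzC (Subgroup.mem_centralizer_iff.mpr fun y hy => by rw [h y hy]; simp)
  obtain ⟨x₀, hx₀, hx₀1⟩ := hTne
  haveI hTnt : Nontrivial T := ⟨⟨⟨x₀, hx₀⟩, 1, fun h => hx₀1 (congrArg Subtype.val h)⟩⟩
  -- `T` is abelian
  have hab : ∀ x ∈ T, ∀ y ∈ T, x * y = y * x := by
    let Z : Subgroup G := T ⊓ Subgroup.centralizer (T : Set G)
    have hZN : ∀ w ∈ Subgroup.normalizer (T : Set G), w ∈ Subgroup.normalizer (Z : Set G) := by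
      intro w hw
      refine mem_normalizer_of_forall _ _ fun x hx => ⟨(Subgroup.mem_normalizer_iff.mp hw _).mp hx.1, ?_⟩
      refine Subgroup.mem_centralizer_iff.mpr fun y hy => ?_
      have h1 : w⁻¹ * y * w ∈ T := by
        have := (Subgroup.mem_normalizer_iff.mp hw (w⁻¹ * y * w)).mpr (by
          have h3 : w * (w⁻¹ * y * w) * w⁻¹ = y := by group
          rw [h3]; exact hy)
        exact this
      have h2 := Subgroup.mem_centralizer_iff.mp hx.2 _ h1
      have h3 : y = w * (w⁻¹ * y * w) * w⁻¹ := by group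
      calc y * (w * x * w⁻¹) = w * ((w⁻¹ * y * w) * x) * w⁻¹ := by group
        _ = w * (x * (w⁻¹ * y * w)) * w⁻¹ := by rw [h2]
        _ = w * x * w⁻¹ * y := by group
    have hZ1 : Z ≠ ⊥ := by
      haveI := hT2.center_nontrivial
      obtain ⟨c, hc⟩ := exists_ne (1 : Subgroup.center T)
      rw [Subgroup.ne_bot_iff_exists_ne_one]
      refine ⟨⟨((c : T) : G), (c : T).2, Subgroup.mem_centralizer_iff.mpr fun y hy => ?_⟩, fun h => hc ?_⟩
      · have := (Subgroup.mem_center_iff.mp c.2) ⟨y, hy⟩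
        exact congrArg Subtype.val this
      · have h1 : ((c : T) : G) = 1 := congrArg Subtype.val h
        exact Subtype.ext (Subtype.ext h1)
    have h := hU Z inf_le_left hZ1 (fun g hg => hZN g (Subgroup.le_normalizer hg)) (hZN z hzN) (hZN t htN)
    intro x hx y hy
    have hxZ : x ∈ Z := h ▸ hx
    exact (Subgroup.mem_centralizer_iff.mp hxZ.2 y hy).symm
  -- exponent two
  have h2 : ∀ x ∈ T, x * x = 1 := by
    let Ω : Subgroup G :=
      { carrier := {x | x ∈ T ∧ x * x = 1}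
        one_mem' := ⟨one_mem _, by simp⟩
        mul_mem' := by
          rintro x y ⟨hx, hx2⟩ ⟨hy, hy2⟩
          refine ⟨mul_mem hx hy, ?_⟩
          calc x * y * (x * y) = x * (y * x) * y := by group
            _ = x * (x * y) * y := by rw [hab y hy x hx]
            _ = (x * x) * (y * y) := by group
            _ = 1 := by rw [hx2, hy2, one_mul]
        inv_mem' := by
          rintro x ⟨hx, hx2⟩
          refine ⟨inv_mem hx, ?_⟩
          rw [← mul_inv_rev, hx2, inv_one] }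
    have hΩN : ∀ w ∈ Subgroup.normalizer (T : Set G), w ∈ Subgroup.normalizer (Ω : Set G) := by
      intro w hw
      refine mem_normalizer_of_forall _ _ fun x hx => ⟨(Subgroup.mem_normalizer_iff.mp hw _).mp hx.1, ?_⟩
      have : w * x * w⁻¹ * (w * x * w⁻¹) = w * (x * x) * w⁻¹ := by group
      rw [this, hx.2]
      simp
    have hΩ1 : Ω ≠ ⊥ := by
      obtain ⟨n, hn⟩ := IsPGroup.iff_card.mp hT2
      have hn0 : n ≠ 0 := by
        rintro rfl
        have := Finite.one_lt_card (α := T)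
        omega
      obtain ⟨c, hc⟩ : ∃ c : T, orderOf c = 2 := exists_prime_orderOf_dvd_card' 2 (by
        rw [hn]
        exact dvd_pow_self 2 hn0)
      rw [Subgroup.ne_bot_iff_exists_ne_one]
      have hc2 : c * c = 1 := by rw [← pow_two, ← hc, pow_orderOf_eq_one]
      refine ⟨⟨(c : G), c.2, congrArg Subtype.val hc2⟩, fun h => ?_⟩
      have h1 : (c : G) = 1 := congrArg Subtype.val h
      have h3 : c = 1 := Subtype.ext h1
      rw [h3, orderOf_one] at hc
      omega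
    have h := hU Ω (fun x hx => hx.1) hΩ1 (fun g hg => hΩN g (Subgroup.le_normalizer hg)) (hΩN z hzN) (hΩN t htN)
    intro x hx
    have hxZ : x ∈ Ω := h ▸ hx
    exact hxZ.2
  -- `t * t` centralizes
  have hcomm : t * t * z = z * (t * t) := by
    have h1 : t * z = z⁻¹ * t := by
      calc t * z = (t * z * t⁻¹) * t := by group
        _ = z⁻¹ * t := by rw [hinv]
    have h3 : t * z⁻¹ = z * t := by
      calc t * z⁻¹ = (t * z * t⁻¹)⁻¹ * t := by group
        _ = z * t := by rw [hinv, inv_inv]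
    calc t * t * z = t * (t * z) := by group
      _ = t * (z⁻¹ * t) := by rw [h1]
      _ = (t * z⁻¹) * t := by group
      _ = z * t * t := by rw [h3]
      _ = z * (t * t) := by group
  have htt : t * t ∈ Subgroup.centralizer (T : Set G) := by
    let F : Subgroup G :=
      { carrier := {x | x ∈ T ∧ t * t * x = x * (t * t)}
        one_mem' := ⟨one_mem _, by simp⟩
        mul_mem' := by
          rintro x y ⟨hx, hx2⟩ ⟨hy, hy2⟩
          refine ⟨mul_mem hx hy, ?_⟩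
          calc t * t * (x * y) = (t * t * x) * y := by group
            _ = x * (t * t * y) := by rw [hx2]; group
            _ = x * y * (t * t) := by rw [hy2]; group
        inv_mem' := by
          rintro x ⟨hx, hx2⟩
          refine ⟨inv_mem hx, ?_⟩
          calc t * t * x⁻¹ = x⁻¹ * (x * (t * t)) * x⁻¹ := by group
            _ = x⁻¹ * (t * t * x) * x⁻¹ := by rw [hx2]
            _ = x⁻¹ * (t * t) := by group }
    have hF1 : F ≠ ⊥ := by
      obtain ⟨y, hy, hy1, hyf⟩ := fix_two T hab h2 ⟨x₀, hx₀, hx₀1⟩ b (t * t) (mul_mem htN htN) (by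
        rw [← pow_two, ← pow_mul, mul_comm, pow_mul, htb, one_pow])
      rw [Subgroup.ne_bot_iff_exists_ne_one]
      refine ⟨⟨y, hy, ?_⟩, fun h => hy1 (congrArg Subtype.val h)⟩
      calc t * t * y = (t * t * y * (t * t)⁻¹) * (t * t) := by group
        _ = y * (t * t) := by rw [hyf]
    have hFT : T ≤ Subgroup.normalizer (F : Set G) := by
      intro g hg
      refine mem_normalizer_of_forall _ _ fun x hx => ?_
      have : g * x * g⁻¹ = x := by
        rw [hab g hg x hx.1]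
        group
      rw [this]
      exact hx
    have hFz : z ∈ Subgroup.normalizer (F : Set G) := by
      refine mem_normalizer_of_forall _ _ fun x hx => ⟨(Subgroup.mem_normalizer_iff.mp hzN _).mp hx.1, ?_⟩
      calc t * t * (z * x * z⁻¹) = (t * t * z) * x * z⁻¹ := by group
        _ = z * (t * t * x) * z⁻¹ := by rw [hcomm]; group
        _ = z * x * ((t * t) * z⁻¹) := by rw [hx.2]; group
        _ = z * x * (z⁻¹ * (z * (t * t)) * z⁻¹) := by group
        _ = z * x * (z⁻¹ * (t * t * z) * z⁻¹) := by rw [hcomm]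
        _ = z * x * z⁻¹ * (t * t) := by group
    have hFt : t ∈ Subgroup.normalizer (F : Set G) := by
      refine mem_normalizer_of_forall _ _ fun x hx => ⟨(Subgroup.mem_normalizer_iff.mp htN _).mp hx.1, ?_⟩
      calc t * t * (t * x * t⁻¹) = t * (t * t * x) * t⁻¹ := by group
        _ = t * (x * (t * t)) * t⁻¹ := by rw [hx.2]
        _ = t * x * t⁻¹ * (t * t) := by group
    have h := hU F (fun x hx => hx.1) hF1 hFT hFz hFt
    refine Subgroup.mem_centralizer_iff.mpr fun x hx => ?_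
    have hxF : x ∈ F := h ▸ hx
    exact hxF.2.symm
  obtain ⟨j, hj1, hj2⟩ := lemZ1 (Subgroup.centralizer (T : Set G)) z a hza hzC
  refine lemF T (z ^ (3 ^ j)) t a b hab h2 (pow_mem hzN _) htN hj2 hj1 ?_ htb htt ?_
  · rw [pow_right_comm, hza, one_pow]
  · rw [← conj_pow, hinv, inv_pow]

theorem comm_pow_aux {G : Type*} [Group G] {z d x : G} (hzd : z * d = d * z) (h : z * x * z⁻¹ = d * x) :
    ∀ k : ℕ, z ^ k * x * (z ^ k)⁻¹ = d ^ k * x := by
  intro k
  induction k with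
  | zero => simp
  | succ k ih =>
    have h1 : z ^ (k + 1) * x * (z ^ (k + 1))⁻¹ = z * (z ^ k * x * (z ^ k)⁻¹) * z⁻¹ := by
      rw [pow_succ']
      group
    rw [h1, ih]
    have h3 : z * d ^ k = d ^ k * z := ((Commute.pow_right (show Commute z d from hzd) k)).eq
    calc z * (d ^ k * x) * z⁻¹ = (z * d ^ k) * x * z⁻¹ := by group
      _ = d ^ k * (z * x * z⁻¹) := by rw [h3]; group
      _ = d ^ k * (d * x) := by rw [h]
      _ = d ^ (k + 1) * x := by rw [pow_succ]; group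

/-- The quotient step of Lemma B. -/
theorem quot_step {G : Type u} [Group G] [Finite G] (T U : Subgroup G) (z t : G) (a b : ℕ)
    (hUT : U ≤ T) (hU1 : U ≠ ⊥) (hTU : T ≤ Subgroup.normalizer (U : Set G))
    (hzU : z ∈ Subgroup.normalizer (U : Set G)) (htU : t ∈ Subgroup.normalizer (U : Set G))
    (hzCU : z ∈ Subgroup.centralizer (U : Set G))
    (hT2 : IsPGroup 2 T) (hzN : z ∈ Subgroup.normalizer (T : Set G)) (htN : t ∈ Subgroup.normalizer (T : Set G))
    (hza : z ^ (3 ^ a) = 1) (htb : t ^ (2 ^ b) = 1) (hinv : t * z * t⁻¹ = z⁻¹)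
    (hzC : z ∉ Subgroup.centralizer (T : Set G))
    (IH : ∀ m < Nat.card T, ∀ (G' : Type u) [Group G'] [Finite G'] (T' : Subgroup G') (z' t' : G') (a' b' : ℕ),
      Nat.card T' = m → IsPGroup 2 T' → z' ∈ Subgroup.normalizer (T' : Set G') → t' ∈ Subgroup.normalizer (T' : Set G') →
      z' ^ (3 ^ a') = 1 → t' ^ (2 ^ b') = 1 → t' * z' * t'⁻¹ = z'⁻¹ → z' ∉ Subgroup.centralizer (T' : Set G') →
      Involves (Equiv.Perm (Fin 4)) G') :
    Involves (Equiv.Perm (Fin 4)) G := by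
  let N : Subgroup G := Subgroup.normalizer (U : Set G)
  let Ū : Subgroup N := U.subgroupOf N
  haveI hŪ : Ū.Normal := Subgroup.normal_in_normalizer
  let f : N →* N ⧸ Ū := QuotientGroup.mk' Ū
  let T₀ : Subgroup N := T.subgroupOf N
  let z₀ : N := ⟨z, hzU⟩
  let t₀ : N := ⟨t, htU⟩
  have hnorm : ∀ w : N, (w : G) ∈ Subgroup.normalizer (T : Set G) → w ∈ Subgroup.normalizer (T₀ : Set N) := by
    intro w hw
    rw [Subgroup.mem_normalizer_iff]
    intro h
    have := Subgroup.mem_normalizer_iff.mp hw (h : G)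
    simpa [T₀, Subgroup.mem_subgroupOf] using this
  have hfN : ∀ w : N, (w : G) ∈ Subgroup.normalizer (T : Set G) →
      f w ∈ Subgroup.normalizer ((T₀.map f : Subgroup (N ⧸ Ū)) : Set (N ⧸ Ū)) :=
    fun w hw => Subgroup.le_normalizer_map f ⟨w, hnorm w hw, rfl⟩
  refine involves_trans (IH (Nat.card (T₀.map f)) ?_ (N ⧸ Ū) (T₀.map f) (f z₀) (f t₀) a b rfl ?_
    (hfN z₀ hzN) (hfN t₀ htN) ?_ ?_ ?_ ?_) (involves_of_surjective N f (QuotientGroup.mk'_surjective _))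
  · have hsurj : Function.Surjective (f.subgroupMap T₀) := f.subgroupMap_surjective T₀
    have hle : Nat.card T₀ = Nat.card T := Nat.card_congr (Subgroup.subgroupOfEquivOfLe hTU).toEquiv
    rw [← hle]
    by_contra hcon
    push_neg at hcon
    have hbij := hsurj.bijective_of_nat_card_le hcon
    obtain ⟨u, hu⟩ := (Subgroup.ne_bot_iff_exists_ne_one).mp hU1
    let u₀ : T₀ := ⟨⟨(u : G), hTU (hUT u.2)⟩, hUT u.2⟩
    have h1 : f.subgroupMap T₀ u₀ = f.subgroupMap T₀ 1 := by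
      rw [map_one]
      apply Subtype.ext
      show f (u₀ : N) = 1
      rw [QuotientGroup.mk'_apply, QuotientGroup.eq_one_iff]
      exact u.2
    have h3 := hbij.1 h1
    apply hu
    apply Subtype.ext
    have h4 := congrArg (fun q : T₀ => ((q : N) : G)) h3
    exact h4
  · exact (IsPGroup.comap_of_injective hT2 N.subtype N.subtype_injective).map f
  · rw [← map_pow, show z₀ ^ (3 ^ a) = 1 from Subtype.ext hza, map_one]
  · rw [← map_pow, show t₀ ^ (2 ^ b) = 1 from Subtype.ext htb, map_one]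
  · rw [← map_inv, ← map_inv, ← map_mul, ← map_mul]
    congr 1
    exact Subtype.ext hinv
  · intro hcent
    apply hzC
    refine Subgroup.mem_centralizer_iff.mpr fun x hx => ?_
    let x₀ : N := ⟨x, hTU hx⟩
    have h1 : f x₀ * f z₀ = f z₀ * f x₀ := Subgroup.mem_centralizer_iff.mp hcent (f x₀) ⟨x₀, hx, rfl⟩
    have h2 : f (z₀ * x₀ * z₀⁻¹ * x₀⁻¹) = 1 := by
      rw [map_mul, map_mul, map_mul, map_inv, map_inv, ← h1]
      group
    have hd : z * x * z⁻¹ * x⁻¹ ∈ U := by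
      rw [QuotientGroup.mk'_apply, QuotientGroup.eq_one_iff] at h2
      exact h2
    obtain ⟨d, hd'⟩ : ∃ d, d = z * x * z⁻¹ * x⁻¹ := ⟨_, rfl⟩
    rw [← hd'] at hd
    have hzd : z * d = d * z := (Subgroup.mem_centralizer_iff.mp hzCU d hd).symm
    have h3 : z * x * z⁻¹ = d * x := by rw [hd']; group
    have h4 := comm_pow_aux hzd h3 (3 ^ a)
    rw [hza] at h4
    have h5 : d ^ 3 ^ a = 1 := by simpa using h4.symm
    obtain ⟨m, hm⟩ := hT2 ⟨d, hUT hd⟩
    have hm' : d ^ 2 ^ m = 1 := congrArg Subtype.val hm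
    have h6 := pow_gcd_eq_one.mpr ⟨h5, hm'⟩
    have hg : Nat.gcd (3 ^ a) (2 ^ m) = 1 := Nat.Coprime.pow _ _ (by norm_num)
    rw [hg, pow_one] at h6
    rw [h6, one_mul] at h3
    calc x * z = (z * x * z⁻¹) * z := by rw [h3]
      _ = z * x := by group

/-- **Lemma B**. -/
theorem lemB : ∀ (n : ℕ) (G : Type u) [Group G] [Finite G] (T : Subgroup G) (z t : G) (a b : ℕ),
    Nat.card T = n → IsPGroup 2 T → z ∈ Subgroup.normalizer (T : Set G) → t ∈ Subgroup.normalizer (T : Set G) →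
    z ^ (3 ^ a) = 1 → t ^ (2 ^ b) = 1 → t * z * t⁻¹ = z⁻¹ → z ∉ Subgroup.centralizer (T : Set G) →
    Involves (Equiv.Perm (Fin 4)) G := by
  intro n
  induction n using Nat.strong_induction_on with
  | _ n IH =>
  intro G _ _ T z t a b hn hT2 hzN htN hza htb hinv hzC
  by_cases hex : ∀ U : Subgroup G, U ≤ T → U ≠ ⊥ → T ≤ Subgroup.normalizer (U : Set G) →
      z ∈ Subgroup.normalizer (U : Set G) → t ∈ Subgroup.normalizer (U : Set G) → U = T
  · exact lemB_irred T z t a b hT2 hzN htN hza htb hinv hzC hex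
  push_neg at hex
  obtain ⟨U, hUT, hU1, hTU, hzU, htU, hne⟩ := hex
  have hcard : Nat.card U < n := by
    rw [← hn]
    refine lt_of_le_of_ne (Subgroup.card_le_of_le hUT) fun h => hne ?_
    exact Subgroup.eq_of_le_of_card_ge hUT h.ge
  by_cases hzCU : z ∈ Subgroup.centralizer (U : Set G)
  · exact quot_step T U z t a b hUT hU1 hTU hzU htU hzCU hT2 hzN htN hza htb hinv hzC
      (fun m hm G' _ _ T' z' t' a' b' h1 h2 h3 h4 h5 h6 h7 h8 =>
        IH m (hn ▸ hm) G' T' z' t' a' b' h1 h2 h3 h4 h5 h6 h7 h8)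
  · exact IH _ hcard G U z t a b rfl (hT2.to_le hUT) hzU htU hza htb hinv hzCU

/-- Backward direction. -/
theorem back {G : Type u} [Group G] [Finite G] (T : Subgroup G) (hT2 : IsPGroup 2 T)
    (h : Involves (Equiv.Perm (Fin 3)) (↥(Subgroup.normalizer (T : Set G)) ⧸
      (Subgroup.centralizer (T : Set G)).subgroupOf (Subgroup.normalizer (T : Set G)))) :
    Involves (Equiv.Perm (Fin 4)) G := by
  obtain ⟨K, φ, hφ⟩ := involves_exists_surjective h
  let π := QuotientGroup.mk' ((Subgroup.centralizer (T : Set G)).subgroupOf (Subgroup.normalizer (T : Set G)))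
  let L : Subgroup (Subgroup.normalizer (T : Set G)) := K.comap π
  let φ' : L →* Equiv.Perm (Fin 3) := φ.comp ((π.comp L.subtype).codRestrict K (fun u => u.2))
  have hφ' : Function.Surjective φ' := by
    intro σ
    obtain ⟨k, hk⟩ := hφ σ
    obtain ⟨g, hg⟩ := QuotientGroup.mk'_surjective ((Subgroup.centralizer (T : Set G)).subgroupOf (Subgroup.normalizer (T : Set G))) (k : _)
    refine ⟨⟨g, ?_⟩, ?_⟩
    · show π g ∈ K
      rw [show π g = k from hg]
      exact k.2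
    · rw [← hk]
      show φ _ = φ k
      congr 1
      exact Subtype.ext hg
  obtain ⟨z, t, a, b, h1, h2, h3, h4⟩ := lemE _ L φ' rfl hφ'
  refine lemB _ G T (z : Subgroup.normalizer (T : Set G)) (t : Subgroup.normalizer (T : Set G)) a b rfl hT2
    ((z : Subgroup.normalizer (T : Set G))).2 ((t : Subgroup.normalizer (T : Set G))).2 ?_ ?_ ?_ ?_
  · have := congrArg (fun x : L => ((x : Subgroup.normalizer (T : Set G)) : G)) h1
    simpa using this
  · have := congrArg (fun x : L => ((x : Subgroup.normalizer (T : Set G)) : G)) h2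
    simpa using this
  · have := congrArg (fun x : L => ((x : Subgroup.normalizer (T : Set G)) : G)) h3
    simpa using this
  · intro hz
    apply h4
    have h5 : π (z : Subgroup.normalizer (T : Set G)) = 1 := (QuotientGroup.eq_one_iff _).mpr hz
    show φ _ = 1
    have h6 : ((π.comp L.subtype).codRestrict K (fun u => u.2)) z = 1 := Subtype.ext h5
    rw [h6, map_one]

/-! ### The forward direction -/

/-- double transposition -/
def u4 : Equiv.Perm (Fin 4) := Equiv.swap 0 1 * Equiv.swap 2 3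
/-- double transposition -/
def v4 : Equiv.Perm (Fin 4) := Equiv.swap 0 2 * Equiv.swap 1 3

theorem u4_sq : u4 * u4 = 1 := by decide
theorem v4_sq : v4 * v4 = 1 := by decide
theorem uv4 : u4 * v4 = v4 * u4 := by decide
theorem u4_ne : u4 ≠ 1 := by decide
theorem v4_ne : v4 ≠ 1 := by decide
theorem u4_ne_v4 : u4 ≠ v4 := by decide

/-- The Klein normal subgroup of `S₄`. -/
def V4 : Subgroup (Equiv.Perm (Fin 4)) := kleinOf u4 v4 u4_sq v4_sq uv4

theorem conj_u4 : ∀ g : Equiv.Perm (Fin 4), g * u4 * g⁻¹ = 1 ∨ g * u4 * g⁻¹ = u4 ∨ g * u4 * g⁻¹ = v4 ∨ g * u4 * g⁻¹ = u4 * v4 := by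
  decide

theorem conj_v4 : ∀ g : Equiv.Perm (Fin 4), g * v4 * g⁻¹ = 1 ∨ g * v4 * g⁻¹ = u4 ∨ g * v4 * g⁻¹ = v4 ∨ g * v4 * g⁻¹ = u4 * v4 := by
  decide

theorem centr4 : ∀ g : Equiv.Perm (Fin 4), g * u4 = u4 * g → g * v4 = v4 * g → g = 1 ∨ g = u4 ∨ g = v4 ∨ g = u4 * v4 := by
  decide

theorem card_perm4 : Nat.card (Equiv.Perm (Fin 4)) = 24 := by
  simp [Nat.card_eq_fintype_card, Fintype.card_perm, Nat.factorial]

theorem card_perm3 : Nat.card (Equiv.Perm (Fin 3)) = 6 := by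
  simp [Nat.card_eq_fintype_card, Fintype.card_perm, Nat.factorial]

instance V4_normal : V4.Normal := by
  refine ⟨fun w hw g => ?_⟩
  have hu : g * u4 * g⁻¹ ∈ V4 := conj_u4 g
  have hv : g * v4 * g⁻¹ ∈ V4 := conj_v4 g
  rcases mem_kleinOf.1 hw with h | h | h | h
  · rw [h]; simp only [mul_one, mul_inv_cancel]; exact one_mem _
  · rw [h]; exact hu
  · rw [h]; exact hv
  · have : g * (u4 * v4) * g⁻¹ = (g * u4 * g⁻¹) * (g * v4 * g⁻¹) := by group
    rw [h, this]; exact mul_mem hu hv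

theorem V4_card : Nat.card V4 = 4 := card_kleinOf u4_ne v4_ne u4_ne_v4

theorem V4_isP : IsPGroup 2 V4 := IsPGroup.of_card (n := 2) (by rw [V4_card]; norm_num)

/-- The map `S₄ → S₃`. -/
theorem exists_psi : ∃ ψ : Equiv.Perm (Fin 4) →* Equiv.Perm (Fin 3), Function.Surjective ψ ∧
    (∀ g ∈ V4, ψ g = 1) ∧ ∀ g, g * u4 = u4 * g → g * v4 = v4 * g → ψ g = 1 := by
  classical
  have hc : Nat.card {w : V4 // w ≠ 1} = 3 := by
    have h1 : Nat.card {w : V4 // w ≠ 1} = Nat.card V4 - 1 := by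
      haveI : Fintype V4 := Fintype.ofFinite _
      rw [Nat.card_eq_fintype_card, Nat.card_eq_fintype_card, Fintype.card_subtype_compl]
      simp
    rw [h1, V4_card]
  let e := Finite.equivFinOfCardEq hc
  let ψ : Equiv.Perm (Fin 4) →* Equiv.Perm (Fin 3) := (e.permCongrHom.toMonoidHom).comp (nonOnePerm V4)
  have hψ1 : ∀ g, ψ g = 1 → nonOnePerm V4 g = 1 := by
    intro g hg
    apply e.permCongrHom.injective
    rw [map_one]
    exact hg
  have hψ2 : ∀ g, nonOnePerm V4 g = 1 → ψ g = 1 := by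
    intro g hg
    show e.permCongrHom (nonOnePerm V4 g) = 1
    rw [hg, map_one]
  have hcen : ∀ g, g * u4 = u4 * g → g * v4 = v4 * g → nonOnePerm V4 g = 1 := by
    intro g h1 h2
    have hcomm : ∀ w ∈ V4, g * w * g⁻¹ = w := by
      intro w hw
      have h3 : g * u4 * g⁻¹ = u4 := by rw [h1]; group
      have h4 : g * v4 * g⁻¹ = v4 := by rw [h2]; group
      rcases mem_kleinOf.1 hw with h | h | h | h
      · rw [h]; simp
      · rw [h, h3]
      · rw [h, h4]
      · have : g * (u4 * v4) * g⁻¹ = (g * u4 * g⁻¹) * (g * v4 * g⁻¹) := by group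
        rw [h, this, h3, h4]
    apply Equiv.ext
    intro w
    apply Subtype.ext
    apply Subtype.ext
    exact hcomm _ ((w : V4)).2
  have hker : ψ.ker ≤ V4 := by
    intro g hg
    have h1 := mem_centralizer_of_nonOnePerm (hψ1 g hg)
    have h2 := Subgroup.mem_centralizer_iff.mp h1 u4 (mem_kleinOf.2 (Or.inr (Or.inl rfl)))
    have h3 := Subgroup.mem_centralizer_iff.mp h1 v4 (mem_kleinOf.2 (Or.inr (Or.inr (Or.inl rfl))))
    exact centr4 g h2.symm h3.symm
  have hV4 : ∀ g ∈ V4, ψ g = 1 := by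
    intro g hg
    apply hψ2
    apply hcen
    · rcases mem_kleinOf.1 hg with h | h | h | h <;> rw [h] <;> decide
    · rcases mem_kleinOf.1 hg with h | h | h | h <;> rw [h] <;> decide
  refine ⟨ψ, ?_, hV4, fun g h1 h2 => hψ2 g (hcen g h1 h2)⟩
  have h1 := Subgroup.card_mul_index ψ.ker
  rw [Subgroup.index_ker, card_perm4] at h1
  have h2 : Nat.card ψ.ker ≤ 4 := by
    calc Nat.card ψ.ker ≤ Nat.card V4 := Subgroup.card_le_of_le hker
      _ = 4 := V4_card
  have h3 : Nat.card ψ.range ≤ 6 := by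
    rw [← card_perm3]
    exact Subgroup.card_le_card_group _
  have h4 : Nat.card ψ.range = 6 := by
    apply le_antisymm h3
    by_contra hlt
    push_neg at hlt
    have : Nat.card ψ.ker * Nat.card ψ.range ≤ 4 * 5 := Nat.mul_le_mul h2 (by omega)
    omega
  apply MonoidHom.range_eq_top.mp
  apply Subgroup.eq_top_of_card_eq
  rw [h4, card_perm3]

/-- An `Involves` from a pair of homomorphisms. -/
theorem involves_of_hom_ker {M Q H : Type*} [Group M] [Group Q] [Group H] (π : M →* Q) (Φ : M →* H)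
    (hΦ : Function.Surjective Φ) (hker : π.ker ≤ Φ.ker) : Involves H Q := by
  have hs : Function.Surjective π.rangeRestrict := π.rangeRestrict_surjective
  have hk : π.rangeRestrict.ker ≤ Φ.ker := by
    rw [MonoidHom.ker_rangeRestrict]
    exact hker
  let Φ' : π.range →* H := MonoidHom.liftOfSurjective π.rangeRestrict hs ⟨Φ, hk⟩
  refine involves_of_surjective π.range Φ' ?_
  intro h
  obtain ⟨m, rfl⟩ := hΦ h
  refine ⟨π.rangeRestrict m, ?_⟩
  exact MonoidHom.liftOfRightInverse_comp_apply _ _ _ _ m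

/-- Forward direction. -/
theorem forth {G : Type u} [Group G] [Finite G] (h : Involves (Equiv.Perm (Fin 4)) G) :
    ∃ T : Subgroup G, IsPGroup 2 ↥T ∧ Involves (Equiv.Perm (Fin 3)) (↥(Subgroup.normalizer (T : Set G)) ⧸
      (Subgroup.centralizer (T : Set G)).subgroupOf (Subgroup.normalizer (T : Set G))) := by
  classical
  obtain ⟨K, φ, hφ⟩ := involves_exists_surjective h
  haveI : Fact (Nat.Prime 2) := ⟨Nat.prime_two⟩
  obtain ⟨ψ, hψs, hψV, hψC⟩ := exists_psi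
  let W : Subgroup K := V4.comap φ
  haveI hW : W.Normal := Subgroup.Normal.comap V4_normal φ
  obtain ⟨T₀⟩ : Nonempty (Sylow 2 W) := inferInstance
  let T' : Subgroup K := (T₀ : Subgroup W).map W.subtype
  let T : Subgroup G := T'.map K.subtype
  have hT2 : IsPGroup 2 T := (T₀.2.map W.subtype).map K.subtype
  refine ⟨T, hT2, ?_⟩
  -- `φ T' = V4`
  let φW : W →* V4 := (φ.comp W.subtype).codRestrict V4 (fun x => x.2)
  have hφW : Function.Surjective φW := by
    rintro ⟨w, hw⟩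
    obtain ⟨k, rfl⟩ := hφ w
    exact ⟨⟨k, hw⟩, Subtype.ext rfl⟩
  have hT'V : ∀ w ∈ V4, ∃ y ∈ T', φ y = w := by
    intro w hw
    let Q : Sylow 2 V4 := T₀.mapSurjective hφW
    have hQ : (⊤ : Subgroup V4) = (Q : Subgroup V4) :=
      Q.is_maximal' (fun x => by
        obtain ⟨k, hk⟩ := V4_isP (x : V4)
        exact ⟨k, Subtype.ext hk⟩) le_top
    have hmem : (⟨w, hw⟩ : V4) ∈ (Q : Subgroup V4) := by
      rw [← hQ]; trivial
    obtain ⟨x, hx, hxw⟩ := hmem
    exact ⟨(x : K), ⟨x, hx, rfl⟩, congrArg Subtype.val hxw⟩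
  -- Frattini
  let M : Subgroup K := Subgroup.normalizer (T' : Set K)
  have hFrat : M ⊔ W = ⊤ := Sylow.normalizer_sup_eq_top (p := 2) (N := W) T₀
  let Φ : M →* Equiv.Perm (Fin 3) := ψ.comp (φ.comp M.subtype)
  have hΦ : Function.Surjective Φ := by
    intro σ
    obtain ⟨w, rfl⟩ := hψs σ
    obtain ⟨k, rfl⟩ := hφ w
    have hg : k ∈ M ⊔ W := by rw [hFrat]; trivial
    rw [← SetLike.mem_coe, Subgroup.mul_normal, Set.mem_mul] at hg
    obtain ⟨m, hm, n, hn, rfl⟩ := hg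
    refine ⟨⟨m, hm⟩, ?_⟩
    show ψ (φ m) = ψ (φ (m * n))
    rw [map_mul φ, map_mul ψ, hψV _ hn, mul_one]
  -- the section
  have hι : ∀ m : M, ((m : K) : G) ∈ Subgroup.normalizer (T : Set G) := fun m =>
    Subgroup.le_normalizer_map K.subtype ⟨(m : K), m.2, rfl⟩
  let ι : M →* Subgroup.normalizer (T : Set G) :=
    (K.subtype.comp M.subtype).codRestrict _ hι
  let π := (QuotientGroup.mk' ((Subgroup.centralizer (T : Set G)).subgroupOf (Subgroup.normalizer (T : Set G)))).comp ι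
  refine involves_of_hom_ker π Φ hΦ ?_
  intro m hm
  have hm1 : ι m ∈ (Subgroup.centralizer (T : Set G)).subgroupOf (Subgroup.normalizer (T : Set G)) :=
    (QuotientGroup.eq_one_iff _).mp hm
  have hm2 : ((m : K) : G) ∈ Subgroup.centralizer (T : Set G) := hm1
  have hcomm : ∀ w ∈ V4, φ m * w = w * φ m := by
    intro w hw
    obtain ⟨y, hy, rfl⟩ := hT'V w hw
    have h1 : ((y : K) : G) * ((m : K) : G) = ((m : K) : G) * (y : K) :=
      Subgroup.mem_centralizer_iff.mp hm2 _ ⟨y, hy, rfl⟩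
    have h2 : y * (m : K) = (m : K) * y := Subtype.ext h1
    rw [← map_mul, ← map_mul, h2]
  show ψ (φ m) = 1
  exact hψC _ (hcomm _ (mem_kleinOf.2 (Or.inr (Or.inl rfl)))) (hcomm _ (mem_kleinOf.2 (Or.inr (Or.inr (Or.inl rfl)))))

/-- **`S₄` is involved iff `S₃` is involved in `N(T)/C(T)` for a `2`-subgroup `T`.** -/
theorem main {G : Type u} [Group G] [Finite G] : Involves (Equiv.Perm (Fin 4)) G ↔
    ∃ T : Subgroup G, IsPGroup 2 ↥T ∧ Involves (Equiv.Perm (Fin 3)) (↥(Subgroup.normalizer (T : Set G)) ⧸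
      (Subgroup.centralizer (T : Set G)).subgroupOf (Subgroup.normalizer (T : Set G))) :=
  ⟨forth, fun ⟨T, hT, h⟩ => back T hT h⟩

end Cfsg.Agent.Lib.Cl.S4Inv
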