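import Cfsg.Agent.Lib.SmallSimple.BlockApply
import Mathlib

/-! # Simple groups of small order: orders settled by Sylow counting and the two-character relation -/

set_option autoImplicit false
set_option linter.unusedSectionVars false
set_option linter.unusedVariables false

namespace Cfsg.Agent.Lib.Cl.SO

open Cfsg Subgroup

universe u

variable {G : Type u} [Group G] [Finite G] [IsSimpleGroup G]

/-- The data of a Sylow subgroup of prime order. -/
theorem prime_data (p m : ℕ) [hpf : Fact p.Prime] (hm : ¬ p ∣ m) (h : Nat.card G = p ^ 1 * m)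
    (hnc : ¬ IsMulCommutative G) :
    Nat.card (Sylow p G) ∣ m ∧ Nat.card (Sylow p G) % p = 1 ∧ Nat.card (Sylow p G) ≠ 1 ∧
      2 * Nat.card G ∣ (Nat.card (Sylow p G)).factorial ∧
    ∃ (P : Sylow p G) (x : G), orderOf x = p ∧ zpowers x = (P : Subgroup G) ∧
      ∃ e k : ℕ, e ∣ p - 1 ∧ e ≠ 1 ∧ Nat.card (centralizer ({x} : Set G)) = p * k ∧ 0 < k ∧
        Nat.card (normalizer ((zpowers x : Subgroup G) : Set G)) = e * Nat.card (centralizer ({x} : Set G)) ∧
        Nat.card (Sylow p G) * (e * (p * k)) = Nat.card G := by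
  obtain ⟨h1, h2, h3, h4, h5⟩ := Lib.SmallSimple.sylow_facts (G := G) hnc p 1 m h hm one_ne_zero
  refine ⟨h1, h2, h3, h4, ?_⟩
  obtain ⟨P⟩ : Nonempty (Sylow p G) := inferInstance
  obtain ⟨hP, hN⟩ := h5 P
  rw [pow_one] at hP
  obtain ⟨x, hx, hz⟩ := Lib.SmallSimple.BA.exists_gen P hP
  obtain ⟨e, he, he1, hNe⟩ := Lib.SmallSimple.BA.norm_data hnc P hP hx hz
  rw [← hz] at hN
  have hxC : x ∈ centralizer ({x} : Set G) := by
    rw [Subgroup.mem_centralizer_singleton_iff]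
  have hpd : p ∣ Nat.card (centralizer ({x} : Set G)) := by
    have := orderOf_dvd_natCard (⟨x, hxC⟩ : centralizer ({x} : Set G))
    rwa [Subgroup.orderOf_mk, hx] at this
  obtain ⟨k, hk⟩ := hpd
  have hk0 : 0 < k := by
    rcases Nat.eq_zero_or_pos k with h0 | h0
    · rw [h0, mul_zero] at hk
      have : 0 < Nat.card (centralizer ({x} : Set G)) := Nat.card_pos
      omega
    · exact h0
  refine ⟨P, x, hx, hz, e, k, he, he1, hk, hk0, hNe, ?_⟩
  rw [hNe, hk] at hN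
  exact hN

/-- The two-character argument. -/
theorem two_char (p : ℕ) [hpf : Fact p.Prime] (hp5 : 5 ≤ p) (hnc : ¬ IsMulCommutative G) {x : G} (hx : orderOf x = p)
    (hsyl : ¬ p ^ 2 ∣ Nat.card G)
    (hN : Nat.card (normalizer ((zpowers x : Subgroup G) : Set G)) = 2 * Nat.card (centralizer ({x} : Set G)))
    (hinv : 2 ∣ Nat.card (centralizer ({x} : Set G)))
    (key : ∀ d, d ≤ Nat.card G → d ∣ Nat.card G → 2 * p ≤ d →
      (d % p = 1 → ¬ (d + 1) ∣ Nat.card G) ∧ (d % p = p - 1 → ¬ (d - 1) ∣ Nat.card G)) : False := by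
  obtain ⟨d, d₀, σ, hσ, hd, hd₀, hd1, hd₀1, hc1, hc2, hrel⟩ :=
    Lib.SmallSimple.BA.two_wrapper hnc hx hsyl hN hp5 hinv
  have hc1' : (d : ℤ) % p = σ % p := by exact_mod_cast hc1
  have hpos : 0 < Nat.card G := Nat.card_pos
  have hk := key d (Nat.le_of_dvd hpos hd) hd hd1
  have hp0 : (0 : ℤ) < p := by exact_mod_cast (by omega : 0 < p)
  rcases hσ with rfl | rfl
  · have h6 : d₀ = d + 1 := by omega
    subst h6
    refine hk.1 ?_ hd₀
    have h1 : (1 : ℤ) % p = 1 := Int.emod_eq_of_lt (by norm_num) (by exact_mod_cast (by omega : 1 < p))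
    rw [h1] at hc1'
    omega
  · have h6 : d₀ = d - 1 := by omega
    subst h6
    refine hk.2 ?_ hd₀
    have h1 : (-1 : ℤ) % p = p - 1 := by
      have : (-1 : ℤ) = (p - 1) + p * (-1) := by ring
      rw [this, Int.add_mul_emod_self_left, Int.emod_eq_of_lt (by omega) (by omega)]
    rw [h1] at hc1'
    omega

theorem no588 (hnc : ¬ IsMulCommutative G) (h : Nat.card G = 588) : False := by
  haveI : Fact (Nat.Prime 7) := ⟨by norm_num⟩
  obtain ⟨h1, h2, h3, h4, h5⟩ := Lib.SmallSimple.sylow_facts (G := G) hnc 7 2 12 (by rw [h]; norm_num) (by norm_num) (by norm_num)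
  have : ∀ n, n ≤ 12 → n ∣ 12 → n % 7 = 1 → n = 1 := by decide +kernel
  exact h3 (this _ (Nat.le_of_dvd (by norm_num) h1) h1 h2)

theorem no700 (hnc : ¬ IsMulCommutative G) (h : Nat.card G = 700) : False := by
  haveI : Fact (Nat.Prime 5) := ⟨by norm_num⟩
  obtain ⟨h1, h2, h3, h4, h5⟩ := Lib.SmallSimple.sylow_facts (G := G) hnc 5 2 28 (by rw [h]; norm_num) (by norm_num) (by norm_num)
  have : ∀ n, n ≤ 28 → n ∣ 28 → n % 5 = 1 → n = 1 := by decide +kernel
  exact h3 (this _ (Nat.le_of_dvd (by norm_num) h1) h1 h2)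

theorem no980 (hnc : ¬ IsMulCommutative G) (h : Nat.card G = 980) : False := by
  haveI : Fact (Nat.Prime 7) := ⟨by norm_num⟩
  obtain ⟨h1, h2, h3, h4, h5⟩ := Lib.SmallSimple.sylow_facts (G := G) hnc 7 2 20 (by rw [h]; norm_num) (by norm_num) (by norm_num)
  have : ∀ n, n ≤ 20 → n ∣ 20 → n % 7 = 1 → n = 1 := by decide +kernel
  exact h3 (this _ (Nat.le_of_dvd (by norm_num) h1) h1 h2)

theorem no300 (hnc : ¬ IsMulCommutative G) (h : Nat.card G = 300) : False := by
  haveI : Fact (Nat.Prime 5) := ⟨by norm_num⟩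
  obtain ⟨h1, h2, h3, h4, h5⟩ := Lib.SmallSimple.sylow_facts (G := G) hnc 5 2 12 (by rw [h]; norm_num) (by norm_num) (by norm_num)
  have : ∀ n, n ≤ 12 → n ∣ 12 → n % 5 = 1 → n ≠ 1 → n = 6 := by decide +kernel
  have h6 := this _ (Nat.le_of_dvd (by norm_num) h1) h1 h2 h3
  rw [h6, h] at h4
  revert h4
  decide +kernel

theorem no600 (hnc : ¬ IsMulCommutative G) (h : Nat.card G = 600) : False := by
  haveI : Fact (Nat.Prime 5) := ⟨by norm_num⟩
  obtain ⟨h1, h2, h3, h4, h5⟩ := Lib.SmallSimple.sylow_facts (G := G) hnc 5 2 24 (by rw [h]; norm_num) (by norm_num) (by norm_num)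
  have : ∀ n, n ≤ 24 → n ∣ 24 → n % 5 = 1 → n ≠ 1 → n = 6 := by decide +kernel
  have h6 := this _ (Nat.le_of_dvd (by norm_num) h1) h1 h2 h3
  rw [h6, h] at h4
  revert h4
  decide +kernel

theorem no900 (hnc : ¬ IsMulCommutative G) (h : Nat.card G = 900) : False := by
  haveI : Fact (Nat.Prime 5) := ⟨by norm_num⟩
  obtain ⟨h1, h2, h3, h4, h5⟩ := Lib.SmallSimple.sylow_facts (G := G) hnc 5 2 36 (by rw [h]; norm_num) (by norm_num) (by norm_num)
  have : ∀ n, n ≤ 36 → n ∣ 36 → n % 5 = 1 → n ≠ 1 → n = 6 ∨ n = 36 := by decide +kernel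
  rcases this _ (Nat.le_of_dvd (by norm_num) h1) h1 h2 h3 with h6 | h6
  · rw [h6, h] at h4
    revert h4
    decide +kernel
  · obtain ⟨P⟩ : Nonempty (Sylow 5 G) := inferInstance
    obtain ⟨hP, hN⟩ := h5 P
    rw [h6, h] at hN
    have hNc : Nat.card (normalizer ((P : Subgroup G) : Set G)) = 25 := by omega
    have hle : (P : Subgroup G) ≤ normalizer ((P : Subgroup G) : Set G) := Subgroup.le_normalizer
    have heq : (P : Subgroup G) = normalizer ((P : Subgroup G) : Set G) :=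
      Subgroup.eq_of_le_of_card_ge hle (by rw [hNc, hP]; norm_num)
    have hcomm : ∀ a ∈ (P : Subgroup G), ∀ b ∈ (P : Subgroup G), a * b = b * a := by
      have hcp : Nat.card (P : Subgroup G) = 5 ^ 2 := hP
      have h0 := IsPGroup.commutative_of_card_eq_prime_sq hcp
      intro a ha b hb
      exact congrArg Subtype.val (h0 ⟨a, ha⟩ ⟨b, hb⟩)
    refine Lib.SmallSimple.false_of_normalizer_le_centralizer hnc (p := 5) (by rw [h]; norm_num) P ?_
    rw [← heq]
    intro a ha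
    rw [Subgroup.mem_centralizer_iff]
    intro b hb
    exact hcomm b hb a ha

theorem no252 (hnc : ¬ IsMulCommutative G) (h : Nat.card G = 252) : False := by
  haveI : Fact (Nat.Prime 7) := ⟨by norm_num⟩
  obtain ⟨h1, h2, h3, h4, P, x, hx, hz, e, k, he, he1, hk, hk0, hNe, hn⟩ := prime_data (G := G) 7 36 (by norm_num) (by rw [h]; norm_num) hnc
  have : ∀ n, n ≤ 36 → n ∣ 36 → n % 7 = 1 → n ≠ 1 → n = 36 := by decide +kernel
  have h6 := this _ (Nat.le_of_dvd (by norm_num) h1) h1 h2 h3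
  rw [h6, h] at hn
  have : e = 1 := by nlinarith
  exact he1 this

theorem no540 (hnc : ¬ IsMulCommutative G) (h : Nat.card G = 540) : False := by
  haveI : Fact (Nat.Prime 5) := ⟨by norm_num⟩
  obtain ⟨h1, h2, h3, h4, P, x, hx, hz, e, k, he, he1, hk, hk0, hNe, hn⟩ := prime_data (G := G) 5 108 (by norm_num) (by rw [h]; norm_num) hnc
  have : ∀ n, n ≤ 108 → n ∣ 108 → n % 5 = 1 → n ≠ 1 → n = 6 ∨ n = 36 := by decide +kernel
  have he4 : e ∣ 4 := he
  have hee : e = 2 ∨ e = 4 := by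
    have : ∀ e, e ≤ 4 → e ∣ 4 → e ≠ 1 → e = 2 ∨ e = 4 := by decide
    exact this e (Nat.le_of_dvd (by norm_num) he4) he4 he1
  rcases this _ (Nat.le_of_dvd (by norm_num) h1) h1 h2 h3 with h6 | h6
  · rw [h6, h] at h4
    revert h4
    decide +kernel
  · rw [h6, h] at hn
    rcases hee with rfl | rfl <;> omega

theorem no180 (hnc : ¬ IsMulCommutative G) (h : Nat.card G = 180) : False := by
  haveI : Fact (Nat.Prime 5) := ⟨by norm_num⟩
  obtain ⟨h1, h2, h3, h4, P, x, hx, hz, e, k, he, he1, hk, hk0, hNe, hn⟩ := prime_data (G := G) 5 36 (by norm_num) (by rw [h]; norm_num) hnc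
  have : ∀ n, n ≤ 36 → n ∣ 36 → n % 5 = 1 → n ≠ 1 → n = 6 ∨ n = 36 := by decide +kernel
  have he4 : e ∣ 4 := he
  have hee : e = 2 ∨ e = 4 := by
    have : ∀ e, e ≤ 4 → e ∣ 4 → e ≠ 1 → e = 2 ∨ e = 4 := by decide
    exact this e (Nat.le_of_dvd (by norm_num) he4) he4 he1
  have hsyl : ¬ 5 ^ 2 ∣ Nat.card G := by rw [h]; norm_num
  rcases this _ (Nat.le_of_dvd (by norm_num) h1) h1 h2 h3 with h6 | h6
  · have hC := Lib.SmallSimple.BA.card_centralizer_of_succ (p := 5) (by rw [h6]) P hx hz hsyl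
    have hk1 : k = 1 := by omega
    subst hk1
    rw [h6, h] at hn
    rcases hee with rfl | rfl <;> omega
  · rw [h6, h] at hn
    rcases hee with rfl | rfl <;> omega

theorem no420 (hnc : ¬ IsMulCommutative G) (h : Nat.card G = 420) : False := by
  haveI : Fact (Nat.Prime 7) := ⟨by norm_num⟩
  obtain ⟨h1, h2, h3, h4, P, x, hx, hz, e, k, he, he1, hk, hk0, hNe, hn⟩ := prime_data (G := G) 7 60 (by norm_num) (by rw [h]; norm_num) hnc
  have : ∀ n, n ≤ 60 → n ∣ 60 → n % 7 = 1 → n ≠ 1 → n = 15 := by decide +kernel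
  have he6 : e ∣ 6 := he
  have hee : e = 2 ∨ e = 3 ∨ e = 6 := by
    have : ∀ e, e ≤ 6 → e ∣ 6 → e ≠ 1 → e = 2 ∨ e = 3 ∨ e = 6 := by decide
    exact this e (Nat.le_of_dvd (by norm_num) he6) he6 he1
  have hsyl : ¬ 7 ^ 2 ∣ Nat.card G := by rw [h]; norm_num
  have h6 := this _ (Nat.le_of_dvd (by norm_num) h1) h1 h2 h3
  rw [h6, h] at hn
  have hC : e = 2 ∧ k = 2 := by
    rcases hee with rfl | rfl | rfl <;> omega
  obtain ⟨rfl, rfl⟩ := hC
  refine two_char 7 (by norm_num) hnc hx hsyl hNe (by rw [hk]; norm_num) ?_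
  rw [h]
  decide +kernel

theorem no840 (hnc : ¬ IsMulCommutative G) (h : Nat.card G = 840) : False := by
  haveI : Fact (Nat.Prime 7) := ⟨by norm_num⟩
  obtain ⟨h1, h2, h3, h4, P, x, hx, hz, e, k, he, he1, hk, hk0, hNe, hn⟩ := prime_data (G := G) 7 120 (by norm_num) (by rw [h]; norm_num) hnc
  have : ∀ n, n ≤ 120 → n ∣ 120 → n % 7 = 1 → n ≠ 1 → n = 8 ∨ n = 15 ∨ n = 120 := by decide +kernel
  have he6 : e ∣ 6 := he
  have hee : e = 2 ∨ e = 3 ∨ e = 6 := by
    have : ∀ e, e ≤ 6 → e ∣ 6 → e ≠ 1 → e = 2 ∨ e = 3 ∨ e = 6 := by decide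
    exact this e (Nat.le_of_dvd (by norm_num) he6) he6 he1
  have hsyl : ¬ 7 ^ 2 ∣ Nat.card G := by rw [h]; norm_num
  rcases this _ (Nat.le_of_dvd (by norm_num) h1) h1 h2 h3 with h6 | h6 | h6
  · have hC := Lib.SmallSimple.BA.card_centralizer_of_succ (p := 7) (by rw [h6]) P hx hz hsyl
    have hk1 : k = 1 := by omega
    subst hk1
    rw [h6, h] at hn
    rcases hee with rfl | rfl | rfl <;> omega
  · rw [h6, h] at hn
    have hC : e = 2 ∧ k = 4 := by
      rcases hee with rfl | rfl | rfl <;> omega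
    obtain ⟨rfl, rfl⟩ := hC
    refine two_char 7 (by norm_num) hnc hx hsyl hNe (by rw [hk]; norm_num) ?_
    rw [h]
    decide +kernel
  · rw [h6, h] at hn
    rcases hee with rfl | rfl | rfl <;> omega

theorem no1008 (hnc : ¬ IsMulCommutative G) (h : Nat.card G = 1008) : False := by
  haveI : Fact (Nat.Prime 7) := ⟨by norm_num⟩
  obtain ⟨h1, h2, h3, h4, P, x, hx, hz, e, k, he, he1, hk, hk0, hNe, hn⟩ := prime_data (G := G) 7 144 (by norm_num) (by rw [h]; norm_num) hnc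
  have : ∀ n, n ≤ 144 → n ∣ 144 → n % 7 = 1 → n ≠ 1 → n = 8 ∨ n = 36 := by decide +kernel
  have he6 : e ∣ 6 := he
  have hee : e = 2 ∨ e = 3 ∨ e = 6 := by
    have : ∀ e, e ≤ 6 → e ∣ 6 → e ≠ 1 → e = 2 ∨ e = 3 ∨ e = 6 := by decide
    exact this e (Nat.le_of_dvd (by norm_num) he6) he6 he1
  have hsyl : ¬ 7 ^ 2 ∣ Nat.card G := by rw [h]; norm_num
  rcases this _ (Nat.le_of_dvd (by norm_num) h1) h1 h2 h3 with h6 | h6
  · have hC := Lib.SmallSimple.BA.card_centralizer_of_succ (p := 7) (by rw [h6]) P hx hz hsyl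
    have hk1 : k = 1 := by omega
    subst hk1
    rw [h6, h] at hn
    rcases hee with rfl | rfl | rfl <;> omega
  · rw [h6, h] at hn
    have hC : e = 2 ∧ k = 2 := by
      rcases hee with rfl | rfl | rfl <;> omega
    obtain ⟨rfl, rfl⟩ := hC
    refine two_char 7 (by norm_num) hnc hx hsyl hNe (by rw [hk]; norm_num) ?_
    rw [h]
    decide +kernel

end Cfsg.Agent.Lib.Cl.SO
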