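import Cfsg.Agent.Lib.SmallSimple.BlockApply
import Mathlib

/-! # Simple groups of small order: the order 1080 -/

set_option autoImplicit false
set_option linter.unusedSectionVars false
set_option linter.unusedVariables false

namespace Cfsg.Agent.Lib.Cl.SO

open Cfsg Subgroup

universe u

variable {G : Type u} [Group G] [Finite G]

/-- In a group of order 15 the elements of order 3 generate the same subgroup. -/
theorem mem_zpowers_of_card15 {C : Subgroup G} (hC : Nat.card C = 15) {s t : G} (hs : s ∈ C) (ht : t ∈ C)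
    (hos : orderOf s = 3) (hot : orderOf t = 3) : s ∈ zpowers t := by
  haveI : Fact (Nat.Prime 3) := ⟨by norm_num⟩
  have hs' : orderOf (⟨s, hs⟩ : C) = 3 := by rw [Subgroup.orderOf_mk, hos]
  have ht' : orderOf (⟨t, ht⟩ : C) = 3 := by rw [Subgroup.orderOf_mk, hot]
  obtain ⟨S⟩ : Nonempty (Sylow 3 C) := inferInstance
  have hcard : Nat.card (S : Subgroup C) = 3 := by
    rw [S.card_eq_multiplicity, hC]
    have : (15 : ℕ).factorization 3 = 1 := by
      rw [show (15 : ℕ) = 3 ^ 1 * 5 by norm_num, Nat.factorization_mul (by norm_num) (by norm_num)]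
      simp [Nat.factorization_eq_zero_of_not_dvd (show ¬ 3 ∣ 5 by norm_num), Nat.Prime.factorization_self (show Nat.Prime 3 by norm_num)]
    rw [this, pow_one]
  have hidx : (S : Subgroup C).index = 5 := by
    have h := (S : Subgroup C).card_mul_index
    rw [hcard, hC] at h
    omega
  have huniq : Nat.card (Sylow 3 C) = 1 := by
    have h1 : Nat.card (Sylow 3 C) ≡ 1 [MOD 3] := card_sylow_modEq_one 3 C
    have h2 : Nat.card (Sylow 3 C) ∣ (S : Subgroup C).index := S.card_dvd_index
    rw [hidx] at h2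
    have h3 : ∀ n, n ≤ 5 → n ∣ 5 → n % 3 = 1 % 3 → n = 1 := by decide
    exact h3 _ (Nat.le_of_dvd (by norm_num) h2) h2 h1
  haveI : Subsingleton (Sylow 3 C) := by
    haveI : Finite (Sylow 3 C) := inferInstance
    exact (Nat.card_eq_one_iff_unique.mp huniq).1
  have hle : ∀ u : C, orderOf u = 3 → zpowers u = (S : Subgroup C) := by
    intro u hu
    have hpg : IsPGroup 3 (zpowers u) := by
      refine IsPGroup.of_card (n := 1) ?_
      rw [Nat.card_zpowers, hu, pow_one]
    obtain ⟨Q, hQ⟩ := hpg.exists_le_sylow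
    have hQS : Q = S := Subsingleton.elim _ _
    rw [hQS] at hQ
    apply Subgroup.eq_of_le_of_card_ge hQ
    rw [hcard, Nat.card_zpowers, hu]
  have h1 := hle _ hs'
  have h2 := hle _ ht'
  have h3 : (⟨s, hs⟩ : C) ∈ zpowers (⟨t, ht⟩ : C) := by
    rw [h2, ← h1]
    exact mem_zpowers _
  obtain ⟨j, hj⟩ := mem_zpowers_iff.mp h3
  rw [mem_zpowers_iff]
  refine ⟨j, ?_⟩
  have := congrArg Subtype.val hj
  simpa using this

variable [IsSimpleGroup G]

theorem key1080 (hnc : ¬ IsMulCommutative G) (h : Nat.card G = 1080) [Fact (Nat.Prime 5)] (P : Sylow 5 G)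
    {x : G} (hx : orderOf x = 5) (hz : zpowers x = (P : Subgroup G))
    (hn36 : Nat.card (Sylow 5 G) = 36)
    (hC : Nat.card (centralizer ({x} : Set G)) = 15)
    (hN : Nat.card (normalizer ((zpowers x : Subgroup G) : Set G)) = 30) : False := by
  classical
  haveI : Fact (Nat.Prime 3) := ⟨by norm_num⟩
  have hle : centralizer ({x} : Set G) ≤ normalizer ((zpowers x : Subgroup G) : Set G) :=
    Lib.SmallSimple.BB.centralizer_le_normalizer
  obtain ⟨t', ht'⟩ := exists_prime_orderOf_dvd_card' (G := centralizer ({x} : Set G)) 3 (by rw [hC]; norm_num)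
  have ht : orderOf (t' : G) = 3 := by rw [Subgroup.orderOf_coe]; exact ht'
  obtain ⟨t, htC⟩ := t'
  change orderOf t = 3 at ht
  have hidx : ((centralizer ({x} : Set G)).subgroupOf (normalizer ((zpowers x : Subgroup G) : Set G))).index = 2 := by
    have h2 := ((centralizer ({x} : Set G)).subgroupOf (normalizer ((zpowers x : Subgroup G) : Set G))).card_mul_index
    have h3 : Nat.card ((centralizer ({x} : Set G)).subgroupOf (normalizer ((zpowers x : Subgroup G) : Set G))) =
        Nat.card (centralizer ({x} : Set G)) := Nat.card_congr (Subgroup.subgroupOfEquivOfLe hle).toEquiv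
    rw [h3, hC, hN] at h2
    omega
  have hK : ∀ s : G, s ∈ normalizer ((zpowers x : Subgroup G) : Set G) → orderOf s = 3 →
      s ∈ centralizer ({x} : Set G) := by
    intro s hs ho
    have h1 := Subgroup.sq_mem_of_index_two hidx (⟨s, hs⟩ : normalizer ((zpowers x : Subgroup G) : Set G))
    have h2 : s ^ 2 ∈ centralizer ({x} : Set G) := by
      simpa [Subgroup.mem_subgroupOf] using h1
    have h3 : s = (s ^ 2) ^ 2 := by
      have h4 : s ^ 3 = 1 := by rw [← ho]; exact pow_orderOf_eq_one s
      calc s = s ^ 3 * s := by rw [h4, one_mul]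
        _ = (s ^ 2) ^ 2 := by group
    rw [h3]
    exact Subgroup.pow_mem _ h2 2
  have hL : ∀ g : G, g⁻¹ * t * g ∈ normalizer ((zpowers x : Subgroup G) : Set G) →
      g ∈ normalizer ((zpowers t : Subgroup G) : Set G) := by
    intro g hg
    have hos : orderOf (g⁻¹ * t * g) = 3 := by
      have h1 : g⁻¹ * t * g = (MulAut.conj g⁻¹) t := by simp [MulAut.conj_apply]
      rw [h1, MulEquiv.orderOf_eq, ht]
    have hsC := hK _ hg hos
    have h1 : g⁻¹ * t * g ∈ zpowers t := mem_zpowers_of_card15 hC hsC htC hos ht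
    have h2 : t ∈ zpowers (g⁻¹ * t * g) := mem_zpowers_of_card15 hC htC hsC ht hos
    have hconj : ∀ j : ℤ, g⁻¹ * t ^ j * g = (g⁻¹ * t * g) ^ j := by
      intro j
      have h3 := conj_zpow (a := g⁻¹) (b := t) (i := j)
      rw [inv_inv] at h3
      exact h3.symm
    have hinv : g⁻¹ ∈ normalizer ((zpowers t : Subgroup G) : Set G) := by
      rw [Subgroup.mem_normalizer_iff]
      intro n
      constructor
      · intro hn
        obtain ⟨j, rfl⟩ := mem_zpowers_iff.mp hn
        rw [inv_inv, hconj j]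
        exact Subgroup.zpow_mem _ h1 j
      · intro hn
        rw [inv_inv] at hn
        have hn' : g⁻¹ * n * g ∈ zpowers (g⁻¹ * t * g) := (zpowers_le.mpr h2) hn
        obtain ⟨j, hj⟩ := mem_zpowers_iff.mp hn'
        have h5 : n = t ^ j := by
          have h6 := hconj j
          rw [hj] at h6
          have h7 : g⁻¹ * t ^ j * g = g⁻¹ * n * g := h6
          have h8 : g⁻¹ * t ^ j = g⁻¹ * n := mul_right_cancel h7
          exact (mul_left_cancel h8).symm
        rw [h5]
        exact Subgroup.zpow_mem _ (mem_zpowers t) j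
    simpa using Subgroup.inv_mem _ hinv
  have hNH : normalizer ((zpowers x : Subgroup G) : Set G) ≤ normalizer ((zpowers t : Subgroup G) : Set G) := by
    intro n hn
    apply hL n
    exact Subgroup.mul_mem _ (Subgroup.mul_mem _ (Subgroup.inv_mem _ hn) (hle htC)) hn
  have hP : ∀ g : G, t • (g • P) = g • P ↔ g⁻¹ * t * g ∈ normalizer ((zpowers x : Subgroup G) : Set G) := by
    intro g
    have h1 : t • (g • P) = g • P ↔ (g⁻¹ * t * g) • P = P := by
      constructor
      · intro h'
        rw [mul_smul, mul_smul, h', inv_smul_smul]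
      · intro h'
        have h2 := congrArg (g • ·) h'
        simpa [mul_smul] using h2
    rw [h1, Sylow.smul_eq_iff_mem_normalizer, hz]
    exact Iff.rfl
  have horbit : MulAction.orbit (normalizer ((zpowers t : Subgroup G) : Set G)) P = {Q : Sylow 5 G | t • Q = Q} := by
    ext Q
    constructor
    · rintro ⟨h0, rfl⟩
      show t • ((h0 : G) • P) = (h0 : G) • P
      rw [hP]
      have h1 := (Subgroup.mem_normalizer_iff.mp (Subgroup.inv_mem _ h0.2) t).mp (mem_zpowers t)
      rw [inv_inv] at h1
      exact hle ((zpowers_le.mpr htC) h1)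
    · intro hQ
      obtain ⟨g, hg⟩ := MulAction.exists_smul_eq G P Q
      change t • Q = Q at hQ
      rw [← hg, hP] at hQ
      exact ⟨⟨g, hL g hQ⟩, hg⟩
  have hstab : MulAction.stabilizer (normalizer ((zpowers t : Subgroup G) : Set G)) P =
      (normalizer ((zpowers x : Subgroup G) : Set G)).subgroupOf (normalizer ((zpowers t : Subgroup G) : Set G)) := by
    ext h0
    rw [MulAction.mem_stabilizer_iff, Subgroup.mem_subgroupOf]
    show (h0 : G) • P = P ↔ _
    rw [Sylow.smul_eq_iff_mem_normalizer, hz]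
    exact Iff.rfl
  have hcardH : Nat.card (normalizer ((zpowers t : Subgroup G) : Set G)) =
      30 * Nat.card {Q : Sylow 5 G // t • Q = Q} := by
    have h1 := MulAction.index_stabilizer (normalizer ((zpowers t : Subgroup G) : Set G)) P
    have h2 := (MulAction.stabilizer (normalizer ((zpowers t : Subgroup G) : Set G)) P).card_mul_index
    rw [hstab] at h1 h2
    have h3 : Nat.card ((normalizer ((zpowers x : Subgroup G) : Set G)).subgroupOf
        (normalizer ((zpowers t : Subgroup G) : Set G))) = 30 :=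
      (Nat.card_congr (Subgroup.subgroupOfEquivOfLe hNH).toEquiv).trans hN
    rw [h3, h1, horbit, ← Nat.card_coe_set_eq] at h2
    exact h2.symm
  have hm3 := Lib.SmallSimple.BA.fix_modEq_sylow (p := 5) ht
  have hm5 := Lib.SmallSimple.BA.fix_modEq_one P hx hz htC
  have hle36 := Lib.SmallSimple.BA.card_fix_le (p := 5) (y := t)
  rw [hn36] at hm3 hle36
  have hne : Nat.card {Q : Sylow 5 G // t • Q = Q} ≠ 36 := by
    intro h36
    have hall := Lib.SmallSimple.BA.forall_fix_of_card (h36.trans hn36.symm)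
    have ht1 := Lib.SmallSimple.BA.eq_one_of_fix_all (by rw [hn36]; norm_num) hall
    rw [ht1, orderOf_one] at ht
    omega
  have hF : Nat.card {Q : Sylow 5 G // t • Q = Q} = 6 ∨ Nat.card {Q : Sylow 5 G // t • Q = Q} = 21 := by
    unfold Nat.ModEq at hm3 hm5
    omega
  have hdvd : Nat.card (normalizer ((zpowers t : Subgroup G) : Set G)) ∣ Nat.card G := Subgroup.card_subgroup_dvd_card _
  rw [h, hcardH] at hdvd
  rcases hF with h6 | h21
  · rw [h6] at hcardH
    have hne' : normalizer ((zpowers t : Subgroup G) : Set G) ≠ ⊤ := by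
      intro h0
      rw [h0, Subgroup.card_top, h] at hcardH
      omega
    have hind : (normalizer ((zpowers t : Subgroup G) : Set G)).index = 6 := by
      have h0 := (normalizer ((zpowers t : Subgroup G) : Set G)).card_mul_index
      rw [hcardH, h] at h0
      omega
    have h0 := Cfsg.Agent.Lib.Cl.two_mul_card_dvd_factorial_index (Lib.SmallSimple.two_lt_card hnc) _ hne'
    rw [hind, h] at h0
    revert h0
    decide +kernel
  · rw [h21] at hdvd
    revert hdvd
    norm_num

theorem no1080 (hnc : ¬ IsMulCommutative G) (h : Nat.card G = 1080) : False := by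
  haveI : Fact (Nat.Prime 5) := ⟨by norm_num⟩
  obtain ⟨h1, h2, h3, h4, h5⟩ := Lib.SmallSimple.sylow_facts (G := G) hnc 5 1 216 (by rw [h]; norm_num) (by norm_num) one_ne_zero
  obtain ⟨P⟩ : Nonempty (Sylow 5 G) := inferInstance
  obtain ⟨hP, hNN⟩ := h5 P
  rw [pow_one] at hP
  obtain ⟨x, hx, hz⟩ := Lib.SmallSimple.BA.exists_gen P hP
  obtain ⟨e, he, he1, hNe⟩ := Lib.SmallSimple.BA.norm_data hnc P hP hx hz
  rw [← hz] at hNN
  have hxC : x ∈ centralizer ({x} : Set G) := by
    rw [Subgroup.mem_centralizer_singleton_iff]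
  have hpd : 5 ∣ Nat.card (centralizer ({x} : Set G)) := by
    have := orderOf_dvd_natCard (⟨x, hxC⟩ : centralizer ({x} : Set G))
    rwa [Subgroup.orderOf_mk, hx] at this
  obtain ⟨k, hk⟩ := hpd
  have hk0 : 0 < k := by
    rcases Nat.eq_zero_or_pos k with h0 | h0
    · rw [h0, mul_zero] at hk
      have : 0 < Nat.card (centralizer ({x} : Set G)) := Nat.card_pos
      omega
    · exact h0
  have hn := hNN
  rw [hNe, hk] at hn
  have hn' : ∀ n, n ≤ 216 → n ∣ 216 → n % 5 = 1 → n ≠ 1 → n = 6 ∨ n = 36 ∨ n = 216 := by decide +kernel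
  have he4 : e ∣ 4 := he
  have hee : e = 2 ∨ e = 4 := by
    have : ∀ e, e ≤ 4 → e ∣ 4 → e ≠ 1 → e = 2 ∨ e = 4 := by decide
    exact this e (Nat.le_of_dvd (by norm_num) he4) he4 he1
  rcases hn' _ (Nat.le_of_dvd (by norm_num) h1) h1 h2 h3 with h6 | h6 | h6
  · rw [h6, h] at h4
    revert h4
    decide +kernel
  · rw [h6, h] at hn
    have hC : e = 2 ∧ k = 3 := by
      rcases hee with rfl | rfl <;> omega
    obtain ⟨rfl, rfl⟩ := hC
    exact key1080 hnc h P hx hz h6 hk (by rw [hNe, hk])
  · rw [h6, h] at hn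
    rcases hee with rfl | rfl <;> omega

end Cfsg.Agent.Lib.Cl.SO
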