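import Cfsg.Agent.Lib.Cl.SO1
import Mathlib

/-! # Simple groups of small order: the order 756 -/

set_option autoImplicit false
set_option linter.unusedSectionVars false
set_option linter.unusedVariables false

namespace Cfsg.Agent.Lib.Cl.SO

open Cfsg Subgroup
open Cfsg (classInner IsCharacter IsIrrCharacter IrrCharacter IsPModular principalBlock)
open Cfsg.Agent.Lib.Char
open Cfsg.Agent.Lib.Block
open Cfsg.Agent.Lib.SmallSimple.Star
open Cfsg.Agent.Lib.SmallSimple.BL (cj Rel Nt rel_equiv)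
open Cfsg.Agent.Lib.SmallSimple.BB

universe u

variable {G : Type u} [Group G] [Finite G] [IsSimpleGroup G]

theorem chk756a : ∀ d, d ≤ 27 → d ∣ 756 → d ≠ 1 → (d % 7 = 3 ∨ d % 7 = 6) → d = 3 ∨ d = 6 ∨ d = 27 := by
  intro d hd
  interval_cases d <;> decide

theorem chk756b : ∀ d, d ≤ 27 → d ∣ 756 → d ≠ 1 → (d % 7 = 4 ∨ d % 7 = 1) → d = 4 ∨ d = 18 := by
  intro d hd
  interval_cases d <;> decide

theorem chk756c : ∀ n, n ≤ 108 → n ∣ 108 → n % 7 = 1 → n ≠ 1 → n = 36 := by decide +kernel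

theorem chk756d : ∀ e, e ≤ 6 → e ∣ 6 → e ≠ 1 → e = 2 ∨ e = 3 ∨ e = 6 := by decide

open Classical in
theorem no756 (hnc : ¬ IsMulCommutative G) (h : Nat.card G = 756) : False := by
  haveI : Fact (Nat.Prime 7) := ⟨by norm_num⟩
  haveI : Fintype G := Fintype.ofFinite G
  obtain ⟨h1, h2, h3, h4, P, x, hx, hz, e, k, he, he1, hk, hk0, hNe, hn⟩ :=
    prime_data (G := G) 7 108 (by norm_num) (by rw [h]; norm_num) hnc
  have hn' := chk756c
  have he6 : e ∣ 6 := he
  have hee : e = 2 ∨ e = 3 ∨ e = 6 := by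
    exact chk756d e (Nat.le_of_dvd (by norm_num) he6) he6 he1
  have hsyl : ¬ 7 ^ 2 ∣ Nat.card G := by rw [h]; norm_num
  have h6 := hn' _ (Nat.le_of_dvd (by norm_num) h1) h1 h2 h3
  rw [h6, h] at hn
  have hC : e = 3 ∧ k = 1 := by
    rcases hee with rfl | rfl | rfl <;> omega
  obtain ⟨rfl, rfl⟩ := hC
  obtain ⟨M, hM⟩ := exists_isPModular 7 (by norm_num)
  haveI : Fintype (zpowers x) := Fintype.ofFinite _
  obtain ⟨deg, c, n, hdeg, hc0, hgram, hreg, hone, hdform, hcls, hnt⟩ :=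
    block_data (M := M) hM hx hsyl 3 hNe
  have hdeg1 : deg (oneIrr G) = 1 := by
    have h2 : (1 : ℂ) = deg (oneIrr G) := (hdeg (oneIrr G)).1
    exact_mod_cast h2.symm
  obtain ⟨a₀⟩ : Nonempty (Nt x) := by
    rw [← Finset.univ_nonempty_iff, ← Finset.card_pos]
    omega
  obtain ⟨b₀, -, hb₀⟩ := Finset.exists_mem_notMem_of_card_lt_card
    (s := Finset.univ.filter fun b : Nt x => Rel a₀.1 b.1) (t := Finset.univ)
    (by rw [hcls]; omega)
  simp only [Finset.mem_filter, Finset.mem_univ, true_and] at hb₀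
  have hdd : ∀ a : Nt x, ip (c a) (fun χ => (deg χ : ℤ)) = 0 := by
    intro a
    have h1 := hreg a 1 (by norm_num)
    simp only [(fun χ : IrrCharacter G => (hdeg χ).1)] at h1
    have h2 : ((ip (c a) (fun χ => (deg χ : ℤ)) : ℤ) : ℂ) = 0 := by
      simp only [ip]
      push_cast
      exact h1
    exact_mod_cast h2
  have hdegsq : ip (fun χ : IrrCharacter G => (deg χ : ℤ)) (fun χ => (deg χ : ℤ)) = 756 := by
    have h1 := sum_degree_sq (G := G)
    simp only [(fun χ : IrrCharacter G => (hdeg χ).1)] at h1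
    rw [h] at h1
    have h2 : ((ip (fun χ : IrrCharacter G => (deg χ : ℤ)) (fun χ => (deg χ : ℤ)) : ℤ) : ℂ) = 756 := by
      simp only [ip]
      push_cast
      have h3 : (756 : ℂ) = ((756 : ℕ) : ℂ) := by norm_num
      rw [h3, ← h1]
      exact Finset.sum_congr rfl fun χ _ => by ring
    exact_mod_cast h2
  have hsame : ∀ a b : Nt x, Rel a.1 b.1 → c a = c b := by
    intro a b hr
    have h0 : ip (c a - c b) (c a - c b) = 0 := by
      rw [ip_sub_left, ip_sub_right, ip_sub_right, hgram, hgram, hgram, hgram, if_pos hr,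
        if_pos (rel_equiv.symm hr), if_pos (rel_equiv.refl _), if_pos (rel_equiv.refl _)]
      norm_num
    exact sub_eq_zero.mp (eq_zero_of_ip_self _ h0)
  have hdisj : Disjoint (Finset.univ.filter fun b : Nt x => Rel a₀.1 b.1)
      (Finset.univ.filter fun b : Nt x => Rel b₀.1 b.1) := by
    rw [Finset.disjoint_left]
    intro b hb1 hb2
    simp only [Finset.mem_filter, Finset.mem_univ, true_and] at hb1 hb2
    exact hb₀ (rel_equiv.trans hb1 (rel_equiv.symm hb2))
  have hAB : (Finset.univ.filter fun b : Nt x => Rel a₀.1 b.1) ∪ (Finset.univ.filter fun b : Nt x => Rel b₀.1 b.1) =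
      Finset.univ := by
    apply Finset.eq_of_subset_of_card_le (Finset.subset_univ _)
    rw [Finset.card_union_of_disjoint hdisj, hcls, hcls]
    omega
  have hsum : ∀ χ : IrrCharacter G, ∑ a : Nt x, c a χ = 3 * c a₀ χ + 3 * c b₀ χ := by
    intro χ
    rw [← hAB, Finset.sum_union hdisj]
    have hA : ∑ a ∈ (Finset.univ.filter fun b : Nt x => Rel a₀.1 b.1), c a χ =
        ∑ a ∈ (Finset.univ.filter fun b : Nt x => Rel a₀.1 b.1), c a₀ χ := by
      refine Finset.sum_congr rfl fun a ha => ?_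
      simp only [Finset.mem_filter, Finset.mem_univ, true_and] at ha
      rw [hsame a a₀ (rel_equiv.symm ha)]
    have hB : ∑ a ∈ (Finset.univ.filter fun b : Nt x => Rel b₀.1 b.1), c a χ =
        ∑ a ∈ (Finset.univ.filter fun b : Nt x => Rel b₀.1 b.1), c b₀ χ := by
      refine Finset.sum_congr rfl fun a ha => ?_
      simp only [Finset.mem_filter, Finset.mem_univ, true_and] at ha
      rw [hsame a b₀ (rel_equiv.symm ha)]
    rw [hA, hB, Finset.sum_const, Finset.sum_const, hcls, hcls]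
    simp
  have huu : ip (c a₀) (c a₀) = 4 := by
    rw [hgram, if_pos (rel_equiv.refl _)]
    norm_num
  have hvv : ip (c b₀) (c b₀) = 4 := by
    rw [hgram, if_pos (rel_equiv.refl _)]
    norm_num
  have huv : ip (c a₀) (c b₀) = 3 := by
    rw [hgram, if_neg hb₀]
    norm_num
  have hvu : ip (c b₀) (c a₀) = 3 := by
    rw [ip_comm, huv]
  have hww : ip (c a₀ - c b₀) (c a₀ - c b₀) = 2 := by
    rw [ip_sub_left, ip_sub_right, ip_sub_right, huu, huv, hvu, hvv]
    norm_num
  have hu1 := hone a₀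
  have hv1 := hone b₀
  let S : Finset (IrrCharacter G) := Finset.univ.filter (fun χ => χ ≠ oneIrr G ∧ c a₀ χ ≠ 0)
  have hsplit : ∀ f : IrrCharacter G → ℤ, ∑ χ, c a₀ χ * f χ = c a₀ (oneIrr G) * f (oneIrr G) +
      ∑ χ ∈ S, c a₀ χ * f χ := by
    intro f
    rw [← Finset.add_sum_erase _ _ (Finset.mem_univ (oneIrr G))]
    congr 1
    apply (Finset.sum_subset _ _).symm
    · intro χ hχ
      simp only [S, Finset.mem_filter, Finset.mem_univ, true_and] at hχ
      simp [hχ.1]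
    · intro χ hχ hχ'
      simp only [Finset.mem_erase, Finset.mem_univ, and_true] at hχ
      simp only [S, Finset.mem_filter, Finset.mem_univ, true_and, not_and, not_not] at hχ'
      rw [hχ' hχ, zero_mul]
  have hS2 : ∑ χ ∈ S, c a₀ χ * c a₀ χ = 3 := by
    have h1 := hsplit (c a₀)
    have h2 : ∑ χ, c a₀ χ * c a₀ χ = 4 := huu
    rw [h2, hu1] at h1
    omega
  have hSd : ∑ χ ∈ S, c a₀ χ * (deg χ : ℤ) = 1 := by
    have h1 := hsplit (fun χ => (deg χ : ℤ))
    have h2 : ∑ χ, c a₀ χ * (deg χ : ℤ) = 0 := hdd a₀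
    rw [h2, hu1, hdeg1] at h1
    push_cast at h1
    omega
  have hmem : ∀ χ ∈ S, χ ≠ oneIrr G ∧ c a₀ χ ≠ 0 := by
    intro χ hχ
    simpa [S] using hχ
  have hsgn : ∀ χ ∈ S, c a₀ χ = 1 ∨ c a₀ χ = -1 := by
    intro χ hχ
    obtain ⟨hχ1, hχ0⟩ := hmem χ hχ
    have h1 := pair_le_ip (c a₀) hχ1
    rw [huu, hu1] at h1
    have h2 : c a₀ χ ≤ 1 := by nlinarith
    have h3 : -1 ≤ c a₀ χ := by nlinarith
    omega
  have hcard : S.card = 3 := by
    have h1 : ∑ χ ∈ S, c a₀ χ * c a₀ χ = ∑ χ ∈ S, (1 : ℤ) := by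
      refine Finset.sum_congr rfl fun χ hχ => ?_
      rcases hsgn χ hχ with h0 | h0 <;> rw [h0] <;> norm_num
    rw [hS2, Finset.sum_const, nsmul_eq_mul, mul_one] at h1
    exact_mod_cast h1.symm
  have hchk1 := chk756a
  have hchk2 := chk756b
  have hterm : ∀ χ ∈ S, c a₀ χ * (deg χ : ℤ) = 6 ∨ c a₀ χ * (deg χ : ℤ) = 27 ∨ c a₀ χ * (deg χ : ℤ) = 3 ∨
      c a₀ χ * (deg χ : ℤ) = -4 ∨ c a₀ χ * (deg χ : ℤ) = -18 := by
    intro χ hχ
    obtain ⟨hχ1, hχ0⟩ := hmem χ hχ
    have hB : χ ∈ principalBlock M G := by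
      by_contra hcon
      exact hχ0 (hc0 a₀ χ hcon)
    have hform := hdform χ hB
    rw [hsum χ] at hform
    push_cast at hform
    have hd1 : deg χ ≠ 1 := by
      intro hd
      apply Cfsg.Agent.Lib.SmallSimple.BL.degree_ne_one hnc χ hχ1
      rw [(hdeg χ).1, hd]
      simp
    have hdv : deg χ ∣ 756 := by
      rw [← h]
      exact (hdeg χ).2.2
    have hsq := pair_le_ip (fun χ : IrrCharacter G => (deg χ : ℤ)) hχ1
    rw [hdegsq] at hsq
    simp only [hdeg1] at hsq
    have hle : deg χ ≤ 27 := by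
      by_contra hcon
      have h28 : (28 : ℤ) ≤ deg χ := by exact_mod_cast (by omega : 28 ≤ deg χ)
      push_cast at hsq
      nlinarith
    have hv := pair_le_ip (c b₀) hχ1
    rw [hvv, hv1] at hv
    have hv2 : c b₀ χ ≤ 1 := by nlinarith
    have hv3 : -1 ≤ c b₀ χ := by nlinarith
    have hw := single_le_ip (c a₀ - c b₀) χ
    rw [hww] at hw
    simp only [Pi.sub_apply] at hw
    rcases hsgn χ hχ with h0 | h0
    · rw [h0] at hform hw ⊢
      have hv4 : c b₀ χ = 0 ∨ c b₀ χ = 1 := by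
        have hv5 : c b₀ χ ≠ -1 := by
          intro hv6
          rw [hv6] at hw
          norm_num at hw
        omega
      have hmod : deg χ % 7 = 3 ∨ deg χ % 7 = 6 := by
        rcases hv4 with hv4 | hv4 <;> rw [hv4] at hform <;> omega
      rcases hchk1 _ hle hdv hd1 hmod with h7 | h7 | h7 <;> rw [h7] <;> norm_num
    · rw [h0] at hform hw ⊢
      have hv4 : c b₀ χ = 0 ∨ c b₀ χ = -1 := by
        have hv5 : c b₀ χ ≠ 1 := by
          intro hv6
          rw [hv6] at hw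
          norm_num at hw
        omega
      have hmod : deg χ % 7 = 4 ∨ deg χ % 7 = 1 := by
        rcases hv4 with hv4 | hv4 <;> rw [hv4] at hform <;> omega
      rcases hchk2 _ hle hdv hd1 hmod with h7 | h7 <;> rw [h7] <;> norm_num
  obtain ⟨a, b, d, hab, had, hbd, hSeq⟩ := Finset.card_eq_three.mp hcard
  have ha : a ∈ S := by rw [hSeq]; simp
  have hb : b ∈ S := by rw [hSeq]; simp
  have hd : d ∈ S := by rw [hSeq]; simp
  rw [hSeq, Finset.sum_insert (by simp [hab, had]), Finset.sum_insert (by simp [hbd]),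
    Finset.sum_singleton] at hSd
  rcases hterm a ha with h5 | h5 | h5 | h5 | h5 <;> rcases hterm b hb with h7 | h7 | h7 | h7 | h7 <;>
    rcases hterm d hd with h8 | h8 | h8 | h8 | h8 <;> omega

end Cfsg.Agent.Lib.Cl.SO
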