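import Cfsg.Agent.Lib.Cl.SO1
import Mathlib

/-! # Simple groups of small order: the order 720 -/

set_option autoImplicit false
set_option linter.unusedSectionVars false
set_option linter.unusedVariables false

namespace Cfsg.Agent.Lib.Cl.SO

open Cfsg Subgroup
open Cfsg (classInner IsCharacter IsIrrCharacter IrrCharacter IsPModular principalBlock)
open Cfsg.Agent.Lib.Char
open Cfsg.Agent.Lib.Block
open Cfsg.Agent.Lib.SmallSimple.Star
open Cfsg.Agent.Lib.SmallSimple.BB

universe u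

variable {G : Type u} [Group G] [Finite G]

/-- An element of the normalizer inducing the squaring automorphism. -/
theorem exists_sq_conj {x : G} (hx : orderOf x = 5)
    (hC : Nat.card (centralizer ({x} : Set G)) = 5)
    (hN : Nat.card (normalizer ((zpowers x : Subgroup G) : Set G)) = 20) :
    ∃ g : G, g ∈ normalizer ((zpowers x : Subgroup G) : Set G) ∧ g * x = x ^ 2 * g := by
  classical
  haveI : Fact (Nat.card (zpowers x)).Prime := ⟨by rw [Nat.card_zpowers, hx]; norm_num⟩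
  haveI hcyc : IsCyclic (zpowers x) := isCyclic_of_prime_card rfl
  have hcomm : ∀ u v : zpowers x, u * v = v * u := by
    rintro ⟨u, hu⟩ ⟨v, hv⟩
    obtain ⟨i, rfl⟩ := mem_zpowers_iff.mp hu
    obtain ⟨j, rfl⟩ := mem_zpowers_iff.mp hv
    apply Subtype.ext
    exact (Commute.refl x).zpow_zpow i j
  have hcop : Nat.Coprime (Nat.card (zpowers x)) 2 := by rw [Nat.card_zpowers, hx]; norm_num
  let τ : MulAut (zpowers x) := MulEquiv.mk (powCoprime hcop) (fun u v => by
    show (u * v) ^ 2 = u ^ 2 * v ^ 2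
    exact (show Commute u v from hcomm u v).mul_pow 2)
  have hcardA : Nat.card (MulAut (zpowers x)) = 4 := by
    rw [IsCyclic.card_mulAut, Nat.card_zpowers, hx]
    decide
  have hle : centralizer ({x} : Set G) ≤ normalizer ((zpowers x : Subgroup G) : Set G) :=
    Lib.SmallSimple.BB.centralizer_le_normalizer
  have hind : ((centralizer ({x} : Set G)).subgroupOf (normalizer ((zpowers x : Subgroup G) : Set G))).index = 4 := by
    have h2 := ((centralizer ({x} : Set G)).subgroupOf (normalizer ((zpowers x : Subgroup G) : Set G))).card_mul_index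
    have h3 : Nat.card ((centralizer ({x} : Set G)).subgroupOf (normalizer ((zpowers x : Subgroup G) : Set G))) =
        Nat.card (centralizer ({x} : Set G)) := Nat.card_congr (Subgroup.subgroupOfEquivOfLe hle).toEquiv
    rw [h3, hC, hN] at h2
    omega
  have hrange : Nat.card (normalizerMonoidHom (zpowers x)).range = 4 := by
    rw [← Subgroup.index_ker, normalizerMonoidHom_ker, Lib.SmallSimple.BA.centralizer_zpowers']
    exact hind
  have htop : (normalizerMonoidHom (zpowers x)).range = ⊤ :=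
    Subgroup.eq_top_of_card_eq _ (hrange.trans hcardA.symm)
  obtain ⟨⟨g, hg⟩, hτ⟩ : τ ∈ (normalizerMonoidHom (zpowers x)).range := by
    rw [htop]
    trivial
  refine ⟨g, hg, ?_⟩
  have h1 := congrArg Subtype.val (DFunLike.congr_fun hτ ⟨x, mem_zpowers x⟩)
  have h2 : g * x * g⁻¹ = x ^ 2 := h1
  rwa [mul_inv_eq_iff_eq_mul] at h2

variable [IsSimpleGroup G]

/-- No irreducible character of degree 4, when the normalizer of a subgroup of order 5 is
the Frobenius group of order 20. -/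
theorem no_deg4 (hnc : ¬ IsMulCommutative G) {x : G} (hx : orderOf x = 5)
    (hC : Nat.card (centralizer ({x} : Set G)) = 5)
    (hN : Nat.card (normalizer ((zpowers x : Subgroup G) : Set G)) = 20)
    (ψ : IrrCharacter G) (hψ : (ψ : G → ℂ) 1 = 4) : False := by
  classical
  haveI : Fintype G := Fintype.ofFinite G
  obtain ⟨g, hgN, hg⟩ := exists_sq_conj hx hC hN
  have hg20 : g ^ 20 = 1 := by
    have h1 := pow_card_eq_one' (G := normalizer ((zpowers x : Subgroup G) : Set G)) (x := ⟨g, hgN⟩)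
    rw [hN] at h1
    simpa using congrArg Subtype.val h1
  have hx5 : x ^ 5 = 1 := by rw [← hx]; exact pow_orderOf_eq_one x
  have hx1 : x ≠ 1 := by
    rintro rfl
    simp at hx
  have hsem : SemiconjBy g x (x ^ 2) := hg
  have hiter : ∀ k : ℕ, g ^ k * x = x ^ (2 ^ k) * g ^ k := by
    intro k
    induction k with
    | zero => simp
    | succ k ih =>
      have h1 : g * x ^ (2 ^ k) = (x ^ 2) ^ (2 ^ k) * g := (hsem.pow_right (2 ^ k)).eq
      calc g ^ (k + 1) * x = g * (g ^ k * x) := by rw [pow_succ', mul_assoc]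
        _ = g * (x ^ (2 ^ k) * g ^ k) := by rw [ih]
        _ = (g * x ^ (2 ^ k)) * g ^ k := by rw [mul_assoc]
        _ = (x ^ 2) ^ (2 ^ k) * g * g ^ k := by rw [h1]
        _ = x ^ (2 ^ (k + 1)) * g ^ (k + 1) := by
            rw [← pow_mul, pow_succ' 2 k, pow_succ' g k, mul_assoc]
  have hconj : ∀ (z : G) (r : ℕ), z * x = x ^ r * z → ∀ (i t : ℤ), i * (1 - (r : ℤ)) = 1 + 5 * t → ∀ k : ℕ,
      x ^ k * z = x ^ (i * k) * z * (x ^ (i * k))⁻¹ := by
    intro z r hz i t hi k
    have h1 : SemiconjBy z (x ^ (-(i * k))) ((x ^ r) ^ (-(i * k))) :=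
      (show SemiconjBy z x (x ^ r) from hz).zpow_right _
    have h2 : z * (x ^ (i * k))⁻¹ = (x ^ r) ^ (-(i * k)) * z := by
      rw [← zpow_neg]
      exact h1.eq
    rw [mul_assoc, h2, ← mul_assoc]
    congr 1
    rw [← zpow_natCast x r, ← zpow_mul, ← zpow_add, ← zpow_natCast x k]
    have h3 : i * k + (r : ℤ) * (-(i * k)) = k + 5 * (t * k) := by
      have h4 : i * k + (r : ℤ) * (-(i * k)) = (i * (1 - (r : ℤ))) * k := by ring
      rw [h4, hi]
      ring
    rw [h3, zpow_add, zpow_mul]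
    have h4 : x ^ (5 : ℤ) = 1 := by exact_mod_cast hx5
    rw [h4, one_zpow, mul_one]
  obtain ⟨n, ρ, hρ⟩ := IsIrrCharacter.isCharacter ψ.2
  have h1c : ρ.character 1 = (n : ℂ) := by
    simp [Representation.character]
  have hn4 : n = 4 := by
    have h0 : (n : ℂ) = 4 := by rw [← h1c, hρ, hψ]
    exact_mod_cast h0
  subst hn4
  have hcls : ∀ a b : G, ρ.character (b * a * b⁻¹) = ρ.character a :=
    fun a b => Representation.char_conj ρ a b
  have hsq : ∀ k : ℕ, ρ.character (x ^ (2 * k)) = ρ.character (x ^ k) := by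
    intro k
    have h1 : g * x ^ k * g⁻¹ = x ^ (2 * k) := by
      rw [pow_mul, mul_inv_eq_iff_eq_mul]
      exact (hsem.pow_right k).eq
    rw [← h1]
    exact hcls _ _
  have hc2 : ρ.character (x ^ 2) = ρ.character x := by simpa using hsq 1
  have hc4 : ρ.character (x ^ 4) = ρ.character x := by
    rw [← hc2]
    exact hsq 2
  have hc3 : ρ.character (x ^ 3) = ρ.character x := by
    rw [← hc4, ← hsq 4]
    congr 1
    rw [show 2 * 4 = 5 + 3 by norm_num, pow_add, hx5, one_mul]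
  obtain ⟨b, ζ, hζ, hb⟩ := exists_eigenbasis_rep ρ x (isOfFinOrder_of_finite x)
  rw [hx] at hζ
  have hbn : ∀ (i) (k : ℕ), ρ (x ^ k) (b i) = ζ i ^ k • b i := by
    intro i k
    simpa using hb i k
  have htr : ∀ k : ℕ, ρ.character (x ^ k) = ∑ i, ζ i ^ k := fun k =>
    trace_of_diagonal b (ρ (x ^ k)) (fun i => ζ i ^ k) (fun i => hbn i k)
  have hgeo : ∀ i, ∑ k ∈ Finset.range 5, ζ i ^ k = if ζ i = 1 then 5 else 0 := by
    intro i
    split_ifs with h1
    · simp [h1]
    · have h2 : (ζ i - 1) * ∑ k ∈ Finset.range 5, ζ i ^ k = 0 := by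
        simp only [Finset.sum_range_succ, Finset.sum_range_zero]
        linear_combination hζ i
      exact (mul_eq_zero.mp h2).resolve_left (sub_ne_zero.mpr h1)
  have hsum : ∑ k ∈ Finset.range 5, ρ.character (x ^ k) =
      5 * ((Finset.univ.filter fun i => ζ i = 1).card : ℂ) := by
    simp_rw [htr]
    rw [Finset.sum_comm]
    simp_rw [hgeo]
    rw [Finset.sum_ite, Finset.sum_const, Finset.sum_const_zero, add_zero, nsmul_eq_mul]
    ring
  have hval : 4 + 4 * ρ.character x = 5 * ((Finset.univ.filter fun i => ζ i = 1).card : ℂ) := by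
    rw [← hsum]
    simp only [Finset.sum_range_succ, Finset.sum_range_zero, pow_zero, pow_one, hc2, hc3, hc4, h1c]
    push_cast
    ring
  have hint : IsIntegral ℤ (ρ.character x + 1) := by
    have h1 := IsCharacter.isIntegral' (IsIrrCharacter.isCharacter ψ.2) x
    rw [← hρ] at h1
    exact h1.add isIntegral_one
  have hdiv : (((5 * (Finset.univ.filter fun i => ζ i = 1).card : ℕ) : ℂ) / ((4 : ℕ) : ℂ)) = ρ.character x + 1 := by
    push_cast
    rw [← hval]
    ring
  have h4d : 4 ∣ 5 * (Finset.univ.filter fun i => ζ i = 1).card :=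
    nat_dvd_of_isIntegral_div (by norm_num) (by rw [hdiv]; exact hint)
  have hle4 : (Finset.univ.filter fun i => ζ i = 1).card ≤ 4 := by
    refine (Finset.card_filter_le _ _).trans ?_
    simp
  have hm : (Finset.univ.filter fun i => ζ i = 1).card = 0 ∨ (Finset.univ.filter fun i => ζ i = 1).card = 4 := by
    omega
  have hψ1 : ψ ≠ oneIrr G := by
    rintro rfl
    have h0 : ((oneIrr G : IrrCharacter G) : G → ℂ) 1 = 1 := rfl
    rw [h0] at hψ
    norm_num at hψ
  have hne := ne_of_involution ψ hψ1 hx1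
  have hm0 : (Finset.univ.filter fun i => ζ i = 1).card = 0 := by
    rcases hm with h0 | h0
    · exact h0
    · exfalso
      apply hne
      rw [hψ, ← hρ]
      rw [h0] at hval
      push_cast at hval
      linear_combination (1 / 4 : ℂ) * hval
  have hne1 : ∀ i, ζ i ≠ 1 := by
    intro i hi
    have h0 : i ∈ Finset.univ.filter fun i => ζ i = 1 := by simp [hi]
    rw [Finset.card_eq_zero.mp hm0] at h0
    simp at h0
  have hA : ∑ k ∈ Finset.range 5, ρ (x ^ k) = 0 := by
    apply b.ext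
    intro i
    rw [LinearMap.sum_apply]
    simp_rw [hbn i]
    rw [← Finset.sum_smul, hgeo i, if_neg (hne1 i), zero_smul]
    simp
  have hvan : ∀ z, ∑ k ∈ Finset.range 5, ρ.character (x ^ k * z) = 0 := by
    intro z
    have h1 : ∀ k : ℕ, ρ.character (x ^ k * z) = LinearMap.trace ℂ _ (ρ (x ^ k) * ρ z) := by
      intro k
      rw [← map_mul]
      rfl
    simp_rw [h1]
    rw [← map_sum, ← Finset.sum_mul, hA, zero_mul, map_zero]
  have hz0 : ∀ (z : G) (r : ℕ), z * x = x ^ r * z → ∀ (i t : ℤ), i * (1 - (r : ℤ)) = 1 + 5 * t →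
      ρ.character z = 0 := by
    intro z r hz i t hi
    have h1 : ∀ k : ℕ, ρ.character (x ^ k * z) = ρ.character z := by
      intro k
      rw [hconj z r hz i t hi k]
      exact hcls _ _
    have h2 := hvan z
    simp_rw [h1] at h2
    rw [Finset.sum_const, Finset.card_range, nsmul_eq_mul] at h2
    simpa using h2
  have h01 := hz0 (g ^ 5) (2 ^ 5) (hiter 5) 4 (-25) (by norm_num)
  have h02 := hz0 (g ^ 10) (2 ^ 10) (hiter 10) 3 (-614) (by norm_num)
  have h03 := hz0 (g ^ 15) (2 ^ 15) (hiter 15) 2 (-13107) (by norm_num)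
  obtain ⟨b', η, -, hb'⟩ := exists_eigenbasis_rep ρ (g ^ 5) (isOfFinOrder_of_finite _)
  have hbn' : ∀ (i) (k : ℕ), ρ ((g ^ 5) ^ k) (b' i) = η i ^ k • b' i := by
    intro i k
    simpa using hb' i k
  have htr' : ∀ k : ℕ, ρ.character ((g ^ 5) ^ k) = ∑ i, η i ^ k := fun k =>
    trace_of_diagonal b' (ρ ((g ^ 5) ^ k)) (fun i => η i ^ k) (fun i => hbn' i k)
  have hη4 : ∀ i, η i ^ 4 = 1 := by
    intro i
    have h1 := hbn' i 4
    have h2 : (g ^ 5) ^ 4 = 1 := by
      rw [← pow_mul]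
      exact hg20
    rw [h2, map_one] at h1
    have h3 : (1 : ℂ) • b' i = η i ^ 4 • b' i := by simpa using h1
    exact (smul_left_injective ℂ (b'.ne_zero i) h3).symm
  have hb1 : ∀ i, ρ (g ^ 5) (b' i) = η i • b' i := by
    intro i
    simpa using hbn' i 1
  have hdet1 : LinearMap.det (ρ (g ^ 5)) = ∏ i, η i := by
    rw [← LinearMap.det_toMatrix b' (ρ (g ^ 5))]
    have h0 : LinearMap.toMatrix b' b' (ρ (g ^ 5)) = Matrix.diagonal η := by
      ext i j
      rw [LinearMap.toMatrix_apply, hb1, map_smul, Module.Basis.repr_self, Finsupp.smul_apply,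
        Finsupp.single_apply, Matrix.diagonal_apply]
      by_cases h : i = j
      · subst h
        simp
      · simp [h, Ne.symm h]
    rw [h0, Matrix.det_diagonal]
  have hper := Lib.SmallSimple.BA.perfect_of_simple hnc (G := G)
  have hdet2 : LinearMap.det (ρ (g ^ 5)) = 1 := by
    rw [← detHom_apply, hper (detHom ρ)]
    simp
  let e : Fin 4 ≃ Fin (Module.finrank ℂ (Fin 4 → ℂ)) := finCongr (by simp)
  have hS : ∀ k : ℕ, ∑ i, η i ^ k = η (e 0) ^ k + η (e 1) ^ k + η (e 2) ^ k + η (e 3) ^ k := by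
    intro k
    rw [← Equiv.sum_comp e (fun i => η i ^ k), Fin.sum_univ_four]
  have hp1 := htr' 1
  have hp2 := htr' 2
  have hp3 := htr' 3
  rw [pow_one, h01, hS] at hp1
  rw [← pow_mul, show 5 * 2 = 10 by norm_num, h02, hS] at hp2
  rw [← pow_mul, show 5 * 3 = 15 by norm_num, h03, hS] at hp3
  have hprod : η (e 0) * η (e 1) * η (e 2) * η (e 3) = 1 := by
    rw [← hdet2, hdet1, ← Equiv.prod_comp e η, Fin.prod_univ_four]
  have h4a := hη4 (e 0)
  have h4b := hη4 (e 1)
  have h4c := hη4 (e 2)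
  have h4d' := hη4 (e 3)
  generalize η (e 0) = a at *
  generalize η (e 1) = b₁ at *
  generalize η (e 2) = c at *
  generalize η (e 3) = d at *
  simp only [pow_one] at hp1
  have h8 : (8 : ℂ) = 0 := by
    linear_combination (-(a + b₁ + c + d)) * hp3 + (a * b₁ + a * c + a * d + b₁ * c + b₁ * d + c * d) * hp2
      - (a * b₁ * c + a * b₁ * d + a * c * d + b₁ * c * d) * hp1 - h4a - h4b - h4c - h4d' - 4 * hprod
  norm_num at h8

open Classical in
theorem key720 (hnc : ¬ IsMulCommutative G) (h : Nat.card G = 720) [Fact (Nat.Prime 5)] {x : G}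
    (hx : orderOf x = 5) (hsyl : ¬ 5 ^ 2 ∣ Nat.card G)
    (hC : Nat.card (centralizer ({x} : Set G)) = 5)
    (hN : Nat.card (normalizer ((zpowers x : Subgroup G) : Set G)) = 20)
    (hchk1 : ∀ d, d ≤ 26 → d ∣ 720 → d ≠ 1 → d % 5 = 4 → d = 4 ∨ d = 9 ∨ d = 24)
    (hchk2 : ∀ d, d ≤ 26 → d ∣ 720 → d ≠ 1 → d % 5 = 1 → d = 6 ∨ d = 16) : False := by
  haveI : Fintype G := Fintype.ofFinite G
  obtain ⟨M, hM⟩ := exists_isPModular 5 (by norm_num)
  obtain ⟨deg, w, hdeg, hw1, hnorm, hw0, hreg, hcong⟩ :=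
    block_single (M := M) hM hx hsyl (by rw [hN, hC])
  have hdeg1 : deg (oneIrr G) = 1 := by
    have h2 : (1 : ℂ) = deg (oneIrr G) := (hdeg (oneIrr G)).1
    exact_mod_cast h2.symm
  have hdd : ip w (fun χ => (deg χ : ℤ)) = 0 := by
    have h1 := hreg 1 (by norm_num)
    simp only [(fun χ : IrrCharacter G => (hdeg χ).1)] at h1
    have h2 : ((ip w (fun χ => (deg χ : ℤ)) : ℤ) : ℂ) = 0 := by
      simp only [ip]
      push_cast
      exact h1
    exact_mod_cast h2
  have hdegsq : ip (fun χ : IrrCharacter G => (deg χ : ℤ)) (fun χ => (deg χ : ℤ)) = 720 := by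
    have h1 := sum_degree_sq (G := G)
    simp only [(fun χ : IrrCharacter G => (hdeg χ).1)] at h1
    rw [h] at h1
    have h2 : ((ip (fun χ : IrrCharacter G => (deg χ : ℤ)) (fun χ => (deg χ : ℤ)) : ℤ) : ℂ) = 720 := by
      simp only [ip]
      push_cast
      have h3 : (720 : ℂ) = ((720 : ℕ) : ℂ) := by norm_num
      rw [h3, ← h1]
      exact Finset.sum_congr rfl fun χ _ => by ring
    exact_mod_cast h2
  have hww : ip w w = 5 := by
    rw [hnorm]
    norm_num
  obtain ⟨S, hSdef⟩ : ∃ S : Finset (IrrCharacter G), S = Finset.univ.filter (fun χ => χ ≠ oneIrr G ∧ w χ ≠ 0) :=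
    ⟨_, rfl⟩
  have hmem : ∀ χ ∈ S, χ ≠ oneIrr G ∧ w χ ≠ 0 := by
    intro χ hχ
    rw [hSdef] at hχ
    simpa using hχ
  have hsplit : ∀ f : IrrCharacter G → ℤ, ∑ χ, w χ * f χ = w (oneIrr G) * f (oneIrr G) +
      ∑ χ ∈ S, w χ * f χ := by
    intro f
    rw [← Finset.add_sum_erase _ _ (Finset.mem_univ (oneIrr G))]
    congr 1
    apply (Finset.sum_subset _ _).symm
    · intro χ hχ
      have := hmem χ hχ
      simp [this.1]
    · intro χ hχ hχ'
      simp only [Finset.mem_erase, Finset.mem_univ, and_true] at hχ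
      rw [hSdef] at hχ'
      simp only [Finset.mem_filter, Finset.mem_univ, true_and, not_and, not_not] at hχ'
      rw [hχ' hχ, zero_mul]
  have hS2 : ∑ χ ∈ S, w χ * w χ = 4 := by
    have h1 := hsplit w
    have h2 : ∑ χ, w χ * w χ = 5 := hww
    rw [h2, hw1] at h1
    omega
  have hSd : ∑ χ ∈ S, w χ * (deg χ : ℤ) = 1 := by
    have h1 := hsplit (fun χ => (deg χ : ℤ))
    have h2 : ∑ χ, w χ * (deg χ : ℤ) = 0 := hdd
    rw [h2, hw1, hdeg1] at h1
    push_cast at h1
    omega
  have hsgn : ∀ χ ∈ S, w χ = 1 ∨ w χ = -1 := by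
    intro χ hχ
    obtain ⟨hχ1, hχ0⟩ := hmem χ hχ
    have h1 := pair_le_ip w hχ1
    rw [hww, hw1] at h1
    have h2 : w χ ≤ 2 := by nlinarith
    have h3 : -2 ≤ w χ := by nlinarith
    by_cases h4 : w χ = 1 ∨ w χ = -1
    · exact h4
    · exfalso
      have h5 : w χ * w χ = 4 := by
        have h6 : w χ = 2 ∨ w χ = -2 := by omega
        rcases h6 with h6 | h6 <;> rw [h6] <;> norm_num
      have hall : ∀ ψ ∈ S, ψ = χ := by
        intro ψ hψ
        by_contra hne
        have hsub : ({χ, ψ} : Finset (IrrCharacter G)) ⊆ S := by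
          intro a ha
          simp only [Finset.mem_insert, Finset.mem_singleton] at ha
          rcases ha with rfl | rfl <;> assumption
        have h6 := Finset.sum_le_sum_of_subset_of_nonneg hsub (f := fun i => w i * w i)
          (fun _ _ _ => mul_self_nonneg _)
        rw [Finset.sum_pair (Ne.symm hne), hS2, h5] at h6
        have h7 : w ψ * w ψ ≤ 0 := by linarith
        exact (hmem ψ hψ).2 (by nlinarith)
      have hSeq : S = {χ} := Finset.eq_singleton_iff_unique_mem.mpr ⟨hχ, hall⟩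
      rw [hSeq, Finset.sum_singleton] at hSd
      have h6 : w χ = 2 ∨ w χ = -2 := by omega
      rcases h6 with h6 | h6 <;> rw [h6] at hSd <;> omega
  have hcard : S.card = 3 + 1 := by
    have h1 : ∑ χ ∈ S, w χ * w χ = ∑ χ ∈ S, (1 : ℤ) := by
      refine Finset.sum_congr rfl fun χ hχ => ?_
      rcases hsgn χ hχ with h0 | h0 <;> rw [h0] <;> norm_num
    rw [hS2, Finset.sum_const, nsmul_eq_mul, mul_one] at h1
    have h2 : S.card = 4 := by exact_mod_cast h1.symm
    omega
  have hterm : ∀ χ ∈ S, (w χ * (deg χ : ℤ) = 9 ∧ (deg χ : ℤ) * (deg χ : ℤ) = 81) ∨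
      (w χ * (deg χ : ℤ) = 24 ∧ (deg χ : ℤ) * (deg χ : ℤ) = 576) ∨
      (w χ * (deg χ : ℤ) = -6 ∧ (deg χ : ℤ) * (deg χ : ℤ) = 36) ∨
      (w χ * (deg χ : ℤ) = -16 ∧ (deg χ : ℤ) * (deg χ : ℤ) = 256) := by
    intro χ hχ
    obtain ⟨hχ1, hχ0⟩ := hmem χ hχ
    have hB : χ ∈ principalBlock M G := by
      by_contra hcon
      exact hχ0 (hw0 χ hcon)
    have hform := hcong χ hB
    unfold Int.ModEq at hform
    push_cast at hform
    have hd1 : deg χ ≠ 1 := by
      intro hd
      apply Cfsg.Agent.Lib.SmallSimple.BL.degree_ne_one hnc χ hχ1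
      rw [(hdeg χ).1, hd]
      simp
    have hd4 : deg χ ≠ 4 := by
      intro hd
      refine no_deg4 hnc hx hC hN χ ?_
      rw [(hdeg χ).1, hd]
      norm_num
    have hdv : deg χ ∣ 720 := by
      rw [← h]
      exact (hdeg χ).2.2
    have hsq := pair_le_ip (fun χ : IrrCharacter G => (deg χ : ℤ)) hχ1
    rw [hdegsq] at hsq
    simp only [hdeg1] at hsq
    have hle : deg χ ≤ 26 := by
      by_contra hcon
      have h27 : (27 : ℤ) ≤ deg χ := by exact_mod_cast (by omega : 27 ≤ deg χ)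
      push_cast at hsq
      nlinarith
    rcases hsgn χ hχ with h0 | h0
    · rw [h0] at hform ⊢
      have hmod : deg χ % 5 = 4 := by omega
      rcases hchk1 _ hle hdv hd1 hmod with h7 | h7 | h7
      · exact absurd h7 hd4
      · rw [h7]; norm_num
      · rw [h7]; norm_num
    · rw [h0] at hform ⊢
      have hmod : deg χ % 5 = 1 := by omega
      rcases hchk2 _ hle hdv hd1 hmod with h7 | h7 <;> rw [h7] <;> norm_num
  have hsq : ∑ χ ∈ S, (deg χ : ℤ) * (deg χ : ℤ) ≤ 720 := by
    rw [← hdegsq]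
    exact Finset.sum_le_sum_of_subset_of_nonneg (Finset.subset_univ S)
      (fun _ _ _ => mul_self_nonneg _)
  obtain ⟨a, t, hat, hins, ht3⟩ := Finset.card_eq_succ.mp hcard
  obtain ⟨b, c, d, hbc, hbd, hcd, ht⟩ := Finset.card_eq_three.mp ht3
  subst ht
  have ha : a ∈ S := by rw [← hins]; simp
  have hb : b ∈ S := by rw [← hins]; simp
  have hc : c ∈ S := by rw [← hins]; simp
  have hd : d ∈ S := by rw [← hins]; simp
  rw [← hins, Finset.sum_insert hat, Finset.sum_insert (by simp [hbc, hbd]), Finset.sum_insert (by simp [hcd]),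
    Finset.sum_singleton] at hSd hsq
  rcases hterm a ha with ⟨h5, h5'⟩ | ⟨h5, h5'⟩ | ⟨h5, h5'⟩ | ⟨h5, h5'⟩ <;>
  rcases hterm b hb with ⟨h6, h6'⟩ | ⟨h6, h6'⟩ | ⟨h6, h6'⟩ | ⟨h6, h6'⟩ <;>
  rcases hterm c hc with ⟨h7, h7'⟩ | ⟨h7, h7'⟩ | ⟨h7, h7'⟩ | ⟨h7, h7'⟩ <;>
  rcases hterm d hd with ⟨h8, h8'⟩ | ⟨h8, h8'⟩ | ⟨h8, h8'⟩ | ⟨h8, h8'⟩ <;> omega

theorem chk720a : ∀ d, d ≤ 26 → d ∣ 720 → d ≠ 1 → d % 5 = 4 → d = 4 ∨ d = 9 ∨ d = 24 := by
  intro d hd
  interval_cases d <;> decide

theorem chk720b : ∀ d, d ≤ 26 → d ∣ 720 → d ≠ 1 → d % 5 = 1 → d = 6 ∨ d = 16 := by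
  intro d hd
  interval_cases d <;> decide

theorem no720 (hnc : ¬ IsMulCommutative G) (h : Nat.card G = 720) : False := by
  haveI : Fact (Nat.Prime 5) := ⟨by norm_num⟩
  obtain ⟨h1, h2, h3, h4, P, x, hx, hz, e, k, he, he1, hk, hk0, hNe, hn⟩ :=
    prime_data (G := G) 5 144 (by norm_num) (by rw [h]; norm_num) hnc
  have hn' : ∀ n, n ≤ 144 → n ∣ 144 → n % 5 = 1 → n ≠ 1 → n = 6 ∨ n = 16 ∨ n = 36 := by decide +kernel
  have he4 : e ∣ 4 := he
  have hee : e = 2 ∨ e = 4 := by
    have : ∀ e, e ≤ 4 → e ∣ 4 → e ≠ 1 → e = 2 ∨ e = 4 := by decide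
    exact this e (Nat.le_of_dvd (by norm_num) he4) he4 he1
  have hsyl : ¬ 5 ^ 2 ∣ Nat.card G := by rw [h]; norm_num
  rcases hn' _ (Nat.le_of_dvd (by norm_num) h1) h1 h2 h3 with h6 | h6 | h6
  · rw [h6, h] at h4
    revert h4
    decide +kernel
  · rw [h6, h] at hn
    rcases hee with rfl | rfl <;> omega
  · rw [h6, h] at hn
    rcases hee with rfl | rfl
    · have hk2 : k = 2 := by omega
      subst hk2
      refine two_char 5 (by norm_num) hnc hx hsyl hNe (by rw [hk]; norm_num) ?_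
      rw [h]
      decide +kernel
    · have hk1 : k = 1 := by omega
      subst hk1
      exact key720 hnc h hx hsyl hk (by rw [hNe, hk]) chk720a chk720b

end Cfsg.Agent.Lib.Cl.SO
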