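import Cfsg.Agent.Lib.Cl.SO1
import Cfsg.Agent.Lib.Cl.SO2
import Cfsg.Agent.Lib.Cl.SO3
import Cfsg.Agent.Lib.Char.Burnside
import Cfsg.Agent.Lib.Classical.Basic
import Cfsg.Agent.S0998
import Cfsg.Agent.S0999
import Mathlib

/-! # Simple groups of order at most 1092: the dispatch -/

set_option autoImplicit false
set_option linter.unusedSectionVars false
set_option linter.unusedVariables false

namespace Cfsg.Agent.Lib.Cl.SO

open Cfsg Subgroup

universe u

theorem card_bound (F : Type) [Field F] [Fintype F] {G : Type u} [Group G] [Finite G]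
    (e : G ≃* Matrix.ProjectiveSpecialLinearGroup (Fin 2) F) {q : ℕ} (hq : Fintype.card F = q) :
    Nat.gcd 2 (q - 1) * ((q - 1) * Nat.card G) = (q ^ 2 - 1) * (q ^ 2 - q) := by
  have h := Lib.Classical.card_PSL (F := F) hq 2 (by norm_num)
  rw [Fin.prod_univ_two] at h
  simp only [Fin.val_zero, Fin.val_one, pow_zero, pow_one] at h
  rw [Nat.card_congr e.toEquiv]
  exact h

theorem large_psl (F : Type) [Field F] [Fintype F] {G : Type u} [Group G] [Finite G]
    (e : G ≃* Matrix.ProjectiveSpecialLinearGroup (Fin 2) F) {q : ℕ} (hq : Fintype.card F = q)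
    (h16 : 16 ≤ q) : 1092 < Nat.card G := by
  have h1 := card_bound F e hq
  obtain ⟨r, rfl⟩ : ∃ r, q = r + 1 := ⟨q - 1, by omega⟩
  have hr : 15 ≤ r := by omega
  have e1 : r + 1 - 1 = r := by omega
  have e2 : (r + 1) ^ 2 - 1 = r * (r + 2) := by
    have : (r + 1) ^ 2 = r * (r + 2) + 1 := by ring
    omega
  have e3 : (r + 1) ^ 2 - (r + 1) = (r + 1) * r := by
    have : (r + 1) ^ 2 = (r + 1) * r + (r + 1) := by ring
    omega
  rw [e1, e2, e3] at h1
  have hg : Nat.gcd 2 r ≤ 2 := Nat.gcd_le_left _ (by norm_num)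
  by_contra hc
  have hc' : Nat.card G ≤ 1092 := by omega
  have h2 : Nat.gcd 2 r * Nat.card G = (r + 2) * ((r + 1) * r) := by
    apply Nat.eq_of_mul_eq_mul_left (show 0 < r by omega)
    calc r * (Nat.gcd 2 r * Nat.card G) = Nat.gcd 2 r * (r * Nat.card G) := by ring
      _ = r * (r + 2) * ((r + 1) * r) := h1
      _ = r * ((r + 2) * ((r + 1) * r)) := by ring
  have h3 : Nat.gcd 2 r * Nat.card G ≤ 2 * 1092 := Nat.mul_le_mul hg hc'
  have h4 : 17 * (16 * 15) ≤ (r + 2) * ((r + 1) * r) :=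
    Nat.mul_le_mul (by omega) (Nat.mul_le_mul (by omega) hr)
  omega

theorem psl_exact (F : Type) [Field F] [Fintype F] {G : Type u} [Group G] [Finite G]
    (e : G ≃* Matrix.ProjectiveSpecialLinearGroup (Fin 2) F) {q c : ℕ} (hq : Fintype.card F = q)
    (hc : Nat.gcd 2 (q - 1) * ((q - 1) * c) = (q ^ 2 - 1) * (q ^ 2 - q)) (hq1 : 0 < Nat.gcd 2 (q - 1) * (q - 1)) :
    Nat.card G = c := by
  have h1 := card_bound F e hq
  rw [← hc, ← mul_assoc, ← mul_assoc] at h1
  exact Nat.eq_of_mul_eq_mul_left hq1 h1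

set_option synthInstance.maxSize 100000 in
set_option synthInstance.maxHeartbeats 0 in
theorem chkcat : ∀ n : ℕ, n ≤ 1092 → 0 < n →
    (1 < n / Nat.gcd n (210 ^ 10) ∧ Nat.Coprime (n / Nat.gcd n (210 ^ 10)) 210) ∨
    n % 4 = 2 ∨
    (∃ p ∈ [2, 3, 5, 7], ∃ q ∈ [2, 3, 5, 7], ∃ a ∈ List.range 11, ∃ b ∈ List.range 11, n = p ^ a * q ^ b) ∨
    (∃ p ∈ [2, 3, 5, 7], ∃ q ∈ [2, 3, 5, 7], ∃ r ∈ [2, 3, 5, 7], p ≠ q ∧ p ≠ r ∧ q ≠ r ∧
      ∃ b ∈ List.range 11, n = p * r * q ^ b) ∨
    n = 180 ∨ n = 252 ∨ n = 300 ∨ n = 360 ∨ n = 420 ∨ n = 504 ∨ n = 540 ∨ n = 588 ∨ n = 600 ∨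
    n = 700 ∨ n = 720 ∨ n = 756 ∨ n = 840 ∨ n = 900 ∨ n = 980 ∨ n = 1008 ∨ n = 1080 := by
  decide +kernel

variable {G : Type u} [Group G] [Finite G] [IsSimpleGroup G]

/-- All cases but the order 720. -/
theorem dispatch (hG : ¬ IsMulCommutative G) (h : Nat.card G ≤ 1092) (h720 : Nat.card G ≠ 720) :
    Nat.card G = 60 ∨ Nat.card G = 168 ∨ Nat.card G = 360 ∨ Nat.card G = 504 ∨ Nat.card G = 660 ∨
      Nat.card G = 1092 := by
  classical
  haveI : Fintype G := Fintype.ofFinite G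
  have hcyc : ¬ IsCyclic G := by
    intro hc
    apply hG
    obtain ⟨g, hg⟩ := hc
    refine ⟨⟨fun a b => ?_⟩⟩
    obtain ⟨i, rfl⟩ := mem_zpowers_iff.mp (hg a)
    obtain ⟨j, rfl⟩ := mem_zpowers_iff.mp (hg b)
    exact (Commute.refl g).zpow_zpow i j
  have hbig : ∀ p : ℕ, p.Prime → 11 ≤ p → p ∣ Nat.card G →
      Nat.card G = 660 ∨ Nat.card G = 1092 := by
    intro p hp hp11 hd
    have hcube : Nat.card G < p ^ 3 := by
      calc Nat.card G ≤ 1092 := h
        _ < 11 ^ 3 := by norm_num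
        _ ≤ p ^ 3 := Nat.pow_le_pow_left hp11 3
    rcases Cfsg.Agent.S0999.result hcyc p hp hd hcube with ⟨F, _, _, hF, h3, ⟨e⟩⟩ | ⟨m, F, _, _, hF, hpm, h3, ⟨e⟩⟩
    · by_cases h16 : 16 ≤ p
      · exact absurd h (not_le.mpr (large_psl F e hF h16))
      · have hlt : p < 16 := by omega
        interval_cases p
        · exact Or.inl (psl_exact F e hF (by norm_num) (by norm_num))
        · exact absurd hp (by norm_num)
        · exact Or.inr (psl_exact F e hF (by norm_num) (by norm_num))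
        · exact absurd hp (by norm_num)
        · exact absurd hp (by norm_num)
    · have hm4 : 4 ≤ m := by
        by_contra hm
        have h4 : m ≤ 3 := by omega
        have h5 := Nat.pow_le_pow_right (show 0 < 2 by norm_num) h4
        omega
      have hq : 16 ≤ 2 ^ m := by
        calc 16 = 2 ^ 4 := by norm_num
          _ ≤ 2 ^ m := Nat.pow_le_pow_right (by norm_num) hm4
      exact absurd h (not_le.mpr (large_psl F e hF hq))
  have hsolv : ¬ Group.IsSolvable G := by
    intro hs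
    apply hG
    exact ⟨⟨IsSimpleGroup.comm_iff_isSolvable.mpr hs⟩⟩
  have hL : ∀ p ∈ [2, 3, 5, 7], Nat.Prime p := by
    intro p hp
    simp only [List.mem_cons, List.not_mem_nil, or_false] at hp
    rcases hp with rfl | rfl | rfl | rfl <;> norm_num
  have hcat := chkcat
  rcases hcat _ h Nat.card_pos with ⟨h1, hco⟩ | h4 | ⟨p, hp, q, hq, a, -, b, -, hn⟩ |
      ⟨p, hp, q, hq, r, hr, hpq, hpr, hqr, b, -, hn⟩ | hs
  · -- a prime at least 11
    have hdvd : Nat.card G / Nat.gcd (Nat.card G) (210 ^ 10) ∣ Nat.card G :=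
      Nat.div_dvd_of_dvd (Nat.gcd_dvd_left _ _)
    set d := Nat.card G / Nat.gcd (Nat.card G) (210 ^ 10) with hd
    have hpr : (Nat.minFac d).Prime := Nat.minFac_prime (by omega)
    have hmd : Nat.minFac d ∣ d := Nat.minFac_dvd d
    have hcop : Nat.Coprime (Nat.minFac d) 210 := Nat.Coprime.coprime_dvd_left hmd hco
    have h11 : 11 ≤ Nat.minFac d := by
      by_contra hlt
      have hchk : ∀ p, p < 11 → 2 ≤ p → ¬ Nat.Coprime p 210 := by decide
      exact hchk _ (by omega) hpr.two_le hcop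
    rcases hbig _ hpr h11 (hmd.trans hdvd) with h0 | h0
    · exact Or.inr (Or.inr (Or.inr (Or.inr (Or.inl h0))))
    · exact Or.inr (Or.inr (Or.inr (Or.inr (Or.inr h0))))
  · -- an involution acting without fixed points
    exfalso
    obtain ⟨t, ht⟩ := exists_prime_orderOf_dvd_card' (G := G) 2 (by omega)
    have ht2 : t ^ 2 = 1 := by rw [← ht]; exact pow_orderOf_eq_one t
    have ht1 : t ≠ 1 := by
      rintro rfl
      simp at ht
    have hev := Lib.SmallSimple.even_moved_of_involution hG (MulAction.toPermHom G G) t ht2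
    haveI : IsEmpty (Function.fixedPoints (MulAction.toPermHom G G t)) := by
      refine ⟨fun a => ht1 ?_⟩
      have h0 : t * (a : G) = a := a.2
      exact mul_eq_right.mp h0
    have h00 : Nat.card (Function.fixedPoints (MulAction.toPermHom G G t)) = 0 := Nat.card_of_isEmpty
    rw [h00] at hev
    obtain ⟨r, hr⟩ := hev
    omega
  · -- two primes
    exact absurd (Cfsg.Agent.Lib.Char.isSolvable_of_card_eq_prime_pow_mul_prime_pow _ G p q a b (hL p hp) (hL q hq) rfl hn) hsolv
  · -- three primes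
    rcases Cfsg.Agent.S0998.result hcyc p q r b (hL p hp) (hL q hq) (hL r hr) hpq hpr hqr hn with
      ⟨F, _, _, hF, ⟨e⟩⟩ | ⟨F, _, _, hF, ⟨e⟩⟩
    · exact Or.inl (psl_exact F e hF (by norm_num) (by norm_num))
    · exact Or.inr (Or.inl (psl_exact F e hF (by norm_num) (by norm_num)))
  · rcases hs with hs | hs | hs | hs | hs | hs | hs | hs | hs | hs | hs | hs | hs | hs | hs | hs | hs
    · exact absurd hs (fun h0 => no180 hG h0)
    · exact absurd hs (fun h0 => no252 hG h0)
    · exact absurd hs (fun h0 => no300 hG h0)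
    · exact Or.inr (Or.inr (Or.inl hs))
    · exact absurd hs (fun h0 => no420 hG h0)
    · exact Or.inr (Or.inr (Or.inr (Or.inl hs)))
    · exact absurd hs (fun h0 => no540 hG h0)
    · exact absurd hs (fun h0 => no588 hG h0)
    · exact absurd hs (fun h0 => no600 hG h0)
    · exact absurd hs (fun h0 => no700 hG h0)
    · exact absurd hs h720
    · exact absurd hs (fun h0 => no756 hG h0)
    · exact absurd hs (fun h0 => no840 hG h0)
    · exact absurd hs (fun h0 => no900 hG h0)
    · exact absurd hs (fun h0 => no980 hG h0)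
    · exact absurd hs (fun h0 => no1008 hG h0)
    · exact absurd hs (fun h0 => no1080 hG h0)

end Cfsg.Agent.Lib.Cl.SO
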