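import Mathlib
import Cfsg.Prelude.Def_KGroupFacts
import Cfsg.Agent.Lib.Schur.Basic

/-!
# Uniqueness of the Schur cover when the abelianization is coprime to the multiplier
-/

set_option autoImplicit false

universe u v

namespace Cfsg.Agent.Lib.Cl.SchurUniq

open Cfsg Subgroup Cfsg.Agent.Lib.Schur
open scoped commutatorElement

section Stem

variable {Q : Type*} [Group Q]

/-- A subgroup mapping onto `Q` in a stem extension is everything. -/
theorem eq_top_of_stem {Γ : Type*} [Group Γ] (σ : Γ →* Q) (hσ : IsStemExtension σ) (S : Subgroup Γ)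
    (hS : ∀ q, ∃ s ∈ S, σ s = q) : S = ⊤ := by
  obtain ⟨hs, hz, hc⟩ := hσ
  have hfac : ∀ g, ∃ s ∈ S, ∃ a ∈ σ.ker, g = s * a := by
    intro g
    obtain ⟨s, hs', hsg⟩ := hS (σ g)
    exact ⟨s, hs', s⁻¹ * g, by simp [MonoidHom.mem_ker, hsg], by group⟩
  have hcomm : commutator Γ ≤ S := by
    rw [_root_.commutator_def, Subgroup.commutator_le]
    intro a _ b _
    obtain ⟨s, hs', x, hx, rfl⟩ := hfac a
    obtain ⟨t, ht, y, hy, rfl⟩ := hfac b
    rw [comm_mul_central (hz hx) (hz hy), commutatorElement_def]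
    exact S.mul_mem (S.mul_mem (S.mul_mem hs' ht) (S.inv_mem hs')) (S.inv_mem ht)
  rw [eq_top_iff]
  intro g _
  obtain ⟨s, hs', a, ha, rfl⟩ := hfac g
  exact S.mul_mem hs' (hcomm (hc ha))

/-- The subgroup of `x` with `x ^ e ∈ [D, D]`. -/
def hH (D : Type*) [Group D] (e : ℕ) : Subgroup D :=
  ((powMonoidHom e : Abelianization D →* Abelianization D).comp Abelianization.of).ker

theorem mem_hH {D : Type*} [Group D] {e : ℕ} {x : D} :
    x ∈ hH D e ↔ (Abelianization.of x) ^ e = 1 := by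
  rw [hH, MonoidHom.mem_ker]
  rfl

variable {D : Type*} [Group D] [Finite Q]

theorem stem_core (τ : D →* Q) (hτ : Function.Surjective τ) (hz : τ.ker ≤ center D) {n : ℕ}
    (hn : ∀ z ∈ τ.ker, z ^ n = 1) (hco : Nat.Coprime (Nat.card (Abelianization Q)) n) :
    IsStemExtension (τ.comp (hH D (Nat.card (Abelianization Q))).subtype) ∧
      ∀ x : D, ∃ h ∈ hH D (Nat.card (Abelianization Q)), ∃ z ∈ τ.ker, x = h * z := by
  classical
  set e := Nat.card (Abelianization Q) with he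
  have hcomm_map : (commutator D).map τ = commutator Q := by
    rw [_root_.commutator_def, _root_.commutator_def, Subgroup.map_commutator,
      ← MonoidHom.range_eq_map, MonoidHom.range_eq_top.mpr hτ]
  have hfac : ∀ x : D, ∃ h ∈ hH D e, ∃ z ∈ τ.ker, x = h * z := by
    intro x
    have h1 : Abelianization.of (τ x) ^ e = 1 := pow_card_eq_one'
    have h2 : (τ x) ^ e ∈ commutator Q := by
      rw [← Abelianization.ker_of, MonoidHom.mem_ker, map_pow, h1]
    rw [← hcomm_map] at h2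
    obtain ⟨d, hd, hdx⟩ := h2
    set z₀ := d⁻¹ * x ^ e with hz₀
    have hz₀k : z₀ ∈ τ.ker := by
      rw [MonoidHom.mem_ker, hz₀, map_mul, map_inv, hdx, map_pow]
      simp
    have hcop : Nat.Coprime e (orderOf z₀) :=
      Nat.Coprime.coprime_dvd_right (orderOf_dvd_of_pow_eq_one (hn _ hz₀k)) hco
    obtain ⟨u, hu⟩ := exists_pow_eq_self_of_coprime hcop
    set w := z₀ ^ u with hw
    have hwk : w ∈ τ.ker := τ.ker.pow_mem hz₀k u
    have hwe : w ^ e = z₀ := by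
      rw [hw, ← pow_mul, mul_comm, pow_mul, hu]
    refine ⟨x * w⁻¹, ?_, w, hwk, by group⟩
    rw [mem_hH]
    have hcen : Commute x w := Subgroup.mem_center_iff.mp (hz hwk) x
    have hinv : (w⁻¹) ^ e = z₀⁻¹ := by rw [inv_pow, hwe]
    have h3 : (x * w⁻¹) ^ e = d := by
      rw [(hcen.inv_right).mul_pow, hinv, hz₀]
      group
    rw [← map_pow, h3, ← MonoidHom.mem_ker, Abelianization.ker_of]
    exact hd
  refine ⟨⟨?_, ?_, ?_⟩, hfac⟩
  · intro q
    obtain ⟨x, rfl⟩ := hτ q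
    obtain ⟨h, hh, z, hzk, rfl⟩ := hfac x
    refine ⟨⟨h, hh⟩, ?_⟩
    rw [map_mul, MonoidHom.mem_ker.mp hzk, mul_one]
    rfl
  · rintro ⟨h, hh⟩ hk
    rw [Subgroup.mem_center_iff]
    rintro ⟨g, hg⟩
    apply Subtype.ext
    exact Subgroup.mem_center_iff.mp (hz hk) g
  · rintro ⟨h, hh⟩ hk
    have hk' : h ∈ τ.ker := hk
    have h1 : Abelianization.of h ^ e = 1 := mem_hH.mp hh
    have h2 : Abelianization.of h ^ n = 1 := by rw [← map_pow, hn h hk', map_one]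
    have h3 : orderOf (Abelianization.of h) = 1 :=
      Nat.eq_one_of_dvd_coprimes hco (orderOf_dvd_of_pow_eq_one h1) (orderOf_dvd_of_pow_eq_one h2)
    have h4 : h ∈ commutator D := by
      rw [← Abelianization.ker_of, MonoidHom.mem_ker]
      exact orderOf_eq_one_iff.mp h3
    have h5 : commutator D ≤ (commutator (hH D e)).map (hH D e).subtype := by
      rw [_root_.commutator_def (G := D), Subgroup.commutator_le]
      intro a _ b _
      obtain ⟨s, hs, x, hx, rfl⟩ := hfac a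
      obtain ⟨t, ht, y, hy, rfl⟩ := hfac b
      rw [comm_mul_central (hz hx) (hz hy)]
      refine ⟨⁅(⟨s, hs⟩ : hH D e), (⟨t, ht⟩ : hH D e)⁆, ?_, rfl⟩
      exact Subgroup.commutator_mem_commutator (mem_top _) (mem_top _)
    obtain ⟨h', hh', hh'e⟩ := h5 h4
    have : h' = ⟨h, hh⟩ := Subtype.ext hh'e
    rw [← this]
    exact hh'

/-- The key bijectivity. -/
theorem bij_of_stem {Γ H : Type*} [Group Γ] [Group H] [Finite Γ] [Finite H] (σ : Γ →* Q) (hσ : IsStemExtension σ)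
    (τ : H →* Q) (hτ : Function.Surjective τ) (π : H →* Γ) (hπ : σ.comp π = τ)
    (hcard : Nat.card τ.ker ≤ Nat.card σ.ker) : Function.Bijective π := by
  classical
  have hsurj : Function.Surjective π := by
    have h1 : π.range = ⊤ := by
      apply eq_top_of_stem σ hσ
      intro q
      obtain ⟨x, rfl⟩ := hτ q
      refine ⟨π x, ⟨x, rfl⟩, ?_⟩
      rw [← hπ]
      rfl
    exact MonoidHom.range_eq_top.mp h1
  refine ⟨?_, hsurj⟩
  rw [injective_iff_map_eq_one]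
  intro h hh
  have hk : τ h = 1 := by
    rw [← hπ, MonoidHom.comp_apply, hh, map_one]
  let f : τ.ker → σ.ker := fun x => ⟨π x, by
    rw [MonoidHom.mem_ker, ← MonoidHom.comp_apply, hπ]
    exact x.2⟩
  have hf : Function.Surjective f := by
    rintro ⟨b, hb⟩
    obtain ⟨x, rfl⟩ := hsurj b
    refine ⟨⟨x, ?_⟩, rfl⟩
    rw [MonoidHom.mem_ker, ← hπ]
    exact hb
  have hbij := hf.bijective_of_nat_card_le hcard
  have h2 : f ⟨h, hk⟩ = f 1 := by
    apply Subtype.ext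
    show π h = π 1
    rw [hh, map_one]
  have h3 := hbij.1 h2
  exact congrArg Subtype.val h3

end Stem

/-- **Uniqueness of the Schur cover under the coprimality.** -/
theorem exists_equiv_of_coprime {Q : Type u} [Group Q] [Finite Q] {A : Type v} [CommGroup A]
    (hA : HasSchurMultiplier Q A)
    (hco : Nat.Coprime (Nat.card (Abelianization Q)) (Nat.card A))
    (Γ₁ Γ₂ : Type u) [Group Γ₁] [Finite Γ₁] [Group Γ₂] [Finite Γ₂] (σ₁ : Γ₁ →* Q) (σ₂ : Γ₂ →* Q)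
    (h₁ : IsStemExtension σ₁) (h₂ : IsStemExtension σ₂) (k₁ : Nonempty (σ₁.ker ≃* A))
    (k₂ : Nonempty (σ₂.ker ≃* A)) : ∃ e : Γ₁ ≃* Γ₂, σ₂.comp e.toMonoidHom = σ₁ := by
  classical
  obtain ⟨ε₁⟩ := k₁
  obtain ⟨ε₂⟩ := k₂
  have hcard₁ : Nat.card σ₁.ker = Nat.card A := Nat.card_congr ε₁.toEquiv
  have hcard₂ : Nat.card σ₂.ker = Nat.card A := Nat.card_congr ε₂.toEquiv
  haveI hfinA : Finite A := Finite.of_equiv _ ε₁.toEquiv
  let Δ : Subgroup (Γ₁ × Γ₂) := MonoidHom.eqLocus (σ₁.comp (MonoidHom.fst Γ₁ Γ₂)) (σ₂.comp (MonoidHom.snd Γ₁ Γ₂))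
  have hΔ : ∀ x : Δ, σ₁ (x : Γ₁ × Γ₂).1 = σ₂ (x : Γ₁ × Γ₂).2 := fun x => x.2
  let τ : Δ →* Q := (σ₁.comp (MonoidHom.fst Γ₁ Γ₂)).comp Δ.subtype
  have hτapp : ∀ x : Δ, τ x = σ₁ (x : Γ₁ × Γ₂).1 := fun x => rfl
  have hτs : Function.Surjective τ := by
    intro q
    obtain ⟨a, ha⟩ := h₁.1 q
    obtain ⟨b, hb⟩ := h₂.1 q
    exact ⟨⟨(a, b), by
      show σ₁ a = σ₂ b
      rw [ha, hb]⟩, ha⟩
  have hker : ∀ x : Δ, x ∈ τ.ker → (x : Γ₁ × Γ₂).1 ∈ σ₁.ker ∧ (x : Γ₁ × Γ₂).2 ∈ σ₂.ker := by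
    intro x hx
    have h1 : σ₁ (x : Γ₁ × Γ₂).1 = 1 := hx
    refine ⟨h1, ?_⟩
    show σ₂ (x : Γ₁ × Γ₂).2 = 1
    rw [← hΔ x, h1]
  have hτz : τ.ker ≤ center Δ := by
    intro x hx
    rw [Subgroup.mem_center_iff]
    intro y
    apply Subtype.ext
    obtain ⟨h1, h2⟩ := hker x hx
    apply Prod.ext
    · exact Subgroup.mem_center_iff.mp (h₁.2.1 h1) (y : Γ₁ × Γ₂).1
    · exact Subgroup.mem_center_iff.mp (h₂.2.1 h2) (y : Γ₁ × Γ₂).2
  have hτn : ∀ z ∈ τ.ker, z ^ (Nat.card A) = 1 := by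
    intro z hz
    obtain ⟨h1, h2⟩ := hker z hz
    apply Subtype.ext
    apply Prod.ext
    · have h3 : ((⟨_, h1⟩ : σ₁.ker) ^ Nat.card σ₁.ker) = 1 := pow_card_eq_one'
      rw [hcard₁] at h3
      exact congrArg Subtype.val h3
    · have h3 : ((⟨_, h2⟩ : σ₂.ker) ^ Nat.card σ₂.ker) = 1 := pow_card_eq_one'
      rw [hcard₂] at h3
      exact congrArg Subtype.val h3
  obtain ⟨hstem, -⟩ := SchurUniq.stem_core τ hτs hτz hτn hco
  set H := SchurUniq.hH Δ (Nat.card (Abelianization Q)) with hH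
  obtain ⟨π, hπ⟩ := hA.2 H (τ.comp H.subtype) hstem
  have hcardH : Nat.card (τ.comp H.subtype).ker ≤ Nat.card A := Nat.card_le_card_of_surjective _ hπ
  let p₁ : H →* Γ₁ := (MonoidHom.fst Γ₁ Γ₂).comp (Δ.subtype.comp H.subtype)
  let p₂ : H →* Γ₂ := (MonoidHom.snd Γ₁ Γ₂).comp (Δ.subtype.comp H.subtype)
  have hp₁ : σ₁.comp p₁ = τ.comp H.subtype := rfl
  have hp₂ : σ₂.comp p₂ = τ.comp H.subtype := by
    ext x
    exact (hΔ x).symm
  have hb₁ : Function.Bijective p₁ :=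
    SchurUniq.bij_of_stem σ₁ h₁ (τ.comp H.subtype) hstem.1 p₁ hp₁ (by rw [hcard₁]; exact hcardH)
  have hb₂ : Function.Bijective p₂ :=
    SchurUniq.bij_of_stem σ₂ h₂ (τ.comp H.subtype) hstem.1 p₂ hp₂ (by rw [hcard₂]; exact hcardH)
  let e₁ := MulEquiv.ofBijective p₁ hb₁
  let e₂ := MulEquiv.ofBijective p₂ hb₂
  refine ⟨e₁.symm.trans e₂, ?_⟩
  ext g
  obtain ⟨h, rfl⟩ := hb₁.2 g
  have h1 : e₁.symm (p₁ h) = h := e₁.symm_apply_apply h
  show σ₂ (e₂ (e₁.symm (p₁ h))) = σ₁ (p₁ h)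
  rw [h1]
  have h2 := congrFun (congrArg DFunLike.coe (hp₁.trans hp₂.symm)) h
  exact h2.symm


section Converse

variable {Q : Type*} [Group Q] {Γ : Type*} [Group Γ] (σ : Γ →* Q) {m : ℕ} (T : Q →* Multiplicative (ZMod m))

/-- Reduction mod `m`. -/
def zeta (m : ℕ) : Multiplicative ℤ →* Multiplicative (ZMod m) :=
  AddMonoidHom.toMultiplicative (Int.castAddHom (ZMod m))

theorem zeta_ofAdd (k : ℤ) : zeta m (Multiplicative.ofAdd k) = Multiplicative.ofAdd (k : ZMod m) := rfl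

/-- The pullback of `T ∘ σ` along reduction mod `m`. -/
def sS : Subgroup (Γ × Multiplicative ℤ) :=
  MonoidHom.eqLocus (T.comp (σ.comp (MonoidHom.fst _ _))) ((zeta m).comp (MonoidHom.snd _ _))

theorem mem_sS {x : Γ × Multiplicative ℤ} : x ∈ sS σ T ↔ T (σ x.1) = zeta m x.2 := Iff.rfl

theorem exists_lift_sS (g : Γ) : ∃ k : Multiplicative ℤ, (g, k) ∈ sS σ T := by
  obtain ⟨k, hk⟩ := ZMod.intCast_surjective (Multiplicative.toAdd (T (σ g)))
  refine ⟨Multiplicative.ofAdd k, ?_⟩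
  rw [mem_sS]
  show T (σ g) = Multiplicative.ofAdd (k : ZMod m)
  rw [hk]
  rfl

variable (a₀ : σ.ker)

/-- The generator of the central subgroup killed. -/
def theta : sS σ T := ⟨((a₀ : Γ)⁻¹, Multiplicative.ofAdd (m : ℤ)), by
  rw [mem_sS]
  have h1 : σ (a₀ : Γ) = 1 := a₀.2
  show T (σ (a₀ : Γ)⁻¹) = Multiplicative.ofAdd (((m : ℤ)) : ZMod m)
  rw [map_inv, h1]
  simp⟩

/-- The central subgroup killed. -/
def zZ : Subgroup (sS σ T) := zpowers (theta σ T a₀)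

theorem theta_zpow (l : ℤ) : (((theta σ T a₀) ^ l : sS σ T) : Γ × Multiplicative ℤ) =
    (((a₀ : Γ)) ^ (-l), Multiplicative.ofAdd (l * m)) := by
  apply Prod.ext
  · show (((a₀ : Γ)⁻¹)) ^ l = _
    rw [inv_zpow, zpow_neg]
  · show (Multiplicative.ofAdd (m : ℤ)) ^ l = _
    rw [← ofAdd_zsmul, smul_eq_mul]

theorem zZ_normal (hz : σ.ker ≤ center Γ) : (zZ σ T a₀).Normal := by
  apply normal_of_le_center'
  rw [zZ, zpowers_le, Subgroup.mem_center_iff]
  intro y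
  apply Subtype.ext
  apply Prod.ext
  · have h1 : ((a₀ : Γ))⁻¹ ∈ σ.ker := σ.ker.inv_mem a₀.2
    exact Subgroup.mem_center_iff.mp (hz h1) (y : Γ × Multiplicative ℤ).1
  · exact mul_comm _ _

variable [hN : (zZ σ T a₀).Normal]

/-- The second cover. -/
abbrev GG := sS σ T ⧸ zZ σ T a₀

/-- The projection of the second cover. -/
def sig : GG σ T a₀ →* Q :=
  QuotientGroup.lift _ (σ.comp ((MonoidHom.fst _ _).comp (sS σ T).subtype)) (by
    intro x hx
    obtain ⟨l, rfl⟩ := mem_zpowers_iff.mp hx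
    rw [MonoidHom.mem_ker, map_zpow]
    have : (σ.comp ((MonoidHom.fst _ _).comp (sS σ T).subtype)) (theta σ T a₀) = 1 := by
      show σ ((a₀ : Γ)⁻¹) = 1
      rw [map_inv, a₀.2, inv_one]
    rw [this, one_zpow])

theorem sig_mk (x : sS σ T) : sig σ T a₀ (x : GG σ T a₀) = σ (x : Γ × Multiplicative ℤ).1 := rfl

theorem sig_surjective (hs : Function.Surjective σ) : Function.Surjective (sig σ T a₀) := by
  intro q
  obtain ⟨g, rfl⟩ := hs q
  obtain ⟨k, hk⟩ := exists_lift_sS σ T g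
  exact ⟨((⟨(g, k), hk⟩ : sS σ T) : GG σ T a₀), rfl⟩

/-- The element `(w, 1)` of `S`. -/
theorem inl_mem {w : Γ} (hw : T (σ w) = 1) : (w, (1 : Multiplicative ℤ)) ∈ sS σ T := by
  rw [mem_sS, hw, map_one]

theorem inl_mem_ker {w : Γ} (hw : w ∈ σ.ker) : (w, (1 : Multiplicative ℤ)) ∈ sS σ T :=
  inl_mem σ T (by rw [MonoidHom.mem_ker.mp hw, map_one])

theorem T_comm {w : Γ} (hw : w ∈ commutator Γ) : T (σ w) = 1 := by
  have h1 : commutator Γ ≤ (T.comp σ).ker := by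
    rw [_root_.commutator_def, Subgroup.commutator_le]
    intro a _ b _
    rw [MonoidHom.mem_ker, map_commutatorElement, commutatorElement_eq_one_iff_commute]
    exact mul_comm _ _
  exact h1 hw

theorem inl_mem_comm {w : Γ} (hw : w ∈ commutator Γ) : (w, (1 : Multiplicative ℤ)) ∈ sS σ T :=
  inl_mem σ T (T_comm σ T hw)

/-- `(w, 1)` with `w` a commutator dies in the commutator of the second cover. -/
theorem inl_comm_mem (w : Γ) (hw : w ∈ commutator Γ) :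
    (((⟨(w, 1), inl_mem_comm σ T hw⟩ : sS σ T)) : GG σ T a₀) ∈ commutator (GG σ T a₀) := by
  let K : Subgroup Γ := (T.comp σ).ker
  have hKcomm : commutator Γ ≤ K := fun x hx => T_comm σ T hx
  let f : K →* GG σ T a₀ := (QuotientGroup.mk' (zZ σ T a₀)).comp
    (((MonoidHom.inl Γ (Multiplicative ℤ)).comp K.subtype).codRestrict (sS σ T) (fun k => inl_mem σ T k.2))
  have hL : commutator Γ ≤ (((commutator (GG σ T a₀)).comap f).map K.subtype) := by
    rw [_root_.commutator_def (G := Γ), Subgroup.commutator_le]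
    intro a _ b _
    obtain ⟨k, hk⟩ := exists_lift_sS σ T a
    obtain ⟨l, hl⟩ := exists_lift_sS σ T b
    have hw' : ⁅a, b⁆ ∈ K := hKcomm (Subgroup.commutator_mem_commutator (mem_top _) (mem_top _))
    refine ⟨⟨⁅a, b⁆, hw'⟩, ?_, rfl⟩
    show f ⟨⁅a, b⁆, hw'⟩ ∈ commutator (GG σ T a₀)
    have h1 : f ⟨⁅a, b⁆, hw'⟩ = ⁅(((⟨(a, k), hk⟩ : sS σ T)) : GG σ T a₀), ((⟨(b, l), hl⟩ : sS σ T) : GG σ T a₀)⁆ := by
      rw [← QuotientGroup.mk'_apply, ← QuotientGroup.mk'_apply, ← map_commutatorElement]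
      show QuotientGroup.mk' (zZ σ T a₀) _ = _
      congr 1
      apply Subtype.ext
      apply Prod.ext
      · rfl
      · show (1 : Multiplicative ℤ) = ⁅k, l⁆
        exact (commutatorElement_eq_one_iff_commute.mpr (Commute.all k l)).symm
    rw [h1]
    exact Subgroup.commutator_mem_commutator (mem_top _) (mem_top _)
  obtain ⟨k, hk, hkw⟩ := hL hw
  have h2 : f k ∈ commutator (GG σ T a₀) := hk
  have h3 : f k = (((⟨(w, 1), inl_mem_comm σ T hw⟩ : sS σ T)) : GG σ T a₀) := by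
    show ((_ : sS σ T) : GG σ T a₀) = _
    congr 1
    apply Subtype.ext
    apply Prod.ext
    · exact hkw
    · rfl
  rw [← h3]
  exact h2

/-- The kernel of the second cover consists of the classes of `(a, 1)`, `a ∈ ker σ`. -/
theorem ker_sig_rep (x : GG σ T a₀) (hx : x ∈ (sig σ T a₀).ker) :
    ∃ (a : Γ) (ha : a ∈ σ.ker), x = ((⟨(a, 1), inl_mem_ker σ T ha⟩ : sS σ T) : GG σ T a₀) := by
  obtain ⟨y, rfl⟩ := QuotientGroup.mk_surjective x
  have h1 : σ (y : Γ × Multiplicative ℤ).1 = 1 := hx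
  have h2 := (mem_sS σ T).mp y.2
  rw [h1, map_one] at h2
  have h3 : ((Multiplicative.toAdd (y : Γ × Multiplicative ℤ).2 : ℤ) : ZMod m) = 0 := by
    have := congrArg Multiplicative.toAdd h2
    exact this.symm
  rw [ZMod.intCast_zmod_eq_zero_iff_dvd] at h3
  obtain ⟨l, hl⟩ := h3
  let a : Γ := (y : Γ × Multiplicative ℤ).1 * (a₀ : Γ) ^ l
  have ha : a ∈ σ.ker := σ.ker.mul_mem h1 (σ.ker.zpow_mem a₀.2 l)
  refine ⟨a, ha, ?_⟩
  rw [QuotientGroup.eq]
  refine ⟨-l, ?_⟩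
  apply Subtype.ext
  have hzc := theta_zpow σ T a₀ (-l)
  show ((theta σ T a₀ ^ (-l) : sS σ T) : Γ × Multiplicative ℤ) = _
  rw [hzc]
  apply Prod.ext
  · show (a₀ : Γ) ^ (- -l) = (y : Γ × Multiplicative ℤ).1⁻¹ * a
    simp [a]
  · show Multiplicative.ofAdd (-l * (m : ℤ)) = ((y : Γ × Multiplicative ℤ).2)⁻¹ * 1
    rw [mul_one]
    have h5 : (y : Γ × Multiplicative ℤ).2 = Multiplicative.ofAdd ((m : ℤ) * l) := by
      rw [← hl]
      rfl
    rw [h5, ← ofAdd_neg]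
    congr 1
    ring

/-- The map `ker σ → ker sig`. -/
def phi : σ.ker →* (sig σ T a₀).ker where
  toFun a := ⟨((⟨((a : Γ), 1), inl_mem_ker σ T a.2⟩ : sS σ T) : GG σ T a₀), by
    rw [MonoidHom.mem_ker, sig_mk]
    exact a.2⟩
  map_one' := by
    apply Subtype.ext
    rfl
  map_mul' a b := by
    apply Subtype.ext
    show ((_ : sS σ T) : GG σ T a₀) = ((_ : sS σ T) * (_ : sS σ T) : sS σ T)
    congr 1

theorem phi_bijective (hm : m ≠ 0) : Function.Bijective (phi σ T a₀) := by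
  constructor
  · rw [injective_iff_map_eq_one]
    intro a ha
    have h1 : (((⟨((a : Γ), 1), inl_mem_ker σ T a.2⟩ : sS σ T)) : GG σ T a₀) = 1 := congrArg Subtype.val ha
    rw [QuotientGroup.eq_one_iff] at h1
    obtain ⟨l, hl⟩ := h1
    have h2 := theta_zpow σ T a₀ l
    have h3 : ((theta σ T a₀ ^ l : sS σ T) : Γ × Multiplicative ℤ) = ((a : Γ), 1) :=
      congrArg Subtype.val hl
    rw [h3] at h2
    have h4 := congrArg Prod.snd h2
    have h5 := congrArg Prod.fst h2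
    have h6 : (0 : ℤ) = l * m := congrArg Multiplicative.toAdd h4
    have h7 : l = 0 := by
      rcases mul_eq_zero.mp h6.symm with h | h
      · exact h
      · exact absurd (by exact_mod_cast h) hm
    simp only [h7, neg_zero, zpow_zero] at h5
    exact Subtype.ext h5
  · rintro ⟨x, hx⟩
    obtain ⟨a, ha, rfl⟩ := ker_sig_rep σ T a₀ x hx
    exact ⟨⟨a, ha⟩, rfl⟩

theorem sig_stem (hm : m ≠ 0) (hσ : IsStemExtension σ) : IsStemExtension (sig σ T a₀) := by
  refine ⟨sig_surjective σ T a₀ hσ.1, ?_, ?_⟩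
  · intro x hx
    obtain ⟨a, ha, rfl⟩ := ker_sig_rep σ T a₀ x hx
    rw [Subgroup.mem_center_iff]
    intro y
    obtain ⟨y, rfl⟩ := QuotientGroup.mk_surjective y
    rw [← QuotientGroup.mk_mul, ← QuotientGroup.mk_mul]
    congr 1
    apply Subtype.ext
    apply Prod.ext
    · exact Subgroup.mem_center_iff.mp (hσ.2.1 ha) (y : Γ × Multiplicative ℤ).1
    · exact mul_comm _ _
  · intro x hx
    obtain ⟨a, ha, rfl⟩ := ker_sig_rep σ T a₀ x hx
    exact inl_comm_mem σ T a₀ a (hσ.2.2 ha)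

theorem finite_GG [Finite Q] [Finite σ.ker] (hm : m ≠ 0) : Finite (GG σ T a₀) := by
  haveI : Finite (sig σ T a₀).ker :=
    Finite.of_surjective (phi σ T a₀) (phi_bijective σ T a₀ hm).2
  classical
  haveI := Fintype.ofFinite Q
  haveI := Fintype.ofFinite (sig σ T a₀).ker
  haveI := Group.fintypeOfKerOfCodom (g := sig σ T a₀)
  exact Finite.of_fintype _

/-- There is no isomorphism of the two covers over `Q` when `a₀` is not a `p`-th power. -/
theorem no_iso (hm : m ≠ 0) (hσ : IsStemExtension σ) {p : ℕ} (hpm : p ∣ m)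
    (ha₀ : ∀ b : σ.ker, b ^ p ≠ a₀) {v : Q} (hv : T v = Multiplicative.ofAdd 1) (hvm : v ^ m ∈ commutator Q)
    (e : Γ ≃* GG σ T a₀) (he : (sig σ T a₀).comp e.toMonoidHom = σ) : False := by
  classical
  have hcomp : ∀ g, sig σ T a₀ (e g) = σ g := fun g => congrFun (congrArg DFunLike.coe he) g
  -- representatives
  have hrep : ∀ g, ∃ x : sS σ T, e g = (x : GG σ T a₀) ∧ (g⁻¹ * (x : Γ × Multiplicative ℤ).1) ∈ σ.ker := by
    intro g
    obtain ⟨x, hx⟩ := QuotientGroup.mk_surjective (e g)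
    refine ⟨x, hx.symm, ?_⟩
    have h1 := hcomp g
    rw [← hx, sig_mk] at h1
    rw [MonoidHom.mem_ker, map_mul, map_inv, h1]
    simp
  -- `e` on commutators
  have hcomm : ∀ (w : Γ) (hw : w ∈ commutator Γ),
      e w = ((⟨(w, 1), inl_mem_comm σ T hw⟩ : sS σ T) : GG σ T a₀) := by
    let K : Subgroup Γ := (T.comp σ).ker
    have hKcomm : commutator Γ ≤ K := fun x hx => T_comm σ T hx
    let f₁ : K →* GG σ T a₀ := e.toMonoidHom.comp K.subtype
    let f₂ : K →* GG σ T a₀ := (QuotientGroup.mk' (zZ σ T a₀)).comp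
      (((MonoidHom.inl Γ (Multiplicative ℤ)).comp K.subtype).codRestrict (sS σ T) (fun k => inl_mem σ T k.2))
    have hL : commutator Γ ≤ (MonoidHom.eqLocus f₁ f₂).map K.subtype := by
      rw [_root_.commutator_def (G := Γ), Subgroup.commutator_le]
      intro a _ b _
      obtain ⟨x, hx, hx2⟩ := hrep a
      obtain ⟨y, hy, hy2⟩ := hrep b
      have hw' : ⁅a, b⁆ ∈ K := hKcomm (Subgroup.commutator_mem_commutator (mem_top _) (mem_top _))
      refine ⟨⟨⁅a, b⁆, hw'⟩, ?_, rfl⟩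
      show e ⁅a, b⁆ = _
      rw [map_commutatorElement, hx, hy, ← QuotientGroup.mk'_apply, ← QuotientGroup.mk'_apply,
        ← map_commutatorElement]
      show QuotientGroup.mk' (zZ σ T a₀) _ = QuotientGroup.mk' (zZ σ T a₀) _
      congr 1
      apply Subtype.ext
      apply Prod.ext
      · show ⁅(x : Γ × Multiplicative ℤ).1, (y : Γ × Multiplicative ℤ).1⁆ = ⁅a, b⁆
        have h1 : (x : Γ × Multiplicative ℤ).1 = a * (a⁻¹ * (x : Γ × Multiplicative ℤ).1) := by group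
        have h2 : (y : Γ × Multiplicative ℤ).1 = b * (b⁻¹ * (y : Γ × Multiplicative ℤ).1) := by group
        rw [h1, h2]
        exact comm_mul_central (hσ.2.1 hx2) (hσ.2.1 hy2)
      · show ⁅(x : Γ × Multiplicative ℤ).2, (y : Γ × Multiplicative ℤ).2⁆ = 1
        exact commutatorElement_eq_one_iff_commute.mpr (Commute.all _ _)
    intro w hw
    obtain ⟨k, hk, hkw⟩ := hL hw
    have h2 : f₁ k = f₂ k := hk
    have h3 : (k : Γ) = w := hkw
    subst h3
    exact h2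
  -- the element over `v`
  obtain ⟨g₁, hg₁⟩ := hσ.1 v
  have hg₁m : g₁ ^ m ∈ commutator Γ := by
    have hmap : (commutator Γ).map σ = commutator Q := by
      rw [_root_.commutator_def, _root_.commutator_def, Subgroup.map_commutator,
        ← MonoidHom.range_eq_map, MonoidHom.range_eq_top.mpr hσ.1]
    rw [← hmap] at hvm
    obtain ⟨d, hd, hdv⟩ := hvm
    have h1 : d⁻¹ * g₁ ^ m ∈ σ.ker := by
      rw [MonoidHom.mem_ker, map_mul, map_inv, hdv, map_pow, hg₁]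
      simp
    have h2 := (commutator Γ).mul_mem hd (hσ.2.2 h1)
    simpa using h2
  obtain ⟨x, hx, hx2⟩ := hrep g₁
  set α : Γ := g₁⁻¹ * (x : Γ × Multiplicative ℤ).1 with hα
  have hxα : (x : Γ × Multiplicative ℤ).1 = g₁ * α := by rw [hα]; group
  have hαc : ∀ g, g * α = α * g := fun g => Subgroup.mem_center_iff.mp (hσ.2.1 hx2) g
  -- `k ≡ 1`
  have hk1 : (((Multiplicative.toAdd (x : Γ × Multiplicative ℤ).2 : ℤ)) : ZMod m) = 1 := by
    have h1 := (mem_sS σ T).mp x.2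
    have h2 : σ (x : Γ × Multiplicative ℤ).1 = v := by
      rw [hxα, map_mul, MonoidHom.mem_ker.mp hx2, mul_one, hg₁]
    rw [h2, hv] at h1
    have := congrArg Multiplicative.toAdd h1
    exact this.symm
  set k : ℤ := Multiplicative.toAdd (x : Γ × Multiplicative ℤ).2 with hk
  have h1 : e (g₁ ^ m) = ((x ^ m : sS σ T) : GG σ T a₀) := by
    rw [map_pow, hx]
    rfl
  rw [hcomm _ hg₁m] at h1
  rw [QuotientGroup.eq] at h1
  obtain ⟨l, hl⟩ := h1
  have h2 : ((theta σ T a₀ ^ l : sS σ T) : Γ × Multiplicative ℤ) = _ := congrArg Subtype.val hl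
  rw [theta_zpow] at h2
  have h3 : (a₀ : Γ) ^ (-l) = (g₁ ^ m)⁻¹ * (x : Γ × Multiplicative ℤ).1 ^ m := congrArg Prod.fst h2
  have h4 : Multiplicative.ofAdd (l * (m : ℤ)) = (1 : Multiplicative ℤ)⁻¹ * (x : Γ × Multiplicative ℤ).2 ^ m :=
    congrArg Prod.snd h2
  have h5 : l * (m : ℤ) = k * m := by
    have := congrArg Multiplicative.toAdd h4
    rw [inv_one, one_mul] at this
    simpa [hk, mul_comm] using this
  have hmz : (m : ℤ) ≠ 0 := by exact_mod_cast hm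
  have hlk : l = k := mul_right_cancel₀ hmz h5
  have hcommgα : Commute g₁ α := hαc g₁
  have h6 : (a₀ : Γ) ^ (-k) = α ^ m := by
    rw [← hlk, h3, hxα, hcommgα.mul_pow]
    group
  -- `k` is prime to `p`
  obtain ⟨m', rfl⟩ := hpm
  have h7 : ((p * m' : ℕ) : ℤ) ∣ k - 1 := by
    rw [← ZMod.intCast_zmod_eq_zero_iff_dvd]
    push_cast at hk1 ⊢
    rw [hk1]
    simp
  obtain ⟨c, hc⟩ := h7
  have h8 : (1 : ℤ) = k - p * (m' * c) := by
    push_cast at hc
    rw [mul_assoc] at hc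
    omega
  -- conclusion
  have ha₀' : (a₀ : Γ) = ((a₀ : Γ) ^ k) * ((a₀ : Γ) ^ (m' * c)) ^ (-(p : ℤ)) := by
    rw [← zpow_mul, ← zpow_add]
    conv_lhs => rw [← zpow_one (a₀ : Γ), h8]
    congr 1
    ring
  have h9 : (a₀ : Γ) ^ k = (α ^ m')⁻¹ ^ p := by
    have h10 : (a₀ : Γ) ^ (-k) = (α ^ m') ^ p := by
      rw [h6, ← pow_mul, mul_comm]
    rw [inv_pow, ← h10, zpow_neg, inv_inv]
  have hcen₀ : (a₀ : Γ) ∈ center Γ := hσ.2.1 a₀.2
  let b : σ.ker := ⟨(α ^ m')⁻¹ * ((a₀ : Γ) ^ (m' * c))⁻¹, σ.ker.mul_mem (σ.ker.inv_mem (σ.ker.pow_mem hx2 m'))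
    (σ.ker.inv_mem (σ.ker.zpow_mem a₀.2 _))⟩
  apply ha₀ b
  apply Subtype.ext
  show ((α ^ m')⁻¹ * ((a₀ : Γ) ^ (m' * c))⁻¹) ^ p = (a₀ : Γ)
  have hc2 : Commute ((α ^ m')⁻¹) (((a₀ : Γ) ^ (m' * c))⁻¹) := by
    have h11 : ((a₀ : Γ) ^ (m' * c))⁻¹ ∈ center Γ := (center Γ).inv_mem ((center Γ).zpow_mem hcen₀ _)
    exact (Subgroup.mem_center_iff.mp h11 ((α ^ m')⁻¹))
  rw [hc2.mul_pow, ← h9]
  conv_rhs => rw [ha₀']
  congr 1
  rw [zpow_neg, zpow_natCast, inv_pow]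

end Converse

/-- The cyclic quotient of `Q` with a generator. -/
theorem exists_cyclic_quot {Q : Type*} [Group Q] [Finite Q] {p : ℕ} (hp : p.Prime)
    (hd : p ∣ Nat.card (Abelianization Q)) :
    ∃ (m : ℕ) (T : Q →* Multiplicative (ZMod m)) (v : Q), m ≠ 0 ∧ p ∣ m ∧ T v = Multiplicative.ofAdd 1 ∧
      v ^ m ∈ commutator Q := by
  classical
  obtain ⟨ι, _, n, hn, ⟨ε⟩⟩ := CommGroup.equiv_prod_multiplicative_zmod_of_finite (Abelianization Q)
  have hcard : Nat.card (Abelianization Q) = ∏ i, n i := by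
    rw [Nat.card_congr ε.toEquiv, Nat.card_pi]
    apply Finset.prod_congr rfl
    intro i _
    haveI : NeZero (n i) := ⟨by have := hn i; omega⟩
    rw [Nat.card_congr Multiplicative.toAdd, Nat.card_zmod]
  rw [hcard] at hd
  obtain ⟨i, -, hi⟩ := (Prime.dvd_finset_prod_iff (Nat.prime_iff.mp hp) _).mp hd
  have hni : n i ≠ 0 := by have := hn i; omega
  let T : Q →* Multiplicative (ZMod (n i)) :=
    (Pi.evalMonoidHom _ i).comp (ε.toMonoidHom.comp Abelianization.of)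
  obtain ⟨v, hv⟩ := QuotientGroup.mk_surjective (ε.symm (Pi.mulSingle i (Multiplicative.ofAdd 1)))
  have hv' : Abelianization.of v = ε.symm (Pi.mulSingle i (Multiplicative.ofAdd 1)) := hv
  refine ⟨n i, T, v, hni, hi, ?_, ?_⟩
  · show ε (Abelianization.of v) i = _
    rw [hv', ε.apply_symm_apply]
    simp
  · rw [← Abelianization.ker_of, MonoidHom.mem_ker, map_pow, hv', ← map_pow, ← Pi.mulSingle_pow]
    rw [← ofAdd_nsmul]
    simp

/-- Non-coprimality gives two covers which are not isomorphic over `Q`. -/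
theorem coprime_of_unique {Q : Type u} [Group Q] [Finite Q] {A : Type v} [CommGroup A]
    (hA : HasSchurMultiplier Q A)
    (h : ∀ (Γ₁ Γ₂ : Type u) [Group Γ₁] [Finite Γ₁] [Group Γ₂] [Finite Γ₂] (σ₁ : Γ₁ →* Q) (σ₂ : Γ₂ →* Q),
      IsStemExtension σ₁ → IsStemExtension σ₂ → Nonempty (σ₁.ker ≃* A) → Nonempty (σ₂.ker ≃* A) →
        ∃ e : Γ₁ ≃* Γ₂, σ₂.comp e.toMonoidHom = σ₁) :
    Nat.Coprime (Nat.card (Abelianization Q)) (Nat.card A) := by
  classical
  by_contra hnc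
  obtain ⟨p, hp, hp1, hp2⟩ := Nat.Prime.not_coprime_iff_dvd.mp hnc
  obtain ⟨m, T, v, hm, hpm, hv, hvm⟩ := exists_cyclic_quot hp hp1
  obtain ⟨Γ, _, _, σ, hσ, ⟨ε⟩⟩ := hA.1
  have hcard : Nat.card σ.ker = Nat.card A := Nat.card_congr ε.toEquiv
  haveI : Fact p.Prime := ⟨hp⟩
  -- a non-`p`-th power
  obtain ⟨a₀, ha₀⟩ : ∃ a₀ : σ.ker, ∀ b : σ.ker, b ^ p ≠ a₀ := by
    by_contra hcon
    push_neg at hcon
    have hs : Function.Surjective (fun b : σ.ker => b ^ p) := by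
      intro a
      obtain ⟨b, hb⟩ := hcon a
      exact ⟨b, hb⟩
    have hinj := Finite.injective_iff_surjective.mpr hs
    obtain ⟨x, hx⟩ := exists_prime_orderOf_dvd_card' p (by rw [hcard]; exact hp2)
    have hx1 : x ^ p = 1 := by rw [← hx]; exact pow_orderOf_eq_one x
    have hx2 : x = 1 := hinj (by simp [hx1])
    rw [hx2, orderOf_one] at hx
    exact hp.one_lt.ne hx
  haveI := zZ_normal σ T a₀ hσ.2.1
  haveI := finite_GG σ T a₀ hm
  have hst := sig_stem σ T a₀ hm hσ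
  let ε₂ : σ.ker ≃* (sig σ T a₀).ker := MulEquiv.ofBijective (phi σ T a₀) (phi_bijective σ T a₀ hm)
  obtain ⟨e, he⟩ := h Γ (GG σ T a₀) σ (sig σ T a₀) hσ hst ⟨ε⟩ ⟨ε₂.symm.trans ε⟩
  exact no_iso σ T a₀ hm hσ hpm ha₀ hv hvm e he

end Cfsg.Agent.Lib.Cl.SchurUniq
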