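import Cfsg.Agent.Lib.Fusion.PowerIndexNormal
import Mathlib

/-! # Strong invariance of subsystems -/

set_option autoImplicit false
set_option linter.unusedSectionVars false
set_option linter.unusedVariables false

namespace Cfsg.Agent.Lib.Cl.StrongInv

open Cfsg Cfsg.FusionSystem Cfsg.Agent.Lib.Fusion

variable {Ω : Type*} [Group Ω] {S T : Subgroup Ω} {F : FusionSystem S} {E : FusionSystem T}

/-- Strong invariance. -/
def SI (F : FusionSystem S) (E : FusionSystem T) : Prop :=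
  ∀ (P Q : Subgroup Ω) (hPQ : P ≤ Q) (_ : Q ≤ T) (φ : P →* Ω) (_ : φ ∈ E.Hom P) (hφQ : ∀ x : P, φ x ∈ Q) (ψ : Q →* Ω)
    (_ : ψ ∈ F.Hom Q), ∃ χ ∈ E.Hom ((P.subgroupOf Q).map ψ), ∀ (x : P)
      (hx : ψ (Subgroup.inclusion hPQ x) ∈ (P.subgroupOf Q).map ψ),
        χ ⟨ψ (Subgroup.inclusion hPQ x), hx⟩ = ψ ⟨φ x, hφQ x⟩

theorem tr_of_SI (h : SI F E) (hTS : T ≤ S) {P : Subgroup Ω} {φ : P →* Ω} (hφ : φ ∈ E.Hom P) {γ : MulAut T}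
    (hγ : γ ∈ F.autGroup T) : TrProp E γ φ := by
  have hPT := hom_le E hφ
  obtain ⟨χ, hχ, hv⟩ := h P T hPT le_rfl φ hφ (fun x => hom_val E hφ x) (T.subtype.comp γ.toMonoidHom)
    ((mem_autGroup_iff hTS).1 hγ)
  refine ⟨χ, hχ, fun x y hy => ?_⟩
  have hx : (T.subtype.comp γ.toMonoidHom) (Subgroup.inclusion hPT x) ∈ (P.subgroupOf T).map (T.subtype.comp γ.toMonoidHom) :=
    ⟨Subgroup.inclusion hPT x, x.2, rfl⟩
  have h1 : y = ⟨(T.subtype.comp γ.toMonoidHom) (Subgroup.inclusion hPT x), hx⟩ := by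
    apply Subtype.ext
    rw [hy, aExt_of_mem γ (hPT x.2)]
    rfl
  rw [h1]
  change χ ⟨(T.subtype.comp γ.toMonoidHom) (Subgroup.inclusion hPT x), hx⟩ = _
  rw [hv x hx, aExt_of_mem γ (hom_val E hφ x)]
  rfl

theorem transport_mem (h : SI F E) {P P₁ : Subgroup Ω} (hPT : P ≤ T) (hP₁T : P₁ ≤ T) {ρ : P ≃* P₁} (hρ : IsIso F ρ)
    {a : MulAut P} (ha : a ∈ E.autGroup P) : autTransport ρ a ∈ E.autGroup P₁ := by
  have hai : IsIso E (P := P) (Q := P) a := (mem_autGroup_iff hPT).1 ha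
  obtain ⟨χ, hχ, hv⟩ := h P P le_rfl hPT _ hai (fun x => (a x).2) _ hρ
  rw [mem_autGroup_iff hP₁T]
  refine hom_of_eq E hχ ?_ ?_
  · ext y
    constructor
    · rintro ⟨x, -, rfl⟩
      exact (ρ x).2
    · intro hy
      exact ⟨ρ.symm ⟨y, hy⟩, Subgroup.mem_subgroupOf.2 (ρ.symm ⟨y, hy⟩).2, by simp⟩
  · intro x hP hQ
    have hu := hv (ρ.symm ⟨x, hQ⟩) ⟨ρ.symm ⟨x, hQ⟩, Subgroup.mem_subgroupOf.2 (ρ.symm ⟨x, hQ⟩).2, rfl⟩
    have e : (⟨P₁.subtype.comp ρ.toMonoidHom (Subgroup.inclusion (le_refl P) (ρ.symm ⟨x, hQ⟩)),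
        ⟨ρ.symm ⟨x, hQ⟩, Subgroup.mem_subgroupOf.2 (ρ.symm ⟨x, hQ⟩).2, rfl⟩⟩ : ((P.subgroupOf P).map (P₁.subtype.comp ρ.toMonoidHom) : Subgroup Ω)) = ⟨x, hP⟩ :=
      Subtype.ext (by show ((ρ (ρ.symm ⟨x, hQ⟩) : P₁) : Ω) = x; simp)
    rw [e] at hu
    rw [hu]
    simp

/-- The Frattini property. -/
def Frat (F : FusionSystem S) (E : FusionSystem T) {P : Subgroup Ω} (φ : P →* Ω) : Prop :=
  ∃ γ ∈ F.autGroup T, ∃ φ₀ ∈ E.Hom P, ∀ x : P, φ x = aExt γ (φ₀ x)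

section Frat

variable {p : ℕ} [Fact p.Prime] [Finite S]

theorem frat_iso (hS : IsPGroup p S) (hF : F.IsSaturated p) (hT : F.StronglyClosed T) (hsub : E.IsSubsystemOf F)
    (hsi : SI F E) {P' P₁ : Subgroup Ω} (hP'T : P' ≤ T)
    (IH : ∀ Q, Q ≤ T → Nat.card P' < Nat.card Q → ∀ φ ∈ F.Hom Q, Frat F E φ)
    {ρ : P' ≃* P₁} (hρ : IsIso F ρ) (hP₁ : F.IsFullyNormalized P₁) :
    Frat F E (P₁.subtype.comp ρ.toMonoidHom) := by
  have hTS := hT.1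
  have hP₁T : P₁ ≤ T := by
    intro y hy
    have := hT.2 P' hP'T _ hρ (ρ.symm ⟨y, hy⟩)
    simpa using this
  have hP₁S := hP₁T.trans hTS
  have hP'S := hP'T.trans hTS
  have : Finite T := finite_of_le hTS
  have hcardρ : Nat.card P' = Nat.card P₁ := Nat.card_congr ρ.toEquiv
  by_cases hlt : P' = T
  · have hP₁eq : P₁ = T := eq_of_le_of_card_le le_rfl hP₁T (by rw [← hcardρ, hlt])
    subst hP₁eq
    subst hlt
    refine ⟨ρ, (mem_autGroup_iff hTS).2 hρ, P'.subtype, subtype_mem E le_rfl, fun x => ?_⟩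
    show ((ρ x : P') : Ω) = aExt ρ (x : Ω)
    rw [aExt_of_mem ρ x.2]
  have hlt' : P' < T := lt_of_le_of_ne hP'T hlt
  have hgrow := lt_normalizerIn (hS.to_le hTS) hlt'
  set X := normalizerIn T P' with hX
  have hXT : X ≤ T := normalizerIn_le P'
  have hXS := hXT.trans hTS
  have hcard : Nat.card P' < Nat.card X :=
    lt_of_le_of_ne (card_le_of_le hXS hgrow.le) (fun h => hgrow.ne (eq_of_le_of_card_le hXS hgrow.le h.ge))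
  have := finite_of_le hP₁S
  have : Finite (MulAut P₁) := finite_mulAut P₁
  set A := F.autGroup P₁ with hA
  set B := E.autGroup P₁ with hB
  have hBA : B ≤ A := autGroup_le_of_subsystem hsub hTS P₁ hP₁T
  have hSyl : IsSylowIn p (autInducedBy S P₁) A := (IsSat.fullyAutomized_of_fullyNormalized hS hF hP₁).2
  have hSigA : autInducedBy S P₁ ≤ A := autInducedBy_le_autGroup F hP₁S
  have hnorm : (B.subgroupOf A).Normal := by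
    refine ⟨fun b hb a => Subgroup.mem_subgroupOf.2 ?_⟩
    have ha : IsIso F (P := P₁) (Q := P₁) (a : MulAut P₁) := (mem_autGroup_iff hP₁S).1 a.2
    have h1 := transport_mem hsi hP₁T hP₁T ha (Subgroup.mem_subgroupOf.1 hb)
    have e : (((a * b * a⁻¹ : A) : MulAut P₁)) = autTransport (a : MulAut P₁) (b : MulAut P₁) := by
      ext y; rfl
    rw [e]
    exact h1
  have hSylB : IsSylowIn p (autInducedBy S P₁ ⊓ B) B := hSyl.inf_normal hSigA hBA hnorm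
  set Y : Subgroup (MulAut P₁) := (autInducedBy X P').map (autTransport ρ).toMonoidHom with hY
  have hYp : IsPGroup p Y := IsPGroup.map (isPGroup_autInducedBy (S := X) (hS.to_le hXS) P') _
  have hYB : Y ≤ B := by
    rintro _ ⟨α, hα, rfl⟩
    exact transport_mem hsi hP'T hP₁T hρ (autInducedBy_le_autGroup E hP'T (autInducedBy_mono hXT hα))
  obtain ⟨β, hβB, hβ⟩ := IsSylowIn.exists_conj_le hSylB hYp hYB
  have hβi : IsIso F (P := P₁) (Q := P₁) β := (mem_autGroup_iff hP₁S).1 (hBA hβB)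
  set e : P' ≃* P₁ := ρ.trans β with he
  have hei : IsIso F e := IsIso.trans hρ hβi
  have hrec := IsSat.receptive_of_fullyNormalized hS hF hP₁
  obtain ⟨ψ, hψ, hψv⟩ := IsReceptive.extend (N := X) hrec hei (fun g hg => by
    obtain ⟨hgT, hgN⟩ := mem_normalizerIn.1 hg
    refine ⟨hTS hgT, hgN, ?_⟩
    have hc : conjAut P' g hgN ∈ autInducedBy X P' := conjAut_mem hg hgN
    have hw := (hβ _ ⟨_, hc, rfl⟩).1
    obtain ⟨h, hh, hhv⟩ := mem_autInducedBy_iff.1 hw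
    refine ⟨h, hh, fun x hx => ?_⟩
    have h2 := hhv (e x)
    have h4 : (β * autTransport ρ (conjAut P' g hgN) * β⁻¹) (e x) = e ⟨g * x * g⁻¹, hx⟩ := by
      show β (autTransport ρ (conjAut P' g hgN) ((β⁻¹ : MulAut P₁) (β (ρ x)))) = β (ρ ⟨g * x * g⁻¹, hx⟩)
      have h5 : (β⁻¹ : MulAut P₁) (β (ρ x)) = ρ x := by simp
      rw [h5]
      congr 1
      show ρ ((conjAut P' g hgN) (ρ.symm (ρ x))) = ρ ⟨g * x * g⁻¹, hx⟩
      rw [ρ.symm_apply_apply]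
      rfl
    rw [← h4]
    exact h2)
  obtain ⟨γ, hγ, φ₁, hφ₁, v₁⟩ := IH X hXT hcard ψ hψ
  have hbi : IsIso E (P := P₁) (Q := P₁) β⁻¹ := (mem_autGroup_iff hP₁T).1 (B.inv_mem hβB)
  obtain ⟨χ, hχ, vχ⟩ := tr_of_SI hsi hTS hbi (Subgroup.inv_mem _ hγ)
  have hP'X : P' ≤ X := hgrow.le
  have hm0 : ∀ x : P', φ₁ (Subgroup.inclusion hP'X x) = aExt γ⁻¹ (e x : Ω) := by
    intro x
    have h1 := v₁ (Subgroup.inclusion hP'X x)
    have h2 : ψ (Subgroup.inclusion hP'X x) = (e x : Ω) := hψv x x.2 _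
    rw [h2] at h1
    rw [h1, aExt_inv_apply γ (hom_val E hφ₁ _)]
  have hm : ∀ x : P', (φ₁.comp (Subgroup.inclusion hP'X)) x ∈ imgS γ⁻¹ P₁ := by
    intro x
    show φ₁ (Subgroup.inclusion hP'X x) ∈ imgS γ⁻¹ P₁
    rw [hm0 x]
    exact aExt_mem_imgS γ⁻¹ hP₁T (e x).2
  refine ⟨γ, hγ, χ.comp ((φ₁.comp (Subgroup.inclusion hP'X)).codRestrict _ hm),
    E.comp_mem (res_mem E hφ₁ hP'X) hχ hm, fun x => ?_⟩
  show ((ρ x : P₁) : Ω) = aExt γ (χ ⟨φ₁ (Subgroup.inclusion hP'X x), hm x⟩)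
  rw [vχ (e x) _ (hm0 x)]
  have h3 : (P₁.subtype.comp (MulEquiv.toMonoidHom β⁻¹)) (e x) = (ρ x : Ω) := by
    show (((β⁻¹ : MulAut P₁) (β (ρ x)) : P₁) : Ω) = _
    simp
  rw [h3, aExt_apply_inv γ (hP₁T (ρ x).2)]

theorem frat_all (hS : IsPGroup p S) (hF : F.IsSaturated p) (hT : F.StronglyClosed T) (hsub : E.IsSubsystemOf F)
    (hsi : SI F E) : ∀ P, P ≤ T → ∀ φ ∈ F.Hom P, Frat F E φ := by
  have hTS := hT.1
  have : Finite T := finite_of_le hTS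
  refine down_induction (S := T) (C := fun P => ∀ φ ∈ F.Hom P, Frat F E φ) fun P hPT IH φ hφ => ?_
  have hPS := hPT.trans hTS
  have hRT : φ.range ≤ T := by
    rintro _ ⟨x, rfl⟩
    exact hT.2 P hPT φ hφ x
  obtain ⟨P₁, hconj, hfn⟩ := exists_fullyNormalized_conj (F := F) hPS
  obtain ⟨e, he⟩ := isConj_iff.1 hconj
  have hφi := isoRange_isIso hφ
  set ι := isoRange hφ with hι
  have hρ' : IsIso F (ι.symm.trans e) := IsIso.trans hφi.symm he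
  have hcard : Nat.card φ.range = Nat.card P := (Nat.card_congr ι.toEquiv).symm
  obtain ⟨γ₁, hγ₁, e₁, he₁, v₁⟩ := frat_iso hS hF hT hsub hsi hPT IH he hfn
  obtain ⟨γ₂, hγ₂, e₂, he₂, v₂⟩ := frat_iso hS hF hT hsub hsi hRT (by rw [hcard]; exact IH) hρ' hfn
  set β : MulAut T := γ₂⁻¹ * γ₁ with hβ
  have hβA : β ∈ F.autGroup T := Subgroup.mul_mem _ (Subgroup.inv_mem _ hγ₂) hγ₁
  obtain ⟨ξ, hξ, hξv⟩ := E.inv_mem he₂
  obtain ⟨χ, hχ, vχ⟩ := tr_of_SI hsi hTS hξ (Subgroup.inv_mem _ hβA)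
  have hkey : ∀ x : P, e₁ x = aExt β⁻¹ (e₂ (ι x)) := by
    intro x
    have h1 := v₁ x
    have h2 := v₂ (ι x)
    have h3 : (P₁.subtype.comp (ι.symm.trans e).toMonoidHom) (ι x) = (P₁.subtype.comp e.toMonoidHom) x := by simp
    rw [h3, h1] at h2
    have hx₁ := hom_val E he₁ x
    have hx₂ := hom_val E he₂ (ι x)
    have h4 : e₂ (ι x) = aExt β (e₁ x) := by
      rw [hβ, aExt_comp _ _ hx₁, h2, aExt_inv_apply _ hx₂]
    rw [h4, aExt_inv_apply _ hx₁]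
  have hRe : e₂.range ≤ T := by
    rintro _ ⟨y, rfl⟩
    exact hom_val E he₂ y
  have hm : ∀ x : P, e₁ x ∈ imgS β⁻¹ e₂.range := fun x => by
    rw [hkey x]
    exact aExt_mem_imgS _ hRe ⟨ι x, rfl⟩
  refine ⟨β, hβA, χ.comp (e₁.codRestrict _ hm), E.comp_mem he₁ hχ hm, fun x => ?_⟩
  show φ x = aExt β (χ ⟨e₁ x, hm x⟩)
  rw [vχ ⟨e₂ (ι x), ⟨ι x, rfl⟩⟩ _ (hkey x), hξv (ι x)]
  have h5 : ((ι x : φ.range) : Ω) = φ x := isoRange_coe hφ x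
  rw [h5, aExt_apply_inv _ (hRT ⟨x, rfl⟩)]

end Frat

theorem cast_hom (E : FusionSystem T) {A B : Subgroup Ω} (h : A = B) {χ : A →* Ω} (hχ : χ ∈ E.Hom A) :
    ∃ χ' ∈ E.Hom B, ∀ (x : Ω) (hA : x ∈ A) (hB : x ∈ B), χ' ⟨x, hB⟩ = χ ⟨x, hA⟩ := by
  subst h
  exact ⟨χ, hχ, fun _ _ _ => rfl⟩

theorem si_of_invariant (h : E.IsInvariantIn F) : SI F E := by
  obtain ⟨hsub, hT, hI, hFr⟩ := h
  intro P Q hPQ hQT φ hφ hφQ ψ hψ
  obtain ⟨α, hα, ψ₀, hψ₀, v⟩ := hFr Q hQT ψ hψ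
  have hTS := hT.1
  have hψ₀T : ∀ x, ψ₀ x ∈ T := hom_val E hψ₀
  have v' : ∀ x : Q, ψ x = ((α ⟨ψ₀ x, hψ₀T x⟩ : T) : Ω) := fun x => v x _
  set P₁ := (P.subgroupOf Q).map ψ₀ with hP₁
  have hP₁T : P₁ ≤ T := by
    rintro _ ⟨x, -, rfl⟩
    exact hψ₀T x
  have hP₁r : P₁ ≤ ψ₀.range := by
    rintro _ ⟨x, -, rfl⟩
    exact ⟨x, rfl⟩
  obtain ⟨ξ, hξ, hξv⟩ := E.inv_mem hψ₀
  have hξ₁ := res_mem E hξ hP₁r
  have hm₁ : ∀ y : P₁, (ξ.comp (Subgroup.inclusion hP₁r)) y ∈ P := by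
    rintro ⟨_, x, hx, rfl⟩
    show ξ ⟨ψ₀ x, ⟨x, rfl⟩⟩ ∈ P
    rw [hξv x]
    exact Subgroup.mem_subgroupOf.1 hx
  have hc₁ := E.comp_mem hξ₁ hφ hm₁
  have hm₂ : ∀ y : P₁, (φ.comp ((ξ.comp (Subgroup.inclusion hP₁r)).codRestrict P hm₁)) y ∈ Q := fun y => hφQ _
  have hc₂ := E.comp_mem hc₁ hψ₀ hm₂
  set χ₀ := ψ₀.comp ((φ.comp ((ξ.comp (Subgroup.inclusion hP₁r)).codRestrict P hm₁)).codRestrict Q hm₂) with hχ₀
  obtain ⟨χ, hχ, vχ⟩ := hI P₁ hP₁T χ₀ hc₂ α hα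
  have heq : (P₁.subgroupOf T).map (T.subtype.comp α.toMonoidHom) = (P.subgroupOf Q).map ψ := by
    ext y
    constructor
    · rintro ⟨t, ht, rfl⟩
      obtain ⟨x, hx, hxt⟩ := Subgroup.mem_subgroupOf.1 ht
      refine ⟨x, hx, ?_⟩
      rw [v' x]
      have e : (⟨ψ₀ x, hψ₀T x⟩ : T) = t := Subtype.ext hxt
      rw [e]
      rfl
    · rintro ⟨x, hx, rfl⟩
      rw [v' x]
      exact ⟨⟨ψ₀ x, hψ₀T x⟩, Subgroup.mem_subgroupOf.2 ⟨x, hx, rfl⟩, rfl⟩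
  obtain ⟨χ', hχ', vχ'⟩ := cast_hom E heq hχ
  refine ⟨χ', hχ', fun x hx => ?_⟩
  set u := Subgroup.inclusion hPQ x with hu
  have huP : u ∈ P.subgroupOf Q := Subgroup.mem_subgroupOf.2 x.2
  set y : P₁ := ⟨ψ₀ u, ⟨u, huP, rfl⟩⟩ with hy
  have hα1 : ψ u = ((α ⟨y, hP₁T y.2⟩ : T) : Ω) := v' u
  have hαy : ((α ⟨y, hP₁T y.2⟩ : T) : Ω) ∈ (P₁.subgroupOf T).map (T.subtype.comp α.toMonoidHom) := by
    exact ⟨⟨y, hP₁T y.2⟩, Subgroup.mem_subgroupOf.2 y.2, rfl⟩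
  have hχ₀y : χ₀ y = ψ₀ ⟨φ x, hφQ x⟩ := by
    have hξy : (ξ.comp (Subgroup.inclusion hP₁r)) y = (x : Ω) := by
      show ξ ⟨ψ₀ u, ⟨u, rfl⟩⟩ = (x : Ω)
      rw [hξv u]
      rfl
    show ψ₀ ⟨φ ⟨(ξ.comp (Subgroup.inclusion hP₁r)) y, hm₁ y⟩, hm₂ y⟩ = _
    congr 2
    congr 1
    exact Subtype.ext hξy
  have hT₀ : χ₀ y ∈ T := hom_val E hc₂ y
  have h1 := vχ y hT₀ hαy
  have h2 : χ' ⟨ψ u, hx⟩ = χ ⟨((α ⟨y, hP₁T y.2⟩ : T) : Ω), hαy⟩ := by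
    have := vχ' ((α ⟨y, hP₁T y.2⟩ : T) : Ω) hαy (by rw [← hα1]; exact hx)
    rw [← this]
    congr 2
  rw [h2, h1, v' ⟨φ x, hφQ x⟩]
  congr 2
  exact Subtype.ext hχ₀y

theorem invariant_iff {p : ℕ} [Fact p.Prime] [Finite S] (hS : IsPGroup p S) (hF : F.IsSaturated p)
    (hE : E.IsSubsystemOf F) (hT : F.StronglyClosed T) : E.IsInvariantIn F ↔ SI F E := by
  refine ⟨si_of_invariant, fun hsi => ⟨hE, hT, ?_, ?_⟩⟩
  · intro P hPT φ hφ α hα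
    obtain ⟨χ, hχ, v⟩ := hsi P T hPT le_rfl φ hφ (fun x => hom_val E hφ x) (T.subtype.comp α.toMonoidHom)
      ((mem_autGroup_iff hT.1).1 hα)
    exact ⟨χ, hχ, fun x hφx hαx => v x hαx⟩
  · intro P hPT φ hφ
    obtain ⟨γ, hγ, φ₀, hφ₀, v⟩ := frat_all hS hF hT hE hsi P hPT φ hφ
    refine ⟨γ, hγ, φ₀, hφ₀, fun x hx => ?_⟩
    rw [v x, aExt_of_mem γ hx]

end Cfsg.Agent.Lib.Cl.StrongInv
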