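import Mathlib
import Cfsg.Prelude.Def_ClassificationK
import Cfsg.Agent.Lib.Cl.Critical
import Cfsg.Agent.Lib.Cl.Symp

/-!
# 2-groups of symplectic type and exponent dividing 4

All commutators and squares lie in the subgroup of order 2 generated by the central involution `z`
(no use of P. Hall's structure theorem: a short argument through a critical subgroup).
-/

set_option autoImplicit false
open Cfsg

namespace Cfsg.Agent.Lib.Cl

open Subgroup
open scoped commutatorElement

theorem fourth_power_class_two {P : Type*} [Group P] {a b w : P} (h : b * a = w * (a * b)) (ha : a * w = w * a)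
    (hb : b * w = w * b) : (a * b) ^ 4 = w ^ 6 * (a ^ 4 * b ^ 4) := by
  have h1 : ∀ t : P, b * (a * t) = w * (a * (b * t)) := fun t => by
    rw [← mul_assoc, h]; simp only [mul_assoc]
  have h2 : ∀ t : P, a * (w * t) = w * (a * t) := fun t => by
    rw [← mul_assoc, ha, mul_assoc]
  have h3 : ∀ t : P, b * (w * t) = w * (b * t) := fun t => by
    rw [← mul_assoc, hb, mul_assoc]
  simp only [pow_succ, pow_zero, one_mul, mul_assoc, h1, h2, h3, h]

/-- The case of a commutator inverted by one of the two elements. -/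
theorem sq_eq_one_of_inverting {P : Type*} [Group P] {x y c : P} (hxy : x * y = c * (y * x)) (hxc : x * c = c⁻¹ * x)
    (hyc : y * c = c * y) (hx4 : x ^ 4 = 1) (hy4 : y ^ 4 = 1) (hyx4 : (y * x) ^ 4 = 1) : c * c = 1 := by
  have h1 : ∀ t : P, x * (y * t) = c * (y * (x * t)) := fun t => by
    rw [← mul_assoc, hxy]; simp only [mul_assoc]
  have h2 : ∀ t : P, x * (c * t) = c⁻¹ * (x * t) := fun t => by
    rw [← mul_assoc, hxc, mul_assoc]
  have h3 : ∀ t : P, y * (c * t) = c * (y * t) := fun t => by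
    rw [← mul_assoc, hyc, mul_assoc]
  have h4 : ∀ t : P, x * (c⁻¹ * t) = c * (x * t) := fun t => by
    have h5 : x * c⁻¹ = c * x := by
      have := hxc
      calc x * c⁻¹ = c * (c⁻¹ * x) * c⁻¹ := by group
        _ = c * (x * c) * c⁻¹ := by rw [hxc]
        _ = c * x := by group
    rw [← mul_assoc, h5, mul_assoc]
  have h5 : ∀ t : P, y * (c⁻¹ * t) = c⁻¹ * (y * t) := fun t => by
    have h6 : y * c⁻¹ = c⁻¹ * y := by
      calc y * c⁻¹ = c⁻¹ * (c * y) * c⁻¹ := by group
        _ = c⁻¹ * (y * c) * c⁻¹ := by rw [hyc]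
        _ = c⁻¹ * y := by group
    rw [← mul_assoc, h6, mul_assoc]
  have e : (y * x) ^ 4 = c * c * (y ^ 4 * x ^ 4) := by
    have hx2y : ∀ t : P, x * (x * (y * t)) = y * (x * (x * t)) := fun t => by
      rw [h1, h2, h1, inv_mul_cancel_left]
    have hxx : x * x * y = y * (x * x) := by
      have := hx2y 1
      simpa [mul_assoc] using this
    have hsq : (y * x) * (y * x) = c * (y * y * (x * x)) := by
      simp only [mul_assoc, h1, h3, hxy]
    have hxxc : x * x * c = c * (x * x) := by
      calc x * x * c = x * (x * c) := by group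
        _ = x * (c⁻¹ * x) := by rw [hxc]
        _ = c * (x * x) := h4 x
    have hyyc : y * y * c = c * (y * y) := by
      calc y * y * c = y * (y * c) := by group
        _ = y * (c * y) := by rw [hyc]
        _ = c * (y * y) := h3 y
    have hxxyy : x * x * (y * y) = y * y * (x * x) := by
      rw [← mul_assoc, hxx, mul_assoc y, hxx]
      group
    have e4 : (y * x) ^ 4 = (y * x) * (y * x) * ((y * x) * (y * x)) := by
      simp only [pow_succ, pow_zero, one_mul, mul_assoc]
    rw [e4, hsq]
    have e5 : c * (y * y * (x * x)) * (c * (y * y * (x * x))) =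
        c * ((y * y) * ((x * x) * c)) * ((y * y) * (x * x)) := by group
    rw [e5, hxxc]
    have e6 : c * ((y * y) * (c * (x * x))) * ((y * y) * (x * x)) =
        c * (((y * y) * c) * (x * x)) * ((y * y) * (x * x)) := by group
    rw [e6, hyyc]
    have e7 : c * (c * (y * y) * (x * x)) * ((y * y) * (x * x)) =
        c * c * ((y * y) * ((x * x) * (y * y)) * (x * x)) := by group
    rw [e7, hxxyy]
    simp only [pow_succ, pow_zero, one_mul, mul_assoc]
  rw [hyx4, hx4, hy4, mul_one, mul_one] at e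
  exact e.symm

/-- Structure facts for a 2-group of symplectic type and exponent dividing 4. -/
theorem symp_exp4_facts {P : Type*} [Group P] [Finite P] (hP : IsOfSymplecticType P) (h4 : ∀ q : P, q ^ 4 = 1) {z : P}
    (hz : orderOf z = 2) (hzc : z ∈ center P) :
    (∀ a b : P, ⁅a, b⁆ ∈ zpowers z) ∧ (∀ a : P, a * a ∈ zpowers z) ∧ (∀ c ∈ center P, c * c = 1 → c = 1 ∨ c = z) := by
  classical
  haveI : Fact (Nat.Prime 2) := ⟨Nat.prime_two⟩
  obtain ⟨hp, hchar⟩ := hP
  obtain ⟨C, hCc, hcomm, hcen⟩ := exists_char_critical hp.isNilpotent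
  set Z₀ : Subgroup P := C ⊓ centralizer (C : Set P) with hZ₀
  have hZ₀a : ∀ a ∈ Z₀, ∀ b ∈ Z₀, a * b = b * a := fun a ha b hb =>
    (Subgroup.mem_centralizer_iff.mp hb.2 a ha.1)
  have hZ₀cyc : IsCyclic ↥Z₀ := hchar Z₀ inferInstance
    ⟨⟨fun a b => Subtype.ext (hZ₀a a a.2 b b.2)⟩⟩
  have hzC : z ∈ centralizer (C : Set P) := by
    rw [Subgroup.mem_centralizer_iff]
    intro c _
    exact (mem_center_iff.mp hzc c)
  have hzZ₀ : z ∈ Z₀ := ⟨hcen hzC, hzC⟩
  have hz1 : z ≠ 1 := by
    rintro rfl
    simp at hz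
  have hzz : z * z = 1 := by
    have := pow_orderOf_eq_one z
    rwa [hz, pow_two] at this
  have hzcent : ∀ g : P, g * z = z * g := fun g => mem_center_iff.mp hzc g
  have horder : ∀ w : P, w ≠ 1 → w * w = 1 → orderOf w = 2 := by
    intro w hw hww
    apply orderOf_eq_prime _ hw
    rwa [pow_two]
  have huniq : ∀ w ∈ Z₀, w * w = 1 → w = 1 ∨ w = z := by
    intro w hw hww
    by_cases h1 : w = 1
    · exact Or.inl h1
    · exact Or.inr (eq_of_orderOf_two_of_subgroup Z₀ hZ₀cyc hw hzZ₀ (horder w h1 hww) hz)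
  have huniqc : ∀ c ∈ center P, c * c = 1 → c = 1 ∨ c = z := by
    intro w hw hww
    by_cases h1 : w = 1
    · exact Or.inl h1
    · have hcc : IsCyclic ↥(center P) := hchar (center P) inferInstance inferInstance
      exact Or.inr (eq_of_orderOf_two_of_subgroup (center P) hcc hw hzc (horder w h1 hww) hz)
  have hmz : ∀ w : P, w = 1 ∨ w = z → w ∈ zpowers z := by
    rintro w (rfl | rfl)
    · exact Subgroup.one_mem _
    · exact mem_zpowers _
  have h4' : ∀ q : P, q * q * (q * q) = 1 := fun q => by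
    have := h4 q
    simpa [pow_succ, mul_assoc] using this
  have hcent2 : ∀ g w : P, (w = 1 ∨ w = z) → g * w = w * g := by
    rintro g w (rfl | rfl)
    · simp
    · exact hzcent g
  -- commutators within `C`
  have hstepa : ∀ a ∈ C, ∀ b ∈ C, ⁅b, a⁆ * ⁅b, a⁆ = 1 := by
    intro a ha b hb
    set w := ⁅b, a⁆ with hw
    have hwZ : w ∈ Z₀ := hcomm b a ha
    have e := fourth_power_class_two (a := a) (b := b) (w := w)
      (by simp only [hw, commutatorElement_def]; group)
      ((Subgroup.mem_centralizer_iff.mp hwZ.2 a ha).symm ▸ rfl)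
      ((Subgroup.mem_centralizer_iff.mp hwZ.2 b hb).symm ▸ rfl)
    rw [h4 (a * b), h4 a, h4 b, mul_one, mul_one] at e
    have h6 : w ^ 6 = 1 := e.symm
    have h44 : w ^ 4 = 1 := h4 w
    have h2 : w ^ 2 = 1 := by
      have : w ^ 6 = w ^ 4 * w ^ 2 := by rw [← pow_add]
      rwa [this, h44, one_mul] at h6
    rwa [pow_two] at h2
  have hstepa' : ∀ a ∈ C, ∀ b ∈ C, ⁅b, a⁆ = 1 ∨ ⁅b, a⁆ = z := fun a ha b hb =>
    huniq _ (hcomm b a ha) (hstepa a ha b hb)
  have hstepb : ∀ a ∈ C, a * a = 1 ∨ a * a = z := by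
    intro a ha
    apply huniq _ _ (h4' a)
    refine ⟨C.mul_mem ha ha, Subgroup.mem_centralizer_iff.mpr ?_⟩
    intro b hb
    -- `b a = w a b`, `w² = 1`
    set w := ⁅b, a⁆ with hw
    have hwz := hstepa' a ha b hb
    have h1 : b * a = w * (a * b) := by simp only [hw, commutatorElement_def]; group
    have h2 : a * w = w * a := hcent2 a w hwz
    calc b * (a * a) = (b * a) * a := by group
      _ = (w * (a * b)) * a := by rw [h1]
      _ = w * (a * (b * a)) := by group
      _ = w * (a * (w * (a * b))) := by rw [h1]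
      _ = w * ((a * w) * (a * b)) := by group
      _ = w * ((w * a) * (a * b)) := by rw [h2]
      _ = (w * w) * (a * a * b) := by group
      _ = a * a * b := by rw [hstepa a ha b hb, one_mul]
  have hstepb' : ∀ a ∈ C, ∀ g : P, g * (a * a) = (a * a) * g := fun a ha g =>
    hcent2 g _ (hstepb a ha)
  -- commutators of `P` with `C`
  have hstepc : ∀ x : P, ∀ c ∈ C, ⁅x, c⁆ = 1 ∨ ⁅x, c⁆ = z := by
    intro x c hc
    set w := ⁅x, c⁆ with hw
    have hwZ : w ∈ Z₀ := hcomm x c hc
    apply huniq w hwZ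
    have h1 : x * c * x⁻¹ = w * c := by simp only [hw, commutatorElement_def]; group
    have h2 : (x * c * x⁻¹) * (x * c * x⁻¹) = c * c := by
      calc (x * c * x⁻¹) * (x * c * x⁻¹) = x * (c * c) * x⁻¹ := by group
        _ = (c * c) * x * x⁻¹ := by rw [hstepb' c hc x]
        _ = c * c := by group
    rw [h1] at h2
    have hwc : c * w = w * c := (Subgroup.mem_centralizer_iff.mp hwZ.2 c hc).symm ▸ rfl
    have h3 : w * c * (w * c) = (w * w) * (c * c) := by
      calc w * c * (w * c) = w * (c * w) * c := by group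
        _ = w * (w * c) * c := by rw [hwc]
        _ = (w * w) * (c * c) := by group
    rw [h3] at h2
    exact mul_eq_right.mp h2
  -- commutators of `P` lie in `Z₀`
  have hstepd0 : ∀ x y : P, ∀ c ∈ C, (x * y) * c * (x * y)⁻¹ = (y * x) * c * (y * x)⁻¹ := by
    intro x y c hc
    have h1 : x * c * x⁻¹ = ⁅x, c⁆ * c := by simp only [commutatorElement_def]; group
    have h2 : y * c * y⁻¹ = ⁅y, c⁆ * c := by simp only [commutatorElement_def]; group
    have hx := hstepc x c hc
    have hy := hstepc y c hc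
    have e1 : (x * y) * c * (x * y)⁻¹ = ⁅y, c⁆ * (⁅x, c⁆ * c) := by
      calc (x * y) * c * (x * y)⁻¹ = x * (y * c * y⁻¹) * x⁻¹ := by group
        _ = x * (⁅y, c⁆ * c) * x⁻¹ := by rw [h2]
        _ = (x * ⁅y, c⁆) * c * x⁻¹ := by group
        _ = (⁅y, c⁆ * x) * c * x⁻¹ := by rw [hcent2 x _ hy]
        _ = ⁅y, c⁆ * (x * c * x⁻¹) := by group
        _ = ⁅y, c⁆ * (⁅x, c⁆ * c) := by rw [h1]
    have e2 : (y * x) * c * (y * x)⁻¹ = ⁅x, c⁆ * (⁅y, c⁆ * c) := by
      calc (y * x) * c * (y * x)⁻¹ = y * (x * c * x⁻¹) * y⁻¹ := by group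
        _ = y * (⁅x, c⁆ * c) * y⁻¹ := by rw [h1]
        _ = (y * ⁅x, c⁆) * c * y⁻¹ := by group
        _ = (⁅x, c⁆ * y) * c * y⁻¹ := by rw [hcent2 y _ hx]
        _ = ⁅x, c⁆ * (y * c * y⁻¹) := by group
        _ = ⁅x, c⁆ * (⁅y, c⁆ * c) := by rw [h2]
    have e3 : ⁅y, c⁆ * (⁅x, c⁆ * c) = ⁅x, c⁆ * (⁅y, c⁆ * c) := by
      rw [← mul_assoc, ← mul_assoc, hcent2 _ _ hx]
    rw [e1, e2, e3]
  have hstepd : ∀ x y : P, ⁅x, y⁆ ∈ Z₀ := by
    intro x y
    have hC : ⁅x, y⁆ ∈ centralizer (C : Set P) := by
      rw [Subgroup.mem_centralizer_iff]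
      intro c hc
      have hc' : (y * x)⁻¹ * c * (y * x) ∈ C := by
        have := (Subgroup.normal_of_characteristic C).conj_mem c hc (y * x)⁻¹
        rwa [inv_inv] at this
      have e := hstepd0 x y _ hc'
      have e5 : (y * x) * ((y * x)⁻¹ * c * (y * x)) * (y * x)⁻¹ = c := by group
      rw [e5] at e
      -- `e : (x y) c' (x y)⁻¹ = c`
      calc c * ⁅x, y⁆ = ((x * y) * ((y * x)⁻¹ * c * (y * x)) * (x * y)⁻¹) * ⁅x, y⁆ := by rw [e]
        _ = ⁅x, y⁆ * c := by
          simp only [commutatorElement_def]; group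
    exact ⟨hcen hC, hC⟩
  -- all commutators have order at most 2
  have hstepf : ∀ x y : P, ⁅x, y⁆ * ⁅x, y⁆ = 1 := by
    intro x y
    set c := ⁅x, y⁆ with hc
    have hcZ : c ∈ Z₀ := hstepd x y
    have hcC : c ∈ C := hcZ.1
    have hcc : c * c = 1 ∨ c * c = z := huniq _ (Z₀.mul_mem hcZ hcZ) (h4' c)
    rcases hcc with h0 | h0
    · exact h0
    exfalso
    have hcinv : z * c = c⁻¹ := by
      rw [← h0]
      have := h4' c
      rw [eq_inv_iff_mul_eq_one, ← this]
      group
    -- each element commutes with or inverts `c`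
    have hact : ∀ t : P, t * c = c * t ∨ t * c = c⁻¹ * t := by
      intro t
      have h1 : t * c * t⁻¹ = ⁅t, c⁆ * c := by simp only [commutatorElement_def]; group
      rcases hstepc t c hcC with h2 | h2
      · left
        rw [h2, one_mul] at h1
        calc t * c = (t * c * t⁻¹) * t := by group
          _ = c * t := by rw [h1]
      · right
        rw [h2, hcinv] at h1
        calc t * c = (t * c * t⁻¹) * t := by group
          _ = c⁻¹ * t := by rw [h1]
    have hxy : x * y = c * (y * x) := by simp only [hc, commutatorElement_def]; group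
    have hfin : c * c = 1 := by
      rcases hact x with hx | hx <;> rcases hact y with hy | hy
      · -- both commute
        have e := fourth_power_class_two (a := y) (b := x) (w := c) hxy hy hx
        rw [h4 (y * x), h4 y, h4 x, mul_one, mul_one] at e
        have h6 : c ^ 6 = 1 := e.symm
        have h2 : c ^ 2 = 1 := by
          have : c ^ 6 = c ^ 4 * c ^ 2 := by rw [← pow_add]
          rwa [this, h4 c, one_mul] at h6
        rwa [pow_two] at h2
      · -- `x` commutes, `y` inverts
        have hyx : y * x = c⁻¹ * (x * y) := by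
          rw [hxy]; group
        have h1 : x * c⁻¹ = c⁻¹ * x := by
          calc x * c⁻¹ = c⁻¹ * (c * x) * c⁻¹ := by group
            _ = c⁻¹ * (x * c) * c⁻¹ := by rw [hx]
            _ = c⁻¹ * x := by group
        have h2 : y * c⁻¹ = (c⁻¹)⁻¹ * y := by
          rw [inv_inv]
          calc y * c⁻¹ = c * (c⁻¹ * y) * c⁻¹ := by group
            _ = c * (y * c) * c⁻¹ := by rw [hy]
            _ = c * y := by group
        have := sq_eq_one_of_inverting (x := y) (y := x) (c := c⁻¹) hyx h2 h1 (h4 y) (h4 x) (h4 (x * y))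
        have h3 : (c⁻¹ * c⁻¹)⁻¹ = 1 := by rw [this, inv_one]
        rwa [mul_inv_rev, inv_inv] at h3
      · -- `x` inverts, `y` commutes
        exact sq_eq_one_of_inverting (x := x) (y := y) (c := c) hxy hx hy (h4 x) (h4 y) (h4 (y * x))
      · -- both invert: use `x` and `x * y`
        have h1 : x * (x * y) = c⁻¹ * ((x * y) * x) := by
          calc x * (x * y) = x * (c * (y * x)) := by rw [hxy]
            _ = (x * c) * (y * x) := by group
            _ = (c⁻¹ * x) * (y * x) := by rw [hx]
            _ = c⁻¹ * ((x * y) * x) := by group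
        have h2 : x * c⁻¹ = (c⁻¹)⁻¹ * x := by
          rw [inv_inv]
          calc x * c⁻¹ = c * (c⁻¹ * x) * c⁻¹ := by group
            _ = c * (x * c) * c⁻¹ := by rw [hx]
            _ = c * x := by group
        have h3 : (x * y) * c⁻¹ = c⁻¹ * (x * y) := by
          have h5 : y * c⁻¹ = c * y := by
            calc y * c⁻¹ = c * (c⁻¹ * y) * c⁻¹ := by group
              _ = c * (y * c) * c⁻¹ := by rw [hy]
              _ = c * y := by group
          calc (x * y) * c⁻¹ = x * (y * c⁻¹) := by group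
            _ = x * (c * y) := by rw [h5]
            _ = (x * c) * y := by group
            _ = (c⁻¹ * x) * y := by rw [hx]
            _ = c⁻¹ * (x * y) := by group
        have := sq_eq_one_of_inverting (x := x) (y := x * y) (c := c⁻¹) h1 h2 h3 (h4 x) (h4 (x * y)) (h4 (x * y * x))
        have h6 : (c⁻¹ * c⁻¹)⁻¹ = 1 := by rw [this, inv_one]
        rwa [mul_inv_rev, inv_inv] at h6
    rw [hfin] at h0
    exact hz1 h0.symm
  have hcomall : ∀ a b : P, ⁅a, b⁆ = 1 ∨ ⁅a, b⁆ = z := fun a b => huniq _ (hstepd a b) (hstepf a b)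
  refine ⟨fun a b => hmz _ (hcomall a b), ?_, huniqc⟩
  intro a
  apply hmz
  apply huniqc _ _ (h4' a)
  rw [mem_center_iff]
  intro b
  set w := ⁅b, a⁆ with hw
  have hwz := hcomall b a
  have h1 : b * a = w * (a * b) := by simp only [hw, commutatorElement_def]; group
  have h2 : a * w = w * a := hcent2 a w hwz
  calc b * (a * a) = (b * a) * a := by group
    _ = (w * (a * b)) * a := by rw [h1]
    _ = w * (a * (b * a)) := by group
    _ = w * (a * (w * (a * b))) := by rw [h1]
    _ = w * ((a * w) * (a * b)) := by group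
    _ = w * ((w * a) * (a * b)) := by rw [h2]
    _ = (w * w) * (a * a * b) := by group
    _ = a * a * b := by rw [hstepf b a, one_mul]

end Cfsg.Agent.Lib.Cl
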