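import Mathlib
import Cfsg.Agent.Lib.Cl.SympExp4
import Cfsg.Agent.Lib.FStar.GenFitting

/-!
# Conjugates of `z` in `Q = F*(C(z))`, for `Q` of symplectic type and exponent dividing 4
-/

set_option autoImplicit false
open Cfsg

namespace Cfsg.Agent.Lib.Cl

open Subgroup Cfsg.Agent.Lib.FStar
open scoped commutatorElement

variable {G : Type*} [Group G]

/-- Elementwise form of: `Q = F*(C(z))` is of symplectic type with all commutators and squares in `⟨z⟩`. -/
structure SympFacts (Q : Subgroup G) (z : G) : Prop where
  hz : orderOf z = 2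
  hzQ : z ∈ Q
  hzc : ∀ q ∈ Q, q * z = z * q
  hcom : ∀ a ∈ Q, ∀ b ∈ Q, ⁅a, b⁆ ∈ zpowers z
  hsq : ∀ a ∈ Q, a * a ∈ zpowers z
  hcen : ∀ c ∈ Q, (∀ q ∈ Q, c * q = q * c) → c * c = 1 → c = 1 ∨ c = z
  hnorm : ∀ c : G, c * z = z * c → ∀ q ∈ Q, c * q * c⁻¹ ∈ Q
  hself : ∀ c : G, c * z = z * c → (∀ q ∈ Q, c * q = q * c) → c ∈ Q

namespace SympFacts

variable {Q : Subgroup G} {z : G}

theorem map (h : SympFacts Q z) (φ : G ≃* G) : SympFacts (Q.map φ.toMonoidHom) (φ z) := by
  have hmem : ∀ q : G, q ∈ Q.map φ.toMonoidHom ↔ φ.symm q ∈ Q := by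
    intro q
    constructor
    · rintro ⟨q₀, hq₀, rfl⟩
      simpa using hq₀
    · intro hq
      exact ⟨_, hq, by simp⟩
  have hzp : ∀ c : G, c ∈ zpowers z → φ c ∈ zpowers (φ z) := by
    intro c hc
    obtain ⟨n, rfl⟩ := mem_zpowers_iff.mp hc
    exact ⟨n, by simp⟩
  have hcomm : ∀ a b c : G, φ.symm a * c = b → a * φ c = φ b := by
    intro a b c h1
    rw [← h1]
    simp
  refine ⟨?_, ?_, ?_, ?_, ?_, ?_, ?_, ?_⟩
  · rw [MulEquiv.orderOf_eq]; exact h.hz
  · exact ⟨z, h.hzQ, rfl⟩
  · rintro _ ⟨q, hq, rfl⟩
    have := h.hzc q hq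
    show φ q * φ z = φ z * φ q
    rw [← map_mul, this, map_mul]
  · rintro _ ⟨a, ha, rfl⟩ _ ⟨b, hb, rfl⟩
    have := hzp _ (h.hcom a ha b hb)
    simpa [commutatorElement_def] using this
  · rintro _ ⟨a, ha, rfl⟩
    have := hzp _ (h.hsq a ha)
    simpa using this
  · rintro _ ⟨c, hc, rfl⟩ h1 h2
    have h3 : c * c = 1 := by
      apply φ.injective
      simpa using h2
    have h4 : ∀ q ∈ Q, c * q = q * c := by
      intro q hq
      apply φ.injective
      have := h1 (φ q) ⟨q, hq, rfl⟩
      simpa using this
    rcases h.hcen c hc h4 h3 with h5 | h5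
    · left
      show φ c = 1
      rw [h5, map_one]
    · right
      show φ c = φ z
      rw [h5]
  · intro c hc q hq
    rw [hmem] at hq ⊢
    have h1 : φ.symm c * z = z * φ.symm c := by
      apply φ.injective
      simpa using hc
    have := h.hnorm _ h1 _ hq
    simpa using this
  · intro c hc hcq
    rw [hmem]
    apply h.hself
    · apply φ.injective
      simpa using hc
    · intro q hq
      apply φ.injective
      have := hcq (φ q) ⟨q, hq, rfl⟩
      simpa using this

variable (h : SympFacts Q z)
include h

theorem z_ne_one : z ≠ 1 := by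
  intro h1
  have := h.hz
  rw [h1] at this
  simp at this

theorem zz : z * z = 1 := by
  have := pow_orderOf_eq_one z
  rwa [h.hz, pow_two] at this

theorem zinv : z⁻¹ = z := inv_eq_of_mul_eq_one_left h.zz

theorem eq_one_or {c : G} (hc : c ∈ zpowers z) : c = 1 ∨ c = z := by
  obtain ⟨n, rfl⟩ := mem_zpowers_iff.mp hc
  have h1 : (n : ℤ) % 2 = 0 ∨ (n : ℤ) % 2 = 1 := by omega
  rcases h1 with h1 | h1
  · left
    obtain ⟨k, rfl⟩ : ∃ k : ℤ, n = 2 * k := ⟨n / 2, by omega⟩
    rw [zpow_mul]
    have : z ^ (2 : ℤ) = 1 := by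
      have := h.zz
      rw [zpow_two]; exact this
    rw [this, one_zpow]
  · right
    obtain ⟨k, rfl⟩ : ∃ k : ℤ, n = 2 * k + 1 := ⟨n / 2, by omega⟩
    rw [zpow_add, zpow_mul]
    have : z ^ (2 : ℤ) = 1 := by
      have := h.zz
      rw [zpow_two]; exact this
    rw [this, one_zpow, one_mul, zpow_one]

theorem comm_z {c : G} (hc : c = 1 ∨ c = z) {q : G} (hq : q ∈ Q) : q * c = c * q := by
  rcases hc with rfl | rfl
  · simp
  · exact h.hzc q hq

theorem comm_mul_left {x y w : G} (hx : x ∈ Q) (hy : y ∈ Q) (hw : w ∈ Q) : ⁅x * y, w⁆ = ⁅x, w⁆ * ⁅y, w⁆ := by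
  have h1 : ⁅x * y, w⁆ = x * ⁅y, w⁆ * x⁻¹ * ⁅x, w⁆ := by
    simp only [commutatorElement_def]; group
  have h2 : x * ⁅y, w⁆ * x⁻¹ = ⁅y, w⁆ := by
    rw [h.comm_z (h.eq_one_or (h.hcom y hy w hw)) hx]; group
  rw [h1, h2]
  have hy' := h.eq_one_or (h.hcom y hy w hw)
  rcases hy' with h3 | h3
  · rw [h3]; simp
  · rw [h3]
    exact (h.comm_z (h.eq_one_or (h.hcom x hx w hw)) h.hzQ)

/-- If `x ∈ Q` is an involution other than `z`, then `z = [h, x]` for some `h ∈ Q`. -/
theorem exists_swap {x : G} (hx : x ∈ Q) (hxx : x * x = 1) (hx1 : x ≠ 1) (hxz : x ≠ z) :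
    ∃ y ∈ Q, y * x * y⁻¹ = z * x := by
  have hex : ∃ y ∈ Q, x * y ≠ y * x := by
    by_contra hcon
    push_neg at hcon
    rcases h.hcen x hx hcon hxx with h1 | h1
    · exact hx1 h1
    · exact hxz h1
  obtain ⟨y, hy, hne⟩ := hex
  refine ⟨y, hy, ?_⟩
  rcases h.eq_one_or (h.hcom y hy x hx) with h1 | h1
  · exact absurd (commutatorElement_eq_one_iff_mul_comm.mp h1).symm hne
  · rw [← h1]
    simp only [commutatorElement_def]; group

end SympFacts

/-- The main theorem: if `x` is a `G`-conjugate of `z` lying in `Q`, `x ≠ z`, then `z` lies in the conjugate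
of `Q` attached to `x`. -/
theorem self_mem_conj {Q Q' : Subgroup G} {z x : G} (hQ : SympFacts Q z) (hQ' : SympFacts Q' x) (hx : x ∈ Q)
    (hne : x ≠ z) (hconj : ∀ c : G, c * z * c⁻¹ = x → ∀ q ∈ Q, c * q * c⁻¹ ∈ Q') : z ∈ Q' := by
  classical
  by_contra hzQ'
  have hzz := hQ.zz
  have hxx := hQ'.zz
  have hzinv := hQ.zinv
  have hxinv := hQ'.zinv
  have hx1 := hQ'.z_ne_one
  have hxzc : x * z = z * x := hQ.hzc x hx
  have hx'c : ∀ q ∈ Q', q * x = x * q := hQ'.hzc
  have hz'c : ∀ q ∈ Q, q * z = z * q := hQ.hzc
  -- the element `h`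
  obtain ⟨h, hhQ, hhx⟩ := hQ.exists_swap hx hxx hx1 hne
  have hhz : h * z = z * h := hz'c h hhQ
  -- the index two subgroup `U` of `Q`
  have hdec : ∀ q ∈ Q, (q * x = x * q) ∨ (h⁻¹ * q) * x = x * (h⁻¹ * q) := by
    intro q hq
    rcases hQ.eq_one_or (hQ.hcom q hq x hx) with h1 | h1
    · left
      exact commutatorElement_eq_one_iff_mul_comm.mp h1
    · right
      have h2 : q * x * q⁻¹ = z * x := by
        rw [← h1]
        simp only [commutatorElement_def]; group
      have h3 : h⁻¹ * q * x * q⁻¹ * h = x := by
        calc h⁻¹ * q * x * q⁻¹ * h = h⁻¹ * (q * x * q⁻¹) * h := by group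
          _ = h⁻¹ * (h * x * h⁻¹) * h := by rw [h2, hhx]
          _ = x := by group
      calc (h⁻¹ * q) * x = (h⁻¹ * q * x * q⁻¹ * h) * (h⁻¹ * q) := by group
        _ = x * (h⁻¹ * q) := by rw [h3]
  -- elements commuting with `U` and `h` are central in `Q`
  have hcentral : ∀ d : G, (∀ u ∈ Q, u * x = x * u → d * u = u * d) → d * h = h * d → ∀ q ∈ Q, d * q = q * d := by
    intro d hd hdh q hq
    rcases hdec q hq with h1 | h1
    · exact hd q hq h1
    · have h2 := hd _ (Q.mul_mem (Q.inv_mem hhQ) hq) h1
      have h3 : q = h * (h⁻¹ * q) := by group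
      rw [h3]
      calc d * (h * (h⁻¹ * q)) = (d * h) * (h⁻¹ * q) := by group
        _ = (h * d) * (h⁻¹ * q) := by rw [hdh]
        _ = h * (d * (h⁻¹ * q)) := by group
        _ = h * ((h⁻¹ * q) * d) := by rw [h2]
        _ = h * (h⁻¹ * q) * d := by group
  -- `Q ∩ Q' = ⟨x⟩`
  have hD : ∀ d ∈ Q, d ∈ Q' → d = 1 ∨ d = x := by
    intro d hdQ hdQ'
    have hdU : ∀ u ∈ Q, u * x = x * u → d * u = u * d := by
      intro u hu hux
      have h1 : ⁅u, d⁆ ∈ Q' := by
        rw [commutatorElement_def]
        exact Q'.mul_mem (hQ'.hnorm u hux d hdQ') (Q'.inv_mem hdQ')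
      rcases hQ.eq_one_or (hQ.hcom u hu d hdQ) with h2 | h2
      · exact (commutatorElement_eq_one_iff_mul_comm.mp h2).symm
      · rw [h2] at h1
        exact absurd h1 hzQ'
    -- `d₁`
    have hstep : ∀ d₁ ∈ Q, d₁ ∈ Q' → (∀ u ∈ Q, u * x = x * u → d₁ * u = u * d₁) → d₁ * h = h * d₁ → d₁ = 1 := by
      intro d₁ h1 h2 h3 h4
      have h5 := hcentral d₁ h3 h4
      have h6 : d₁ * d₁ = 1 := by
        rcases hQ.eq_one_or (hQ.hsq d₁ h1) with h7 | h7
        · exact h7
        · exact absurd (h7 ▸ Q'.mul_mem h2 h2) hzQ'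
      rcases hQ.hcen d₁ h1 h5 h6 with h7 | h7
      · exact h7
      · exact absurd (h7 ▸ h2) hzQ'
    by_cases hdh : d * h = h * d
    · left
      exact hstep d hdQ hdQ' hdU hdh
    · right
      have h1 : ⁅h, d⁆ = z := by
        rcases hQ.eq_one_or (hQ.hcom h hhQ d hdQ) with h2 | h2
        · exact absurd (commutatorElement_eq_one_iff_mul_comm.mp h2).symm hdh
        · exact h2
      have h2 : d * x * h = h * (d * x) := by
        have h3 : h * d = z * (d * h) := by
          rw [← h1]; simp only [commutatorElement_def]; group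
        have h4 : h * x = z * (x * h) := by
          calc h * x = (h * x * h⁻¹) * h := by group
            _ = z * x * h := by rw [hhx]
            _ = z * (x * h) := by group
        calc d * x * h = d * (x * h) := by group
          _ = d * (z⁻¹ * (h * x)) := by rw [h4]; group
          _ = d * (z * (h * x)) := by rw [hzinv]
          _ = (d * z) * (h * x) := by group
          _ = (z * d) * (h * x) := by rw [hz'c d hdQ]
          _ = z * (d * h) * x := by group
          _ = h * d * x := by rw [h3]
          _ = h * (d * x) := by group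
      have h3 : d * x = 1 := by
        apply hstep (d * x) (Q.mul_mem hdQ hx) (Q'.mul_mem hdQ' hQ'.hzQ)
        · intro u hu hux
          calc d * x * u = d * (x * u) := by group
            _ = d * (u * x) := by rw [hux]
            _ = (d * u) * x := by group
            _ = (u * d) * x := by rw [hdU u hu hux]
            _ = u * (d * x) := by group
        · exact h2
      exact eq_of_mul_inv_eq_one (by rw [hxinv]; exact h3)
  -- Step: an element of `Q'` moving `z` to `x z`
  have hz_norm : ∀ q ∈ Q', z * q * z⁻¹ ∈ Q' := hQ'.hnorm z hxzc.symm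
  have hy₀ : ∃ y₀ ∈ Q', y₀ * z * y₀⁻¹ = x * z := by
    obtain ⟨y, hyQ', hyb⟩ : ∃ y ∈ Q', y * z * y⁻¹ * z⁻¹ ≠ 1 := by
      by_contra hcon
      push_neg at hcon
      apply hzQ'
      apply hQ'.hself z hxzc.symm
      intro q hq
      have h1 := hcon q hq
      rw [mul_inv_eq_one, mul_inv_eq_iff_eq_mul] at h1
      exact h1.symm
    set b := y * z * y⁻¹ * z⁻¹ with hb
    have hbQ' : b ∈ Q' := Q'.mul_mem hyQ' (by
      have h1 := hz_norm _ (Q'.inv_mem hyQ')
      have e : z * y⁻¹ * z⁻¹ = z * y⁻¹ * z⁻¹ := rfl
      have e2 : y * z * y⁻¹ * z⁻¹ = y * (z * y⁻¹ * z⁻¹) := by group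
      exact h1) |> fun h => by
        have e2 : y * z * y⁻¹ * z⁻¹ = y * (z * y⁻¹ * z⁻¹) := by group
        rw [hb, e2]
        exact Q'.mul_mem hyQ' (hz_norm _ (Q'.inv_mem hyQ'))
    have hbx : b * x = x * b := hx'c b hbQ'
    have hzb : z * b * z⁻¹ = b⁻¹ := by
      simp only [hb, hzinv]
      calc z * (y * z * y⁻¹ * z) * z = z * y * z * y⁻¹ * (z * z) := by group
        _ = z * y * z * y⁻¹ := by rw [hzz]; group
        _ = (y * z * y⁻¹ * z)⁻¹ := by
          simp only [mul_inv_rev, inv_inv, hzinv]
          group
    by_cases hbz : b * z = z * b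
    · -- `b` commutes with `z`, hence is an involution
      have hbb : b * b = 1 := by
        have h1 : z * b * z⁻¹ = b := by rw [← hbz]; group
        rw [hzb] at h1
        have h2 : b * b = 1 := by
          calc b * b = b * b⁻¹ := by rw [h1]
            _ = 1 := by group
        exact h2
      have hbn : ∀ q ∈ Q, b * q * b⁻¹ ∈ Q := hQ.hnorm b hbz
      by_cases hU : ∃ u ∈ Q, u * x = x * u ∧ u * b ≠ b * u
      · obtain ⟨u, huQ, hux, hub⟩ := hU
        have hd1 : ⁅u, b⁆ ∈ Q := by
          have e : ⁅u, b⁆ = u * (b * u⁻¹ * b⁻¹) := by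
            simp only [commutatorElement_def]; group
          rw [e]
          exact Q.mul_mem huQ (hbn _ (Q.inv_mem huQ))
        have hd2 : ⁅u, b⁆ ∈ Q' := by
          rw [commutatorElement_def]
          exact Q'.mul_mem (hQ'.hnorm u hux b hbQ') (Q'.inv_mem hbQ')
        have hd3 : ⁅u, b⁆ = x := by
          rcases hD _ hd1 hd2 with h1 | h1
          · exact absurd (commutatorElement_eq_one_iff_mul_comm.mp h1) hub
          · exact h1
        have huz : u * z = z * u := hz'c u huQ
        have hub' : u * b * u⁻¹ = x * b := by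
          rw [← hd3]; simp only [commutatorElement_def]; group
        have huy : u * y * u⁻¹ ∈ Q' := hQ'.hnorm u hux y hyQ'
        refine ⟨y⁻¹ * (u * y * u⁻¹), Q'.mul_mem (Q'.inv_mem hyQ') huy, ?_⟩
        have e1 : y * z * y⁻¹ = b * z := by
          simp only [hb]; group
        have e2 : u * (b * z) * u⁻¹ = x * b * z := by
          calc u * (b * z) * u⁻¹ = (u * b * u⁻¹) * (u * z * u⁻¹) := by group
            _ = x * b * (u * z * u⁻¹) := by rw [hub']
            _ = x * b * (z * u * u⁻¹) := by rw [huz]
            _ = x * b * z := by group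
        calc y⁻¹ * (u * y * u⁻¹) * z * (y⁻¹ * (u * y * u⁻¹))⁻¹
            = y⁻¹ * (u * y * (u⁻¹ * z * u) * y⁻¹ * u⁻¹) * y := by group
          _ = y⁻¹ * (u * (y * z * y⁻¹) * u⁻¹) * y := by
              have : u⁻¹ * z * u = z := by
                calc u⁻¹ * z * u = u⁻¹ * (z * u) := by group
                  _ = u⁻¹ * (u * z) := by rw [huz]
                  _ = z := by group
              rw [this]; group
          _ = y⁻¹ * (u * (b * z) * u⁻¹) * y := by rw [e1]
          _ = y⁻¹ * (x * b * z) * y := by rw [e2]
          _ = (y⁻¹ * x) * (b * z) * y := by group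
          _ = (x * y⁻¹) * (b * z) * y := by rw [hx'c _ (Q'.inv_mem hyQ')]
          _ = x * (y⁻¹ * (y * z * y⁻¹) * y) := by rw [e1]; group
          _ = x * z := by group
      · -- `b` centralizes `U`
        push_neg at hU
        -- `b ∈ Q`
        have hbQ : b ∈ Q := by
          set w := h⁻¹ * b * h * b⁻¹ with hw
          have hwQ : w ∈ Q := by
            have e : w = h⁻¹ * (b * h * b⁻¹) := by simp only [hw]; group
            rw [e]
            exact Q.mul_mem (Q.inv_mem hhQ) (hbn h hhQ)
          have hbh : b * h * b⁻¹ = h * w := by simp only [hw]; group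
          have hbinv : b⁻¹ = b := inv_eq_of_mul_eq_one_left hbb
          have hzb' : b * z = z * b := hbz
          -- (i) `w` commutes with `x`
          have hwx : w * x = x * w := by
            have h1 : (b * h * b⁻¹) * x * (b * h * b⁻¹)⁻¹ = z * x := by
              calc (b * h * b⁻¹) * x * (b * h * b⁻¹)⁻¹ = b * (h * (b⁻¹ * x * b) * h⁻¹) * b⁻¹ := by group
                _ = b * (h * x * h⁻¹) * b⁻¹ := by
                    have : b⁻¹ * x * b = x := by
                      calc b⁻¹ * x * b = b⁻¹ * (x * b) := by group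
                        _ = b⁻¹ * (b * x) := by rw [hbx]
                        _ = x := by group
                    rw [this]
                _ = b * (z * x) * b⁻¹ := by rw [hhx]
                _ = (b * z) * x * b⁻¹ := by group
                _ = z * (b * x) * b⁻¹ := by rw [hbz]; group
                _ = z * (x * b) * b⁻¹ := by rw [hbx]
                _ = z * x := by group
            rw [hbh] at h1
            have h2 : h * (w * x * w⁻¹) * h⁻¹ = h * x * h⁻¹ := by
              rw [hhx, ← h1]; group
            have h3 : w * x * w⁻¹ = x := by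
              have := mul_right_cancel (mul_left_cancel (a := h) (b := (w * x * w⁻¹) * h⁻¹) (c := x * h⁻¹)
                (by simpa [mul_assoc] using h2))
              exact this
            calc w * x = (w * x * w⁻¹) * w := by group
              _ = x * w := by rw [h3]
          -- (ii) `w` commutes with `U`
          have hwU : ∀ u ∈ Q, u * x = x * u → w * u = u * w := by
            intro u hu hux
            have hbu : u * b = b * u := hU u hu hux
            have h1 : ⁅h * w, u⁆ = ⁅h, u⁆ * ⁅w, u⁆ := hQ.comm_mul_left hhQ hwQ hu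
            have h2 : ⁅h * w, u⁆ = b * ⁅h, u⁆ * b⁻¹ := by
              rw [← hbh]
              have h3 : b * u * b⁻¹ = u := by rw [← hbu]; group
              conv_lhs => rw [← h3]
              simp only [commutatorElement_def]; group
            have h3 : b * ⁅h, u⁆ * b⁻¹ = ⁅h, u⁆ := by
              rcases hQ.eq_one_or (hQ.hcom h hhQ u hu) with h4 | h4
              · rw [h4]; group
              · rw [h4, hbz]; group
            rw [h2, h3] at h1
            have h4 : ⁅w, u⁆ = 1 := (mul_eq_left.mp h1.symm)
            exact commutatorElement_eq_one_iff_mul_comm.mp h4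
          have hbw : b * w = w * b := (hU w hwQ hwx).symm
          -- (iii) `w² = 1`
          have hww : w * w = 1 := by
            have h1 : b * (b * h * b⁻¹) * b⁻¹ = h := by
              calc b * (b * h * b⁻¹) * b⁻¹ = (b * b) * h * (b * b)⁻¹ := by group
                _ = h := by rw [hbb]; group
            rw [hbh] at h1
            have h2 : b * (h * w) * b⁻¹ = (b * h * b⁻¹) * (b * w * b⁻¹) := by group
            rw [h2, hbh, hbw] at h1
            have h3 : h * w * (w * b * b⁻¹) = h * (w * w) := by group
            rw [h3] at h1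
            exact mul_eq_left.mp h1
          -- (iv) `w` commutes with `h`
          have hwh : w * h = h * w := by
            have h1 : (b * h * b⁻¹) * (b * h * b⁻¹) = h * h := by
              calc (b * h * b⁻¹) * (b * h * b⁻¹) = b * (h * h) * b⁻¹ := by group
                _ = h * h := by
                  rcases hQ.eq_one_or (hQ.hsq h hhQ) with h4 | h4
                  · rw [h4]; group
                  · rw [h4, hbz]; group
            rw [hbh] at h1
            have h2 : w * (h * w) = h := by
              have h3 : h * (w * (h * w)) = h * h := by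
                rw [← h1]; group
              exact mul_left_cancel h3
            have h3 : w⁻¹ = w := inv_eq_of_mul_eq_one_left hww
            calc w * h = w * h * (w * w) := by rw [hww, mul_one]
              _ = (w * (h * w)) * w := by group
              _ = h * w := by rw [h2]
          -- (v)
          have hwC := hcentral w hwU hwh
          have hfin : b ∈ Q := by
            rcases hQ.hcen w hwQ hwC hww with h1 | h1
            · -- `b` centralizes `Q`
              rw [h1, mul_one] at hbh
              apply hQ.hself b hbz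
              apply hcentral b (fun u hu hux => (hU u hu hux).symm)
              calc b * h = (b * h * b⁻¹) * b := by group
                _ = h * b := by rw [hbh]
            · -- `b x` centralizes `Q`
              rw [h1] at hbh
              have hhxx : x * h * x⁻¹ = z * h := by
                have h2 : h * x = z * (x * h) := by
                  calc h * x = (h * x * h⁻¹) * h := by group
                    _ = z * x * h := by rw [hhx]
                    _ = z * (x * h) := by group
                calc x * h * x⁻¹ = z⁻¹ * (z * (x * h)) * x⁻¹ := by group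
                  _ = z⁻¹ * (h * x) * x⁻¹ := by rw [h2]
                  _ = z * h := by rw [hzinv]; group
              have hbxh : (b * x) * h = h * (b * x) := by
                have h3 : (b * x) * h * (b * x)⁻¹ = h := by
                  calc (b * x) * h * (b * x)⁻¹ = b * (x * h * x⁻¹) * b⁻¹ := by group
                    _ = b * (z * h) * b⁻¹ := by rw [hhxx]
                    _ = (b * z) * h * b⁻¹ := by group
                    _ = z * (b * h * b⁻¹) := by rw [hbz]; group
                    _ = z * (h * z) := by rw [hbh]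
                    _ = z * (z * h) := by rw [hz'c h hhQ]
                    _ = h := by
                      rw [← mul_assoc, hzz, one_mul]
                calc (b * x) * h = ((b * x) * h * (b * x)⁻¹) * (b * x) := by group
                  _ = h * (b * x) := by rw [h3]
              have hbxQ : b * x ∈ Q := by
                apply hQ.hself (b * x)
                · calc b * x * z = b * (x * z) := by group
                    _ = b * (z * x) := by rw [hxzc]
                    _ = (b * z) * x := by group
                    _ = (z * b) * x := by rw [hbz]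
                    _ = z * (b * x) := by group
                · apply hcentral (b * x) _ hbxh
                  intro u hu hux
                  calc b * x * u = b * (x * u) := by group
                    _ = b * (u * x) := by rw [hux]
                    _ = (b * u) * x := by group
                    _ = (u * b) * x := by rw [hU u hu hux]
                    _ = u * (b * x) := by group
              have h4 : b = (b * x) * x⁻¹ := by group
              rw [h4]
              exact Q.mul_mem hbxQ (Q.inv_mem hx)
          exact hfin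
        refine ⟨y, hyQ', ?_⟩
        rcases hD b hbQ hbQ' with h1 | h1
        · exact absurd h1 hyb
        · rw [← h1]
          simp only [hb]; group
    · -- `z` does not commute with `b`: `b ² = x`
      have hbb : b * b = x := by
        rcases hQ'.eq_one_or (hQ'.hsq b hbQ') with h1 | h1
        · exfalso
          apply hbz
          have h2 : b⁻¹ = b := inv_eq_of_mul_eq_one_left h1
          rw [h2] at hzb
          calc b * z = (z * b * z⁻¹) * z := by rw [hzb]
            _ = z * b := by group
        · exact h1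
      refine ⟨b, hbQ', ?_⟩
      have h1 : z * b⁻¹ * z⁻¹ = b := by
        have : z * b⁻¹ * z⁻¹ = (z * b * z⁻¹)⁻¹ := by group
        rw [this, hzb, inv_inv]
      calc b * z * b⁻¹ = b * (z * b⁻¹ * z⁻¹) * z := by group
        _ = b * b * z := by rw [h1]
        _ = x * z := by rw [hbb]
  obtain ⟨y₀, hy₀Q', hy₀⟩ := hy₀
  -- the element interchanging `z` and `x`
  have hhz' : h * z * h⁻¹ = z := by rw [hhz]; group
  have hy₀x : y₀ * x * y₀⁻¹ = x := by rw [hx'c y₀ hy₀Q']; group
  have hhxz : h * (x * z) * h⁻¹ = x := by
    calc h * (x * z) * h⁻¹ = (h * x * h⁻¹) * (h * z * h⁻¹) := by group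
      _ = z * x * z := by rw [hhx, hhz']
      _ = x * z * z := by rw [hxzc]
      _ = x := by rw [mul_assoc, hzz, mul_one]
  have e1 : (h * y₀ * h) * z * (h * y₀ * h)⁻¹ = x := by
    calc (h * y₀ * h) * z * (h * y₀ * h)⁻¹ = h * (y₀ * (h * z * h⁻¹) * y₀⁻¹) * h⁻¹ := by group
      _ = h * (x * z) * h⁻¹ := by rw [hhz', hy₀]
      _ = x := hhxz
  have e2 : (h * y₀ * h) * x * (h * y₀ * h)⁻¹ = z := by
    calc (h * y₀ * h) * x * (h * y₀ * h)⁻¹ = h * (y₀ * (h * x * h⁻¹) * y₀⁻¹) * h⁻¹ := by group
      _ = h * (y₀ * (z * x) * y₀⁻¹) * h⁻¹ := by rw [hhx]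
      _ = h * ((y₀ * z * y₀⁻¹) * (y₀ * x * y₀⁻¹)) * h⁻¹ := by group
      _ = h * (x * z * x) * h⁻¹ := by rw [hy₀, hy₀x]
      _ = h * (z * x * x) * h⁻¹ := by rw [hxzc]
      _ = h * z * h⁻¹ := by rw [mul_assoc z, hxx, mul_one]
      _ = z := hhz'
  have := hconj _ e1 x hx
  rw [e2] at this
  exact hzQ' this

end Cfsg.Agent.Lib.Cl
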