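import Mathlib
import Cfsg.Prelude.Def_SporadicCombinatorics

/-!
The ternary code of length 12: an explicit parametrisation by six scalars.
-/

namespace Cfsg.Agent.Lib.Cl.TG

abbrev P6 := ZMod 3 × ZMod 3 × ZMod 3 × ZMod 3 × ZMod 3 × ZMod 3

/-- The column values as a function of a row label. -/
def col (a b c : ZMod 3) : ZMod 3 → ZMod 3 := fun r => if r = 0 then a else if r = 1 then b else c

/-- The word with parameters `a`. -/
def wd (a : P6) : Cfsg.ArrayPt → ZMod 3 := fun p =>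
  let (a1, a2, a3, a4, a5, a6) := a
  match p.1 with
  | 0 => col (2*a1+2*a3+2*a5+a6) (2*a1+a2+a3+2*a4+2*a6) (2*a1+2*a2+a4+a5+2*a6) p.2
  | 1 => col (a1+a2+2*a3+a4+2*a5+2*a6) (a1+2*a2+a3+2*a4+a5) a1 p.2
  | 2 => col (2*a2+2*a3+2*a6) a2 a3 p.2
  | 3 => col (2*a4+2*a5+2*a6) a4 a5 p.2

theorem wd_col : ∀ (a : P6) (i : Fin 4), ∑ r : ZMod 3, wd a (i, r) = - a.2.2.2.2.2 := by
  decide +kernel

theorem wd_tetra : ∀ (a : P6) (c d : ZMod 3), ∑ i : Fin 4, wd a (i, (c • (![0, 1, 1, 1] : Fin 4 → ZMod 3) + d • (![1, 0, 1, 2] : Fin 4 → ZMod 3)) i) = a.2.2.2.2.2 := by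
  decide +kernel

theorem wd_recover : ∀ a : P6, a = (wd a (1, 2), wd a (2, 1), wd a (2, 2), wd a (3, 1), wd a (3, 2),
    - ∑ r : ZMod 3, wd a (0, r)) := by
  decide +kernel

theorem wd_injective : Function.Injective wd := by
  intro a b h
  rw [wd_recover a, wd_recover b, h]

theorem mem_tetracode (t : Fin 4 → ZMod 3) (ht : t ∈ Cfsg.tetracode) : ∃ c d : ZMod 3,
    t = c • (![0, 1, 1, 1] : Fin 4 → ZMod 3) + d • (![1, 0, 1, 2] : Fin 4 → ZMod 3) := by
  unfold Cfsg.tetracode at ht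
  rw [Submodule.mem_span_pair] at ht
  obtain ⟨c, d, h⟩ := ht
  exact ⟨c, d, h.symm⟩

theorem wd_mem (a : P6) : wd a ∈ Cfsg.ternaryGolayCode := by
  refine ⟨a.2.2.2.2.2, fun i => wd_col a i, fun t ht => ?_⟩
  obtain ⟨c, d, rfl⟩ := mem_tetracode t ht
  exact wd_tetra a c d

theorem zmod3_cases (r : ZMod 3) : r = 0 ∨ r = 1 ∨ r = 2 := by
  revert r; decide

theorem exists_of_mem {x : Cfsg.ArrayPt → ZMod 3} (hx : x ∈ Cfsg.ternaryGolayCode) :
    ∃ a : P6, x = wd a := by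
  obtain ⟨s, hc, ht⟩ := hx
  have h3 : (3 : ZMod 3) = 0 := by decide
  have hsum : ∀ f : ZMod 3 → ZMod 3, ∑ r : ZMod 3, f r = f 0 + f 1 + f 2 := fun f =>
    Fin.sum_univ_three f
  have hc0 : x (0, 0) + x (0, 1) + x (0, 2) = -s := by rw [← hc 0, hsum (fun r => x (0, r))]
  have hc1 : x (1, 0) + x (1, 1) + x (1, 2) = -s := by rw [← hc 1, hsum (fun r => x (1, r))]
  have hc2 : x (2, 0) + x (2, 1) + x (2, 2) = -s := by rw [← hc 2, hsum (fun r => x (2, r))]
  have hc3 : x (3, 0) + x (3, 1) + x (3, 2) = -s := by rw [← hc 3, hsum (fun r => x (3, r))]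
  have hu : (![0, 1, 1, 1] : Fin 4 → ZMod 3) ∈ Cfsg.tetracode :=
    Submodule.subset_span (by simp)
  have hv : (![1, 0, 1, 2] : Fin 4 → ZMod 3) ∈ Cfsg.tetracode :=
    Submodule.subset_span (by simp)
  have huv : (![1, 1, 2, 0] : Fin 4 → ZMod 3) ∈ Cfsg.tetracode := by
    have : (![1, 1, 2, 0] : Fin 4 → ZMod 3) = ![0, 1, 1, 1] + ![1, 0, 1, 2] := by decide
    rw [this]
    exact Submodule.add_mem _ hu hv
  have ht0 : x (0, 0) + x (1, 1) + x (2, 1) + x (3, 1) = s :=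
    (Fin.sum_univ_four _).symm.trans (ht _ hu)
  have ht1 : x (0, 1) + x (1, 0) + x (2, 1) + x (3, 2) = s :=
    (Fin.sum_univ_four _).symm.trans (ht _ hv)
  have ht2 : x (0, 1) + x (1, 1) + x (2, 2) + x (3, 0) = s :=
    (Fin.sum_univ_four _).symm.trans (ht _ huv)
  refine ⟨(x (1, 2), x (2, 1), x (2, 2), x (3, 1), x (3, 2), s), ?_⟩
  generalize hx00 : x (0, 0) = x00 at *
  generalize hx01 : x (0, 1) = x01 at *
  generalize hx02 : x (0, 2) = x02 at *
  generalize hx10 : x (1, 0) = x10 at *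
  generalize hx11 : x (1, 1) = x11 at *
  generalize hx12 : x (1, 2) = x12 at *
  generalize hx20 : x (2, 0) = x20 at *
  generalize hx21 : x (2, 1) = x21 at *
  generalize hx22 : x (2, 2) = x22 at *
  generalize hx30 : x (3, 0) = x30 at *
  generalize hx31 : x (3, 1) = x31 at *
  generalize hx32 : x (3, 2) = x32 at *
  funext ⟨i, r⟩
  rcases zmod3_cases r with rfl | rfl | rfl <;> fin_cases i
  · show x (0, 0) = 2*x12+2*x22+2*x32+s
    rw [hx00]
    linear_combination 1*hc1 + 2*hc3 + 1*ht0 + 2*ht1 + 1*ht2 + ( (-1)*x01 + (-1)*x10 + (-1)*x11 + (-1)*x12 + (-1)*x21 + (-1)*x22 + (-1)*x30 + (-1)*x31 + (-2)*x32 )*h3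
  · show x (1, 0) = x12+x21+2*x22+x31+2*x32+2*s
    rw [hx10]
    linear_combination 2*hc1 + 2*hc3 + 2*ht1 + 1*ht2 + ( (-1)*x01 + (-1)*x10 + (-1)*x11 + (-1)*x12 + (-1)*x21 + (-1)*x22 + (-1)*x30 + (-1)*x31 + (-2)*x32 + (-1)*s )*h3
  · show x (2, 0) = 2*x21+2*x22+2*s
    rw [hx20]
    linear_combination 1*hc2 + ( (-1)*x21 + (-1)*x22 + (-1)*s )*h3
  · show x (3, 0) = 2*x31+2*x32+2*s
    rw [hx30]
    linear_combination 1*hc3 + ( (-1)*x31 + (-1)*x32 + (-1)*s )*h3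
  · show x (0, 1) = 2*x12+x21+x22+2*x31+2*s
    rw [hx01]
    linear_combination 1*hc1 + 1*hc3 + 2*ht1 + 2*ht2 + ( (-1)*x01 + (-1)*x10 + (-1)*x11 + (-1)*x12 + (-1)*x21 + (-1)*x22 + (-1)*x30 + (-1)*x31 + (-1)*x32 )*h3
  · show x (1, 1) = x12+2*x21+x22+2*x31+x32
    rw [hx11]
    linear_combination 2*hc1 + 1*hc3 + 1*ht1 + 2*ht2 + ( (-1)*x01 + (-1)*x10 + (-1)*x11 + (-1)*x12 + (-1)*x21 + (-1)*x22 + (-1)*x30 + (-1)*x31 + (-1)*x32 )*h3
  · exact hx21
  · exact hx31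
  · show x (0, 2) = 2*x12+2*x21+x31+x32+2*s
    rw [hx02]
    linear_combination 1*hc0 + 1*hc1 + 2*ht0 + 2*ht1 + ( (-1)*x00 + (-1)*x01 + (-1)*x10 + (-1)*x11 + (-1)*x12 + (-2)*x21 + (-1)*x31 + (-1)*x32 )*h3
  · exact hx12
  · exact hx22
  · exact hx32

theorem mem_iff (x : Cfsg.ArrayPt → ZMod 3) : x ∈ Cfsg.ternaryGolayCode ↔ ∃ a : P6, x = wd a :=
  ⟨exists_of_mem, by rintro ⟨a, rfl⟩; exact wd_mem a⟩

theorem card_code : Nat.card ↥Cfsg.ternaryGolayCode = 729 := by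
  have hbij : Function.Bijective (fun a : P6 => (⟨wd a, wd_mem a⟩ : ↥Cfsg.ternaryGolayCode)) := by
    constructor
    · intro a b h
      exact wd_injective (congrArg Subtype.val h)
    · rintro ⟨x, hx⟩
      obtain ⟨a, rfl⟩ := exists_of_mem hx
      exact ⟨a, rfl⟩
  rw [← Nat.card_congr (Equiv.ofBijective _ hbij)]
  simp [Nat.card_eq_fintype_card, ZMod.card]

/-- Words of the code with a decidable weight condition are counted through the parameters. -/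
theorem ncard_weight (P : ℕ → Prop) [DecidablePred P] :
    {x : Cfsg.ArrayPt → ZMod 3 | x ∈ Cfsg.ternaryGolayCode ∧ P (Cfsg.ternarySupport x).card}.ncard =
      (Finset.univ.filter (fun a : P6 => P (Cfsg.ternarySupport (wd a)).card)).card := by
  have : {x : Cfsg.ArrayPt → ZMod 3 | x ∈ Cfsg.ternaryGolayCode ∧ P (Cfsg.ternarySupport x).card} =
      wd '' (↑(Finset.univ.filter (fun a : P6 => P (Cfsg.ternarySupport (wd a)).card)) : Set P6) := by
    ext x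
    simp only [Set.mem_setOf_eq, Set.mem_image, Finset.coe_filter, Finset.mem_univ, true_and]
    constructor
    · rintro ⟨hx, hp⟩
      obtain ⟨a, rfl⟩ := exists_of_mem hx
      exact ⟨a, hp, rfl⟩
    · rintro ⟨a, hp, rfl⟩
      exact ⟨wd_mem a, hp⟩
  rw [this, Set.ncard_image_of_injective _ wd_injective, Set.ncard_coe_finset]

theorem count6 : (Finset.univ.filter (fun a : P6 => (Cfsg.ternarySupport (wd a)).card = 6)).card = 264 := by
  decide +kernel

theorem count9 : (Finset.univ.filter (fun a : P6 => (Cfsg.ternarySupport (wd a)).card = 9)).card = 440 := by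
  decide +kernel

theorem count12 : (Finset.univ.filter (fun a : P6 => (Cfsg.ternarySupport (wd a)).card = 12)).card = 24 := by
  decide +kernel

theorem weights : ∀ a : P6, (Cfsg.ternarySupport (wd a)).card = 0 ∨ (Cfsg.ternarySupport (wd a)).card = 6 ∨
    (Cfsg.ternarySupport (wd a)).card = 9 ∨ (Cfsg.ternarySupport (wd a)).card = 12 := by
  decide +kernel

end Cfsg.Agent.Lib.Cl.TG
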