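import Mathlib
import Cfsg.Agent.Lib.Cl.TernGolay

namespace Cfsg.Agent.Lib.Cl.TG

/-- The blocks. -/
def blocksF : Finset (Finset Cfsg.ArrayPt) :=
  (Finset.univ.filter (fun a : P6 => (Cfsg.ternarySupport (wd a)).card = 6)).image
    (fun a => Cfsg.ternarySupport (wd a))

theorem card_blocksF : blocksF.card = 132 := by decide +kernel

theorem mem_blocksF {b : Finset Cfsg.ArrayPt} :
    b ∈ blocksF ↔ ∃ x ∈ Cfsg.ternaryGolayCode, Cfsg.ternarySupport x = b ∧ b.card = 6 := by
  simp only [blocksF, Finset.mem_image, Finset.mem_filter, Finset.mem_univ, true_and]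
  constructor
  · rintro ⟨a, ha, rfl⟩
    exact ⟨wd a, wd_mem a, rfl, ha⟩
  · rintro ⟨x, hx, rfl, hc⟩
    obtain ⟨a, rfl⟩ := exists_of_mem hx
    exact ⟨a, hc, rfl⟩

theorem mem_support {x : Cfsg.ArrayPt → ZMod 3} {p : Cfsg.ArrayPt} :
    p ∈ Cfsg.ternarySupport x ↔ x p ≠ 0 := by
  simp [Cfsg.ternarySupport]

theorem eq_zero_of_card_le {z : Cfsg.ArrayPt → ZMod 3} (hz : z ∈ Cfsg.ternaryGolayCode)
    (hc : (Cfsg.ternarySupport z).card ≤ 5) : z = 0 := by
  obtain ⟨a, rfl⟩ := exists_of_mem hz
  have hw := weights a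
  have h0 : (Cfsg.ternarySupport (wd a)).card = 0 := by omega
  funext p
  by_contra hp
  have hm : p ∈ Cfsg.ternarySupport (wd a) := mem_support.mpr hp
  rw [Finset.card_eq_zero.mp h0] at hm
  simp at hm

theorem same_support {x y : Cfsg.ArrayPt → ZMod 3} (hx : x ∈ Cfsg.ternaryGolayCode)
    (hy : y ∈ Cfsg.ternaryGolayCode) (hxc : (Cfsg.ternarySupport x).card = 6)
    (hyc : (Cfsg.ternarySupport y).card = 6)
    (h5 : 5 ≤ (Cfsg.ternarySupport x ∩ Cfsg.ternarySupport y).card) :
    Cfsg.ternarySupport x = Cfsg.ternarySupport y := by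
  classical
  set I := Cfsg.ternarySupport x ∩ Cfsg.ternarySupport y with hI
  set Tp := I.filter (fun r => x r = y r) with hTp
  set Tm := I.filter (fun r => ¬ x r = y r) with hTm
  have hsum : Tp.card + Tm.card = I.card := Finset.card_filter_add_card_filter_not _
  have hU : (Cfsg.ternarySupport x ∪ Cfsg.ternarySupport y).card ≤ 7 := by
    have := Finset.card_union_add_card_inter (Cfsg.ternarySupport x) (Cfsg.ternarySupport y)
    rw [← hI, hxc, hyc] at this
    omega
  have hbound : ∀ (T : Finset Cfsg.ArrayPt) (z : Cfsg.ArrayPt → ZMod 3), T ⊆ I → 3 ≤ T.card →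
      (∀ r ∈ T, z r = 0) → (∀ r, r ∉ Cfsg.ternarySupport x ∪ Cfsg.ternarySupport y → z r = 0) →
      (Cfsg.ternarySupport z).card ≤ 5 := by
    intro T z hT h3 hz1 hz2
    have hsub : Cfsg.ternarySupport z ⊆ (Cfsg.ternarySupport x ∪ Cfsg.ternarySupport y) \ T := by
      intro r hr
      rw [mem_support] at hr
      rw [Finset.mem_sdiff]
      refine ⟨?_, fun h => hr (hz1 r h)⟩
      by_contra h
      exact hr (hz2 r h)
    have h1 := Finset.card_le_card hsub
    have hTsub : T ⊆ Cfsg.ternarySupport x ∪ Cfsg.ternarySupport y := fun r hr =>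
      Finset.mem_union_left _ (Finset.mem_inter.mp (hT hr)).1
    rw [Finset.card_sdiff_of_subset hTsub] at h1
    omega
  have hout : ∀ r, r ∉ Cfsg.ternarySupport x ∪ Cfsg.ternarySupport y → x r = 0 ∧ y r = 0 := by
    intro r hr
    rw [Finset.mem_union, mem_support, mem_support] at hr
    push Not at hr
    exact hr
  by_cases h3 : 3 ≤ Tp.card
  · have hz : x - y ∈ Cfsg.ternaryGolayCode := Submodule.sub_mem _ hx hy
    have hc := hbound Tp (x - y) (Finset.filter_subset _ _) h3
      (fun r hr => by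
        have := (Finset.mem_filter.mp hr).2
        simp [this])
      (fun r hr => by
        obtain ⟨h1, h2⟩ := hout r hr
        simp [h1, h2])
    have h0 := eq_zero_of_card_le hz hc
    rw [sub_eq_zero.mp h0]
  · have h3' : 3 ≤ Tm.card := by omega
    have hz : x + y ∈ Cfsg.ternaryGolayCode := Submodule.add_mem _ hx hy
    have hc := hbound Tm (x + y) (Finset.filter_subset _ _) h3'
      (fun r hr => by
        obtain ⟨hrI, hne⟩ := Finset.mem_filter.mp hr
        obtain ⟨h1, h2⟩ := Finset.mem_inter.mp hrI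
        rw [mem_support] at h1 h2
        have key : ∀ u v : ZMod 3, u ≠ 0 → v ≠ 0 → u ≠ v → u + v = 0 := by decide
        exact key _ _ h1 h2 hne)
      (fun r hr => by
        obtain ⟨h1, h2⟩ := hout r hr
        simp [h1, h2])
    have h0 := eq_zero_of_card_le hz hc
    have : x = -y := eq_neg_of_add_eq_zero_left h0
    rw [this]
    ext r
    simp [mem_support]

theorem block_unique {b b' : Finset Cfsg.ArrayPt} (hb : b ∈ blocksF) (hb' : b' ∈ blocksF)
    (h5 : 5 ≤ (b ∩ b').card) : b = b' := by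
  obtain ⟨x, hx, rfl, hc⟩ := mem_blocksF.mp hb
  obtain ⟨y, hy, rfl, hc'⟩ := mem_blocksF.mp hb'
  exact same_support hx hy hc hc' h5

theorem exists_block_aux {α : Type*} [Fintype α] [DecidableEq α] (B : Finset (Finset α))
    (hα : Fintype.card α = 12) (hB : B.card = 132) (h6 : ∀ b ∈ B, b.card = 6)
    (huniq : ∀ b ∈ B, ∀ b' ∈ B, 5 ≤ (b ∩ b').card → b = b')
    (s : Finset α) (hs : s.card = 5) : ∃ b ∈ B, s ⊆ b := by
  classical
  let D := B.sigma (fun b => Finset.powersetCard 5 b)
  have hD : D.card = 792 := by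
    simp only [D]
    rw [Finset.card_sigma]
    have : ∀ b ∈ B, (Finset.powersetCard 5 b).card = 6 := by
      intro b hb
      rw [Finset.card_powersetCard, h6 b hb]
      norm_num [Nat.choose]
    rw [Finset.sum_congr rfl this, Finset.sum_const, hB]
    rfl
  let f : (Σ _ : Finset α, Finset α) → Finset α := fun p => p.2
  have hinj : Set.InjOn f D := by
    rintro ⟨b, t⟩ hp ⟨b', t'⟩ hp' h
    simp only [f] at h
    subst h
    have h1 := Finset.mem_sigma.mp hp
    have h2 := Finset.mem_sigma.mp hp'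
    simp only [Finset.mem_powersetCard] at h1 h2
    have : b = b' := huniq _ h1.1 _ h2.1 (by
      rw [← h1.2.2]
      exact Finset.card_le_card (Finset.subset_inter h1.2.1 h2.2.1))
    rw [this]
  have hsub : D.image f ⊆ Finset.powersetCard 5 Finset.univ := by
    intro t ht
    obtain ⟨⟨b, t'⟩, hp, rfl⟩ := Finset.mem_image.mp ht
    have h1 := Finset.mem_sigma.mp hp
    simp only [Finset.mem_powersetCard] at h1
    simp only [f, Finset.mem_powersetCard]
    exact ⟨Finset.subset_univ _, h1.2.2⟩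
  have hcard : (D.image f).card = 792 := by
    rw [Finset.card_image_of_injOn hinj, hD]
  have heq : D.image f = Finset.powersetCard 5 Finset.univ := by
    apply Finset.eq_of_subset_of_card_le hsub
    rw [hcard, Finset.card_powersetCard, Finset.card_univ, hα]
    norm_num [Nat.choose]
  have hs' : s ∈ Finset.powersetCard 5 (Finset.univ : Finset α) := by
    simp [Finset.mem_powersetCard, hs]
  rw [← heq] at hs'
  obtain ⟨⟨b, t'⟩, hp, rfl⟩ := Finset.mem_image.mp hs'
  have h1 := Finset.mem_sigma.mp hp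
  simp only [Finset.mem_powersetCard] at h1
  exact ⟨b, h1.1, h1.2.1⟩

theorem exists_block (s : Finset Cfsg.ArrayPt) (hs : s.card = 5) : ∃ b ∈ blocksF, s ⊆ b :=
  exists_block_aux blocksF (by simp [ZMod.card]) card_blocksF
    (fun b hb => by
      obtain ⟨x, hx, -, hc⟩ := mem_blocksF.mp hb
      exact hc)
    (fun _ hb _ hb' h => block_unique hb hb' h) s hs

end Cfsg.Agent.Lib.Cl.TG
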