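import Mathlib
import Cfsg.Prelude.Def_LieExceptional
import Cfsg.Prelude.Def_Solvable
import Cfsg.Agent.Lib.FrobThm.Basic
import Cfsg.Agent.Lib.Char.ZassZ
import Cfsg.Agent.Lib.Perm.NormalTrans
import Cfsg.Agent.Lib.Perm.ZassSwap
import Cfsg.Agent.Lib.Hall.Frobenius
import Cfsg.Agent.S0740

/-! Normal subgroups of Zassenhaus groups. -/

set_option autoImplicit false
set_option linter.unusedSectionVars false
set_option linter.unusedVariables false

open MulAction

namespace Cfsg.Agent.Lib.Cl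

universe u v

variable {G : Type u} {Ω : Type v} [Group G] [MulAction G Ω]

/-- A group acting faithfully on a finite set is finite. -/
theorem zn_finite [Finite Ω] [FaithfulSMul G Ω] : Finite G :=
  Finite.of_injective (MulAction.toPermHom G Ω)
      (fun g g' h => FaithfulSMul.eq_of_smul_eq_smul (α := Ω) (fun x => by
        have := congrArg (fun σ : Equiv.Perm Ω => σ x) h
        simpa using this))

/-- Kernel elements fixing a second point are trivial. -/
theorem zn_kernel_eq_one {a b : Ω} (hab : a ≠ b) {F : Subgroup G}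
    (hFfix : ∀ u ∈ F, u ≠ 1 → ∀ c : Ω, u • c = c → c = a) {y : G} (hy : y ∈ F)
    (hyb : y • b = b) : y = 1 := by
  by_contra h
  exact hab (hFfix y hy h b hyb).symm

/-- If a non-identity element of a normal subgroup fixes two points `a, b`, then the normal
subgroup contains the kernel at `a`. -/
theorem zn_kernel_le_normal [Finite G] [Fintype Ω] (hZ : Cfsg.IsZassenhausGroup G Ω) {a b : Ω}
    (hab : a ≠ b) (N : Subgroup G) [hN : N.Normal] {F : Subgroup G} (hFa : F ≤ stabilizer G a)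
    (hFcard : Nat.card F + 1 = Fintype.card Ω)
    (hFfix : ∀ u ∈ F, u ≠ 1 → ∀ c : Ω, u • c = c → c = a) {x : G} (hxN : x ∈ N) (hx1 : x ≠ 1)
    (hxa : x • a = a) (hxb : x • b = b) : F ≤ N := by
  classical
  have hconj : ∀ f ∈ F, x * f * x⁻¹ ∈ F := fun f hf =>
    Cfsg.Agent.Lib.Char.zass_kernel_conj_mem hZ hab F hFa hFcard hFfix hxa hf
  -- the map f ↦ f * x * f⁻¹ * x⁻¹ on F
  let m : F → F := fun f => ⟨f.1 * (x * f.1⁻¹ * x⁻¹), F.mul_mem f.2 (hconj _ (F.inv_mem f.2))⟩
  have hminj : Function.Injective m := by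
    intro f g hfg
    have h1 : f.1 * (x * f.1⁻¹ * x⁻¹) = g.1 * (x * g.1⁻¹ * x⁻¹) := congrArg Subtype.val hfg
    set y : G := g.1⁻¹ * f.1 with hy
    have hyF : y ∈ F := F.mul_mem (F.inv_mem g.2) f.2
    have hcomm : y * x = x * y := by
      have h2 : f.1 * x * f.1⁻¹ = g.1 * x * g.1⁻¹ := by
        have := congrArg (fun t => t * x) h1
        simpa [mul_assoc] using this
      calc y * x = g.1⁻¹ * (f.1 * x * f.1⁻¹) * f.1 := by rw [hy]; group
        _ = g.1⁻¹ * (g.1 * x * g.1⁻¹) * f.1 := by rw [h2]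
        _ = x * y := by rw [hy]; group
    -- y fixes b
    have hyb : y • b = b := by
      have h3 : x • (y • b) = y • b := by
        rw [← mul_smul, ← hcomm, mul_smul, hxb]
      by_contra hne
      have hya : y • b ≠ a := by
        intro h0
        have hya' : y • a = a := hFa hyF
        rw [← hya'] at h0
        exact hab (smul_left_cancel y h0).symm
      exact hx1 (hZ.2.2.1 x a b (y • b) hab (Ne.symm hne) hya.symm hxa hxb h3)
    have hy1 := zn_kernel_eq_one hab hFfix hyF hyb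
    apply Subtype.ext
    have : g.1⁻¹ * f.1 = 1 := hy1
    exact (inv_mul_eq_one.mp this).symm
  have hmsurj := Finite.surjective_of_injective hminj
  intro f hf
  obtain ⟨e, he⟩ := hmsurj ⟨f, hf⟩
  have he' : e.1 * (x * e.1⁻¹ * x⁻¹) = f := congrArg Subtype.val he
  rw [← he']
  have h4 : e.1 * x * e.1⁻¹ ∈ N := hN.conj_mem x hxN e.1
  have h5 : e.1 * (x * e.1⁻¹ * x⁻¹) = (e.1 * x * e.1⁻¹) * x⁻¹ := by group
  rw [h5]
  exact N.mul_mem h4 (N.inv_mem hxN)

/-- A non-trivial normal subgroup of a Zassenhaus group has a non-identity element fixing any two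
given points. -/
theorem zn_two_stab [Finite G] [Fintype Ω] (hZ : Cfsg.IsZassenhausGroup G Ω) (N : Subgroup G)
    [hN : N.Normal] (hN1 : N ≠ ⊥) {a b : Ω} (hab : a ≠ b) :
    ∃ x ∈ N, x ≠ 1 ∧ x • a = a ∧ x • b = b := by
  classical
  haveI := hZ.1
  haveI hnt : Nontrivial Ω := ⟨a, b, hab⟩
  haveI h2t := hZ.2.1
  have hprim : IsPreprimitive G Ω := MulAction.isPreprimitive_of_is_two_pretransitive h2t
  haveI hNt : IsPretransitive N Ω := Cfsg.Agent.Lib.Perm.pretransitive_of_normal hprim N hN1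
  by_contra hcon
  push Not at hcon
  -- all two-point stabilisers in N are trivial
  have htriv : ∀ c d : Ω, c ≠ d → ∀ x ∈ N, x • c = c → x • d = d → x = 1 := by
    intro c d hcd x hxN hxc hxd
    obtain ⟨g, hg1, hg2⟩ := Cfsg.Agent.Lib.Char.zass_two_trans hZ c d a b hcd hab
    by_contra hx1
    have h1 : g * x * g⁻¹ ∈ N := hN.conj_mem x hxN g
    have h2 : g * x * g⁻¹ ≠ 1 := by
      intro h0
      apply hx1
      have : x = g⁻¹ * (g * x * g⁻¹) * g := by group
      rw [this, h0]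
      group
    have h3 := hcon _ h1 h2
    have h4 : (g * x * g⁻¹) • a = a := by
      rw [← hg1]; simp [mul_smul, hxc]
    have h5 := h3 h4
    apply h5
    rw [← hg2]; simp [mul_smul, hxd]
  -- some stabiliser is nontrivial
  obtain ⟨c, hc⟩ := hZ.2.2.2.2 N hN inferInstance
  -- N_c is a Frobenius complement in N
  let A : Subgroup N := stabilizer N c
  have hAbot : A ≠ ⊥ := hc
  obtain ⟨d, hd⟩ := exists_ne c
  have hAtop : A ≠ ⊤ := by
    intro h0
    obtain ⟨n, hn⟩ := exists_smul_eq N c d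
    have : n ∈ A := by rw [h0]; trivial
    have h6 : n • c = c := this
    rw [h6] at hn
    exact hd hn.symm
  have hF : Cfsg.IsFrobeniusComplement A := by
    refine ⟨hAbot, hAtop, fun g hg => ?_⟩
    rw [eq_bot_iff]
    intro y hy
    rw [Subgroup.mem_inf] at hy
    obtain ⟨hy1, hy2⟩ := hy
    have hy2' := Cfsg.Agent.Lib.Core.mem_conj_smul_iff.mp hy2
    have hy3 : (g⁻¹ * y * g) • c = c := hy2'
    have hgc : g • c ≠ c := fun h0 => hg h0
    have hy4 : y • (g • c) = g • c := by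
      have h7 : ((g⁻¹ * y * g) : N) • c = g⁻¹ • (y • (g • c)) := by
        rw [mul_smul, mul_smul]
      rw [h7] at hy3
      rw [inv_smul_eq_iff] at hy3
      exact hy3
    have hy5 : (y : G) = 1 := by
      refine htriv c (g • c) (Ne.symm hgc) y y.2 hy1 ?_
      exact hy4
    rw [Subgroup.mem_bot]
    exact Subtype.ext hy5
  obtain ⟨K, hKset, hKn, hKc⟩ := Cfsg.Agent.Lib.FrobThm.frobenius_theorem A hF
  -- K has no fixed points
  have hKfree : ∀ k ∈ K, k ≠ 1 → ∀ e : Ω, k • e ≠ e := by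
    intro k hk hk1 e he
    have hk' : k ∈ (K : Set N) := hk
    rw [hKset] at hk'
    rcases hk' with h | h
    · exact hk1 h
    · obtain ⟨n, hn⟩ := exists_smul_eq N c e
      apply h n
      apply Cfsg.Agent.Lib.Core.mem_conj_smul_iff.mpr
      show (n⁻¹ * k * n) • c = c
      rw [mul_smul, mul_smul, hn, he, inv_smul_eq_iff, hn]
  -- every element of N without fixed points lies in K
  have hKmem : ∀ k : N, (∀ e : Ω, k • e ≠ e) → k ∈ K := by
    intro k hk
    have : k ∈ (K : Set N) := by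
      rw [hKset]
      right
      intro g hg
      have hg' := Cfsg.Agent.Lib.Core.mem_conj_smul_iff.mp hg
      have h8 : (g⁻¹ * k * g) • c = c := hg'
      rw [mul_smul, mul_smul, inv_smul_eq_iff] at h8
      exact hk _ h8
    exact this
  -- the image of K in G
  let R : Subgroup G := K.map N.subtype
  have hRnorm : R.Normal := by
    constructor
    rintro _ ⟨k, hk, rfl⟩ g
    have h9 : g * (k : G) * g⁻¹ ∈ N := hN.conj_mem _ k.2 g
    refine ⟨⟨_, h9⟩, ?_, rfl⟩
    by_cases hk1 : k = 1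
    · subst hk1
      have : (⟨g * ((1 : N) : G) * g⁻¹, h9⟩ : N) = 1 := by
        apply Subtype.ext
        simp
      rw [SetLike.mem_coe, this]
      exact K.one_mem
    · apply hKmem
      intro e he
      have h10 : ((g * (k : G) * g⁻¹) : G) • e = e := he
      rw [mul_smul, mul_smul, smul_eq_iff_eq_inv_smul] at h10
      exact hKfree k hk hk1 (g⁻¹ • e) h10
  -- R is transitive
  have hRtrans : IsPretransitive R Ω := by
    have hdiv := hKc
    constructor
    intro e e'
    -- write n = k * s with s ∈ A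
    obtain ⟨n, hn⟩ := exists_smul_eq N c e
    obtain ⟨n', hn'⟩ := exists_smul_eq N c e'
    obtain ⟨⟨k, s⟩, hks⟩ := hKc.2 n
    obtain ⟨⟨k', s'⟩, hks'⟩ := hKc.2 n'
    have hn1 : (k : N) • c = e := by
      have h11 : (s : N) • c = c := s.2
      rw [← hn, ← hks]
      show _ = ((k : N) * (s : N)) • c
      rw [mul_smul, h11]
    have hn2 : (k' : N) • c = e' := by
      have h11 : (s' : N) • c = c := s'.2
      rw [← hn', ← hks']
      show _ = ((k' : N) * (s' : N)) • c
      rw [mul_smul, h11]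
    have hmem : ((k' : N) * (k : N)⁻¹) ∈ K := K.mul_mem k'.2 (K.inv_mem k.2)
    refine ⟨⟨((k' : N) * (k : N)⁻¹ : N), ⟨_, hmem, rfl⟩⟩, ?_⟩
    show (((k' : N) * (k : N)⁻¹ : N) : G) • e = e'
    rw [← hn1, ← hn2]
    show ((k' : N) * (k : N)⁻¹) • (k : N) • c = _
    rw [mul_smul, inv_smul_smul]
  obtain ⟨e, he⟩ := hZ.2.2.2.2 R hRnorm hRtrans
  apply he
  rw [eq_bot_iff]
  intro y hy
  rw [Subgroup.mem_bot]
  obtain ⟨k, hk, hky⟩ := y.2
  have h12 : (k : G) • e = e := by
    have h13 : (k : G) = (y : G) := hky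
    rw [h13]
    exact hy
  by_cases hk1 : k = 1
  · apply Subtype.ext
    rw [← hky, hk1]
    rfl
  · exact absurd h12 (hKfree k hk hk1 e)

/-- Elements with only the fixed point `a` lie in every non-trivial normal subgroup. -/
theorem zn_kernel_mem [Finite G] [Fintype Ω] (hZ : Cfsg.IsZassenhausGroup G Ω) (N : Subgroup G)
    [hN : N.Normal] (hN1 : N ≠ ⊥) {a b : Ω} (hab : a ≠ b) {u : G} (hua : u • a = a)
    (hu : ∀ c : Ω, c ≠ a → u • c ≠ c) : u ∈ N := by
  obtain ⟨F, hFa, hFcard, hFfix⟩ := Cfsg.Agent.Lib.Char.zass_exists_kernel hZ hab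
  obtain ⟨x, hxN, hx1, hxa, hxb⟩ := zn_two_stab hZ N hN1 hab
  have hle := zn_kernel_le_normal hZ hab N hFa hFcard hFfix hxN hx1 hxa hxb
  apply hle
  rw [Cfsg.Agent.Lib.Char.zass_kernel_mem_iff hZ hab F hFa hFcard hFfix]
  exact ⟨hua, Or.inr hu⟩

/-- The kernel at `a` is transitive on the other points. -/
theorem zn_kernel_trans [Finite G] [Fintype Ω] {a b : Ω} (hab : a ≠ b) {F : Subgroup G}
    (hFa : F ≤ stabilizer G a) (hFcard : Nat.card F + 1 = Fintype.card Ω)
    (hFfix : ∀ u ∈ F, u ≠ 1 → ∀ c : Ω, u • c = c → c = a) {d : Ω} (hd : d ≠ a) {e : Ω} (he : e ≠ a) :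
    ∃ f ∈ F, f • d = e := by
  classical
  let m : F → {c : Ω // c ≠ a} := fun f => ⟨(f : G) • d, fun h0 => by
    have h1 : (f : G) • a = a := hFa f.2
    rw [← h1] at h0
    exact hd (smul_left_cancel _ h0)⟩
  have hminj : Function.Injective m := by
    intro f g hfg
    have h1 : (f : G) • d = (g : G) • d := congrArg Subtype.val hfg
    have h2 : ((g : G)⁻¹ * f) • d = d := by
      rw [mul_smul, h1, inv_smul_smul]
    by_contra hne
    have h3 : ((g : G)⁻¹ * f) ≠ 1 := by
      intro h0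
      apply hne
      apply Subtype.ext
      exact (inv_mul_eq_one.mp h0).symm
    exact hd (hFfix _ (F.mul_mem (F.inv_mem g.2) f.2) h3 d h2)
  have hcard : Fintype.card {c : Ω // c ≠ a} = Fintype.card Ω - 1 := by
    rw [Fintype.card_subtype_compl]
    simp
  haveI : Fintype F := Fintype.ofFinite F
  have hbij : Function.Bijective m := by
    rw [Fintype.bijective_iff_injective_and_card]
    refine ⟨hminj, ?_⟩
    rw [hcard, ← Nat.card_eq_fintype_card]
    omega
  obtain ⟨f, hf⟩ := hbij.2 ⟨e, he⟩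
  exact ⟨f, f.2, congrArg Subtype.val hf⟩

/-- A normal subgroup of a Zassenhaus group acts doubly transitively. -/
theorem zn_two_trans [Finite G] [Fintype Ω] (hZ : Cfsg.IsZassenhausGroup G Ω) (N : Subgroup G)
    [hN : N.Normal] (hN1 : N ≠ ⊥) (u v u' v' : Ω) (huv : u ≠ v) (huv' : u' ≠ v') :
    ∃ n ∈ N, n • u = u' ∧ n • v = v' := by
  haveI := hZ.1
  haveI hnt : Nontrivial Ω := ⟨u, v, huv⟩
  haveI h2t := hZ.2.1
  have hprim : IsPreprimitive G Ω :=
    MulAction.isPreprimitive_of_is_two_pretransitive h2t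
  haveI hNt : IsPretransitive N Ω := Cfsg.Agent.Lib.Perm.pretransitive_of_normal hprim N hN1
  obtain ⟨n₁, hn₁⟩ := exists_smul_eq N u u'
  have hd : (n₁ : G) • v ≠ u' := by
    intro h0
    have h1 : (n₁ : G) • u = u' := hn₁
    rw [← h1] at h0
    exact huv (smul_left_cancel _ h0).symm
  obtain ⟨F, hFa, hFcard, hFfix⟩ := Cfsg.Agent.Lib.Char.zass_exists_kernel hZ huv'
  obtain ⟨x, hxN, hx1, hxa, hxb⟩ := zn_two_stab hZ N hN1 huv'
  have hle := zn_kernel_le_normal hZ huv' N hFa hFcard hFfix hxN hx1 hxa hxb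
  obtain ⟨f, hfF, hf⟩ := zn_kernel_trans huv' hFa hFcard hFfix hd huv'.symm
  refine ⟨f * n₁, N.mul_mem (hle hfF) n₁.2, ?_, ?_⟩
  · have h1 : (n₁ : G) • u = u' := hn₁
    rw [mul_smul, h1]
    exact hFa hfF
  · rw [mul_smul, hf]

/-- **A Zassenhaus group of odd degree is simple.** -/
theorem zn_simple_of_odd {G : Type u} {Ω : Type v} [Group G] [MulAction G Ω] [Fintype Ω]
    (hZ : Cfsg.IsZassenhausGroup G Ω) (hodd : Odd (Fintype.card Ω)) : IsSimpleGroup G := by
  classical
  haveI := hZ.1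
  haveI hfinG : Finite G := zn_finite (Ω := Ω)
  obtain ⟨g₀, hg₀, a, b, hab, -, -⟩ := hZ.2.2.2.1
  haveI hnt : Nontrivial Ω := ⟨a, b, hab⟩
  haveI : Nontrivial G := ⟨g₀, 1, hg₀⟩
  refine ⟨fun N hN => ?_⟩
  by_cases hN1 : N = ⊥
  · exact Or.inl hN1
  right
  haveI := hN
  -- every involution lies in `N`, with a unique fixed point
  have hinv : ∀ u : G, u ^ 2 = 1 → u ≠ 1 → ∃ c : Ω, u • c = c ∧ (∀ d : Ω, d ≠ c → u • d ≠ d) := by
    intro u hu2 hu1
    have hpar := Cfsg.Agent.Lib.Perm.fix_parity_pow (Ω := Ω) u 1 (by simpa using hu2)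
    have hle := Cfsg.Agent.Lib.Perm.fix_le_two hZ hu1
    have hoddf : Odd (Nat.card (MulAction.fixedBy Ω u)) := by
      rw [Nat.odd_iff] at hodd ⊢
      rw [← hodd]
      exact hpar.symm
    have h1 : Nat.card (MulAction.fixedBy Ω u) = 1 := by
      obtain ⟨k, hk⟩ := hoddf
      omega
    rw [Nat.card_eq_one_iff_unique] at h1
    obtain ⟨hsub, ⟨⟨c, hc⟩⟩⟩ := h1
    refine ⟨c, hc, fun d hd hdfix => hd ?_⟩
    have := hsub.elim ⟨d, hdfix⟩ ⟨c, hc⟩
    exact congrArg Subtype.val this
  have hinvN : ∀ u : G, u ^ 2 = 1 → u ∈ N := by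
    intro u hu2
    by_cases hu1 : u = 1
    · rw [hu1]; exact N.one_mem
    obtain ⟨c, hc, hcu⟩ := hinv u hu2 hu1
    obtain ⟨d, hd⟩ := exists_ne c
    exact zn_kernel_mem hZ N hN1 (Ne.symm hd) hc hcu
  -- a swap
  obtain ⟨⟨t, ht2', hta, htb⟩, -⟩ := Cfsg.Agent.S0740.result hZ hab
  have ht2 : t ^ 2 = 1 := by
    rw [← ht2']
    exact pow_orderOf_eq_one t
  have ht1 : t ≠ 1 := by
    rintro rfl
    rw [one_smul] at hta
    exact hab hta
  obtain ⟨c, hc, hcu⟩ := hinv t ht2 ht1
  have hca : c ≠ a := by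
    rintro rfl
    rw [hc] at hta
    exact hab hta
  have hcb : c ≠ b := by
    rintro rfl
    rw [hc] at htb
    exact hab htb.symm
  have htN := hinvN t ht2
  -- the two-point stabiliser lies in N
  have hH : ∀ h : G, h • a = a → h • b = b → h ∈ N := by
    let H : Subgroup G := stabilizer G a ⊓ stabilizer G b
    have htH : ∀ y ∈ H, t * y * t⁻¹ ∈ H := by
      intro y hy
      have hy1 : y • a = a := hy.1
      have hy2 : y • b = b := hy.2
      have hti : t⁻¹ • a = b := by rw [inv_smul_eq_iff, htb]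
      have hti2 : t⁻¹ • b = a := by rw [inv_smul_eq_iff, hta]
      constructor
      · change (t * y * t⁻¹) • a = a
        rw [mul_smul, mul_smul, hti, hy2, htb]
      · change (t * y * t⁻¹) • b = b
        rw [mul_smul, mul_smul, hti2, hy1, hta]
    let m : H → H := fun y => ⟨(y : G)⁻¹ * (t * y * t⁻¹), H.mul_mem (H.inv_mem y.2) (htH _ y.2)⟩
    have hminj : Function.Injective m := by
      intro y w hyw
      have h1 : (y : G)⁻¹ * (t * y * t⁻¹) = (w : G)⁻¹ * (t * w * t⁻¹) := congrArg Subtype.val hyw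
      have h2 : (y : G)⁻¹ * t * y = (w : G)⁻¹ * t * w := by
        have := congrArg (fun s => s * t) h1
        simpa [mul_assoc] using this
      set z : G := (w : G) * (y : G)⁻¹ with hz
      have hzH : z ∈ H := H.mul_mem w.2 (H.inv_mem y.2)
      have hzt : z * t = t * z := by
        calc z * t = w * ((y : G)⁻¹ * t * y) * (y : G)⁻¹ := by rw [hz]; group
          _ = w * ((w : G)⁻¹ * t * w) * (y : G)⁻¹ := by rw [h2]
          _ = t * z := by rw [hz]; group
      have hzc : z • c = c := by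
        by_contra hne
        have h3 : t • (z • c) = z • c := by
          rw [← mul_smul, ← hzt, mul_smul, hc]
        exact hcu _ hne h3
      have hz1 : z = 1 := hZ.2.2.1 z a b c hab (Ne.symm hcb) (Ne.symm hca) hzH.1 hzH.2 hzc
      apply Subtype.ext
      exact (mul_inv_eq_one.mp hz1).symm
    have hmsurj := Finite.surjective_of_injective hminj
    intro h hha hhb
    obtain ⟨e, he⟩ := hmsurj ⟨h, ⟨hha, hhb⟩⟩
    have he' : (e : G)⁻¹ * (t * e * t⁻¹) = h := congrArg Subtype.val he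
    rw [← he']
    have h5 : (e : G)⁻¹ * (t * e * t⁻¹) = ((e : G)⁻¹ * t * (e : G)⁻¹⁻¹) * t⁻¹ := by group
    rw [h5]
    exact N.mul_mem (hN.conj_mem t htN _) (N.inv_mem htN)
  -- the point stabiliser lies in N
  obtain ⟨F, hFa, hFcard, hFfix⟩ := Cfsg.Agent.Lib.Char.zass_exists_kernel hZ hab
  obtain ⟨x, hxN, hx1, hxa, hxb⟩ := zn_two_stab hZ N hN1 hab
  have hle := zn_kernel_le_normal hZ hab N hFa hFcard hFfix hxN hx1 hxa hxb
  have hstab : ∀ y : G, y • a = a → y ∈ N := by
    intro y hya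
    have hd : y • b ≠ a := by
      intro h0
      rw [← hya] at h0
      exact hab (smul_left_cancel _ h0).symm
    obtain ⟨f, hfF, hf⟩ := zn_kernel_trans hab hFa hFcard hFfix hab.symm hd
    have h6 : f⁻¹ * y ∈ N := by
      apply hH
      · have hfa : f • a = a := hFa hfF
        rw [mul_smul, hya, inv_smul_eq_iff, hfa]
      · rw [mul_smul, inv_smul_eq_iff, hf]
    have h7 : y = f * (f⁻¹ * y) := by group
    rw [h7]
    exact N.mul_mem (hle hfF) h6
  rw [eq_top_iff]
  intro g _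
  have hprim : IsPreprimitive G Ω := MulAction.isPreprimitive_of_is_two_pretransitive hZ.2.1
  haveI hNt : IsPretransitive N Ω := Cfsg.Agent.Lib.Perm.pretransitive_of_normal hprim N hN1
  obtain ⟨n, hn⟩ := exists_smul_eq N a (g • a)
  have h8 : (n : G)⁻¹ * g ∈ N := by
    apply hstab
    rw [mul_smul, inv_smul_eq_iff]
    exact hn.symm
  have h9 : g = n * ((n : G)⁻¹ * g) := by group
  rw [h9]
  exact N.mul_mem n.2 h8

/-- **A non-trivial normal subgroup of a Zassenhaus group is a Zassenhaus group.** -/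
theorem zn_normal {G : Type u} {Ω : Type v} [Group G] [MulAction G Ω] [Finite Ω]
    (hZ : Cfsg.IsZassenhausGroup G Ω) (N : Subgroup G) [hN : N.Normal] (hN1 : N ≠ ⊥) :
    Cfsg.IsZassenhausGroup N Ω := by
  classical
  haveI := hZ.1
  haveI hfinG : Finite G := zn_finite (Ω := Ω)
  haveI : Fintype Ω := Fintype.ofFinite Ω
  have hfaith : FaithfulSMul N Ω := ⟨fun h => Subtype.ext (FaithfulSMul.eq_of_smul_eq_smul h)⟩
  have h2 : MulAction.IsMultiplyPretransitive N Ω 2 := by
    rw [MulAction.is_two_pretransitive_iff]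
    intro u u' v v' huv hvv
    obtain ⟨n, hnN, h1, h2⟩ := zn_two_trans hZ N hN1 u u' v v' huv hvv
    exact ⟨⟨n, hnN⟩, h1, h2⟩
  have hfix3 : ∀ g : N, ∀ a b c : Ω, a ≠ b → b ≠ c → a ≠ c → g • a = a → g • b = b → g • c = c → g = 1 := by
    intro g a b c hab hbc hac h1 h2 h3
    exact Subtype.ext (hZ.2.2.1 g a b c hab hbc hac h1 h2 h3)
  obtain ⟨g₀, hg₀, a₀, b₀, hab₀, -, -⟩ := hZ.2.2.2.1
  haveI hnt : Nontrivial Ω := ⟨a₀, b₀, hab₀⟩
  have hex : ∃ g : N, g ≠ 1 ∧ ∃ a b : Ω, a ≠ b ∧ g • a = a ∧ g • b = b := by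
    obtain ⟨x, hxN, hx1, hxa, hxb⟩ := zn_two_stab hZ N hN1 hab₀
    exact ⟨⟨x, hxN⟩, fun h => hx1 (congrArg Subtype.val h), a₀, b₀, hab₀, hxa, hxb⟩
  refine ⟨hfaith, h2, hfix3, hex, fun R hRn hRt => ?_⟩
  by_contra hcon
  push Not at hcon
  -- regularity
  let S : Subgroup G := R.map N.subtype
  have hSN : ∀ r ∈ S, r ∈ N := by
    rintro _ ⟨r, -, rfl⟩
    exact r.2
  have hSstab : ∀ r ∈ S, ∀ c : Ω, r • c = c → r = 1 := by
    rintro _ ⟨r, hr, rfl⟩ c hc
    have h1 : (⟨r, hr⟩ : R) ∈ stabilizer R c := hc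
    rw [hcon c] at h1
    have h2 : (⟨r, hr⟩ : R) = 1 := Subgroup.mem_bot.mp h1
    have h3 : r = 1 := congrArg Subtype.val h2
    rw [h3]
    rfl
  have hSinj : ∀ r ∈ S, ∀ r' ∈ S, ∀ c : Ω, r • c = r' • c → r = r' := by
    intro r hr r' hr' c hc
    have h1 : r'⁻¹ * r = 1 := by
      apply hSstab _ (S.mul_mem (S.inv_mem hr') hr) c
      rw [mul_smul, hc, inv_smul_smul]
    exact (inv_mul_eq_one.mp h1).symm
  have hSex : ∀ c d : Ω, ∃ r ∈ S, r • c = d := by
    intro c d
    obtain ⟨r, hr⟩ := exists_smul_eq R c d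
    exact ⟨((r : N) : G), ⟨r, r.2, rfl⟩, hr⟩
  have hSconj : ∀ n ∈ N, ∀ r ∈ S, n * r * n⁻¹ ∈ S := by
    rintro n hn _ ⟨r, hr, rfl⟩
    have h1 := hRn.conj_mem r hr ⟨n, hn⟩
    exact ⟨_, h1, rfl⟩
  -- exponent 2
  have hexp : ∀ r ∈ S, r * r = 1 := by
    intro r hr
    by_cases hr1 : r = 1
    · rw [hr1, one_mul]
    have hne : r • a₀ ≠ a₀ := fun h0 => hr1 (hSstab r hr a₀ h0)
    obtain ⟨x, hxN, hx1, hxa, hxb⟩ := zn_two_stab hZ N hN1 hne.symm
    have h1 : x * r * x⁻¹ = r := by
      apply hSinj _ (hSconj x hxN r hr) _ hr a₀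
      have hxi : x⁻¹ • a₀ = a₀ := by rw [inv_smul_eq_iff, hxa]
      rw [mul_smul, mul_smul, hxi, hxb]
    have h2 : x * r = r * x := by
      calc x * r = x * r * x⁻¹ * x := by group
        _ = r * x := by rw [h1]
    have h3 : x • (r * r) • a₀ = (r * r) • a₀ := by
      rw [← mul_smul]
      have : x * (r * r) = (r * r) * x := by
        rw [← mul_assoc, h2, mul_assoc, h2, mul_assoc]
      rw [this, mul_smul, hxa]
    by_cases hb0 : (r * r) • a₀ = a₀
    · exact hSstab _ (S.mul_mem hr hr) a₀ hb0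
    by_cases hba : (r * r) • a₀ = r • a₀
    · exfalso
      rw [mul_smul] at hba
      exact hne (smul_left_cancel r hba)
    · exact absurd (hZ.2.2.1 x a₀ (r • a₀) ((r * r) • a₀) hne.symm (Ne.symm hba) (Ne.symm hb0) hxa hxb h3) hx1
  have hcomm : ∀ r ∈ S, ∀ s ∈ S, r * s = s * r := by
    intro r hr s hs
    have h1 := hexp _ (S.mul_mem hr hs)
    have h2 := hexp r hr
    have h3 := hexp s hs
    calc r * s = r * (r * s * (r * s)) * s := by rw [h1]; group
      _ = (r * r) * s * r * (s * s) := by group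
      _ = s * r := by rw [h2, h3]; group
  -- S is normal in G
  have hSG : S.Normal := by
    constructor
    intro r' hr' g
    -- the conjugate of S
    let S' : Subgroup G := S.map (MulAut.conj g).toMonoidHom
    have hS'mem : ∀ y, y ∈ S' ↔ g⁻¹ * y * g ∈ S := by
      intro y
      constructor
      · rintro ⟨r, hr, rfl⟩
        have : g⁻¹ * (MulAut.conj g).toMonoidHom r * g = r := by
          simp [MulAut.conj_apply, mul_assoc]
        rw [this]
        exact hr
      · intro hy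
        refine ⟨_, hy, ?_⟩
        simp [MulAut.conj_apply, mul_assoc]
    have hS'N : ∀ y ∈ S', y ∈ N := by
      rintro _ ⟨r, hr, rfl⟩
      exact hN.conj_mem r (hSN r hr) g
    have hS'conj : ∀ n ∈ N, ∀ y ∈ S', n * y * n⁻¹ ∈ S' := by
      intro n hn y hy
      rw [hS'mem] at hy ⊢
      have h1 : g⁻¹ * n * g ∈ N := by
        have := hN.conj_mem n hn g⁻¹
        simpa using this
      have h2 := hSconj _ h1 _ hy
      have h3 : g⁻¹ * (n * y * n⁻¹) * g = (g⁻¹ * n * g) * (g⁻¹ * y * g) * (g⁻¹ * n * g)⁻¹ := by group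
      rw [h3]
      exact h2
    have hS'stab : ∀ y ∈ S', ∀ c : Ω, y • c = c → y = 1 := by
      intro y hy c hc
      rw [hS'mem] at hy
      have h1 : (g⁻¹ * y * g) • (g⁻¹ • c) = g⁻¹ • c := by
        simp [mul_smul, hc]
      have h2 := hSstab _ hy _ h1
      have : y = g * (g⁻¹ * y * g) * g⁻¹ := by group
      rw [this, h2]
      group
    have hS'inj : ∀ r ∈ S', ∀ r' ∈ S', ∀ c : Ω, r • c = r' • c → r = r' := by
      intro r hr r' hr' c hc
      have h1 : r'⁻¹ * r = 1 := by
        apply hS'stab _ (S'.mul_mem (S'.inv_mem hr') hr) c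
        rw [mul_smul, hc, inv_smul_smul]
      exact (inv_mul_eq_one.mp h1).symm
    -- it suffices that S' ≤ S
    have hkey : S' ≤ S := by
      by_cases hI : S ⊓ S' = ⊥
      · -- commuting case
        intro y hy
        have hyN := hS'N y hy
        obtain ⟨r, hr, hry⟩ := hSex a₀ (y • a₀)
        have hc : ∀ s ∈ S, s * y = y * s := by
          intro s hs
          have h1 : s * y * s⁻¹ * y⁻¹ ∈ S ⊓ S' := by
            constructor
            · have h2 := hSconj y hyN s⁻¹ (S.inv_mem hs)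
              have h3 : s * y * s⁻¹ * y⁻¹ = s * (y * s⁻¹ * y⁻¹) := by group
              rw [SetLike.mem_coe, h3]
              exact S.mul_mem hs h2
            · have h2 := hS'conj s (hSN s hs) y hy
              exact S'.mul_mem h2 (S'.inv_mem hy)
          rw [hI, Subgroup.mem_bot] at h1
          have h2 : s * y * s⁻¹ = y := by
            have := mul_inv_eq_one.mp h1
            exact this
          calc s * y = s * y * s⁻¹ * s := by group
            _ = y * s := by rw [h2]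
        have hyr : y = r := by
          apply FaithfulSMul.eq_of_smul_eq_smul (α := Ω)
          intro c
          obtain ⟨s, hs, hsc⟩ := hSex a₀ c
          rw [← hsc, ← mul_smul, ← mul_smul, ← hc s hs, hcomm r hr s hs, mul_smul, mul_smul, hry]
        rw [hyr]
        exact hr
      · -- S ⊓ S' is transitive
        let I : Subgroup N := (S ⊓ S').subgroupOf N
        have hIn : I.Normal := by
          constructor
          intro i hi n
          rw [Subgroup.mem_subgroupOf] at hi ⊢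
          exact ⟨hSconj _ n.2 _ hi.1, hS'conj _ n.2 _ hi.2⟩
        have hIb : I ≠ ⊥ := by
          intro h0
          apply hI
          rw [eq_bot_iff]
          intro i hi
          have h1 : i ∈ N := hSN i hi.1
          have h2 : (⟨i, h1⟩ : N) ∈ I := Subgroup.mem_subgroupOf.mpr hi
          rw [h0, Subgroup.mem_bot] at h2
          have h3 := congrArg Subtype.val h2
          exact Subgroup.mem_bot.mpr h3
        have hprimN : IsPreprimitive N Ω := MulAction.isPreprimitive_of_is_two_pretransitive h2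
        haveI := hIn
        have hIt : IsPretransitive I Ω := Cfsg.Agent.Lib.Perm.pretransitive_of_normal hprimN I hIb
        intro y hy
        obtain ⟨i, hi⟩ := exists_smul_eq I a₀ (y • a₀)
        have hi' : ((i : N) : G) ∈ S ⊓ S' := Subgroup.mem_subgroupOf.mp i.2
        have h1 : y = ((i : N) : G) := hS'inj y hy _ hi'.2 a₀ hi.symm
        rw [h1]
        exact hi'.1
    exact hkey ⟨r', hr', rfl⟩
  have hSt : IsPretransitive S Ω := by
    constructor
    intro c d
    obtain ⟨r, hr, hrc⟩ := hSex c d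
    exact ⟨⟨r, hr⟩, hrc⟩
  obtain ⟨e, he⟩ := hZ.2.2.2.2 S hSG hSt
  apply he
  rw [eq_bot_iff]
  intro y hy
  rw [Subgroup.mem_bot]
  exact Subtype.ext (hSstab y y.2 e hy)

end Cfsg.Agent.Lib.Cl
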