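import Mathlib
import Cfsg.Prelude.Def_LieExceptional
import Cfsg.Agent.Lib.Cl.ZassNormal
import Cfsg.Agent.Lib.Perm.SharpThree
import Cfsg.Agent.Lib.Hall.FPFAction
import Cfsg.Agent.Lib.Hall.FrobSylow
import Cfsg.Agent.Lib.FrobThm.FixedPointFree
import Cfsg.Agent.S0016

/-! Doubly transitive groups with a regular normal subgroup in which no non-identity element
fixes three points. -/

set_option autoImplicit false
set_option linter.unusedSectionVars false
set_option linter.unusedVariables false

open MulAction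

namespace Cfsg.Agent.Lib.Cl

universe u v

/-- A field automorphism of prime order whose only fixed elements are `0, 1`. -/
theorem zr_card_of_fixed {F : Type*} [Field F] [Finite F] (φ : RingAut F) {r : ℕ} (hr : r.Prime)
    (hφr : φ ^ r = 1) (hφ1 : φ ≠ 1) (hfix : ∀ y : F, φ y = y → y = 0 ∨ y = 1) :
    Nat.card F = 2 ^ r := by
  classical
  haveI := Fintype.ofFinite F
  haveI : Fact r.Prime := ⟨hr⟩
  have hord : orderOf φ = r := orderOf_eq_prime hφr hφ1
  let Q : Subgroup (RingAut F) := Subgroup.zpowers φ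
  haveI : Finite (RingAut F) :=
    Finite.of_injective (fun e : RingAut F => (e : F → F)) (fun _ _ h => RingEquiv.ext (congrFun h))
  haveI : Fintype Q := Fintype.ofFinite Q
  have hQcard : Fintype.card Q = r := by
    rw [← Nat.card_eq_fintype_card, Nat.card_zpowers, hord]
  have h1 := FixedPoints.finrank_eq_card Q F
  rw [hQcard] at h1
  let S := FixedPoints.subfield Q F
  have hmem : ∀ y : F, y ∈ S ↔ φ y = y := by
    intro y
    constructor
    · intro hy
      have := hy ⟨φ, Subgroup.mem_zpowers φ⟩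
      exact this
    · intro hy g
      obtain ⟨k, hk⟩ := Subgroup.mem_zpowers_iff.mp g.2
      have h2 : ∀ k : ℤ, (φ ^ k) y = y := by
        intro k
        have h3 : y ∈ MulAction.fixedBy F φ := hy
        have h4 : φ ^ k ∈ MulAction.stabilizer (RingAut F) y :=
          Subgroup.zpow_mem _ (MulAction.mem_stabilizer_iff.mpr hy) k
        exact MulAction.mem_stabilizer_iff.mp h4
      have h5 : ((g : RingAut F)) y = y := by
        rw [← hk]
        exact h2 k
      exact h5
  haveI : Fintype S := Fintype.ofFinite S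
  have hScard : Fintype.card S = 2 := by
    rw [← Nat.card_eq_fintype_card, Nat.card_eq_two_iff]
    refine ⟨0, 1, zero_ne_one, ?_⟩
    ext ⟨y, hy⟩
    simp only [Set.mem_insert_iff, Set.mem_singleton_iff, Set.mem_univ, iff_true]
    rcases hfix y ((hmem y).mp hy) with h | h
    · left
      exact Subtype.ext h
    · right
      exact Subtype.ext h
  have h6 := Module.card_eq_pow_finrank (K := S) (V := F)
  rw [hScard] at h6
  have h7 : Module.finrank S F = r := h1
  rw [h7] at h6
  rw [Nat.card_eq_fintype_card, h6]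

/-- A field structure from a regular abelian normal subgroup and a commutative regular group on the
remaining points. -/
theorem zr_exists_field {G : Type*} {α : Type*} [Group G] [MulAction G α] (z u : α) (hzu : z ≠ u)
    (N K : Subgroup G) (hNK : ∀ k ∈ K, ∀ n ∈ N, k * n * k⁻¹ ∈ N)
    (hNc : ∀ x ∈ N, ∀ y ∈ N, x * y = y * x) (hKc : ∀ x ∈ K, ∀ y ∈ K, x * y = y * x)
    (hNt : ∀ c : α, ∃ n ∈ N, n • z = c) (hNs : ∀ n ∈ N, n • z = z → n = 1)
    (hKz : ∀ k ∈ K, k • z = z) (hKt : ∀ c : α, c ≠ z → ∃ k ∈ K, k • u = c)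
    (hKs : ∀ k ∈ K, k • u = u → k = 1) :
    ∃ _ : Field α, (0 : α) = z ∧ (1 : α) = u ∧ (∀ n ∈ N, ∀ c : α, c + n • z = n • c) ∧
      (∀ k ∈ K, ∀ c : α, c * (k • u) = k • c) := by
  classical
  obtain ⟨tr, htrN, htrz⟩ : ∃ tr : α → G, (∀ x, tr x ∈ N) ∧ (∀ x, tr x • z = x) := by
    choose tr h1 h2 using hNt
    exact ⟨tr, h1, h2⟩
  obtain ⟨mu, hmuK, hmuu⟩ : ∃ mu : α → G, (∀ a, mu a ∈ K) ∧ (∀ a, a ≠ z → mu a • u = a) := by
    have : ∀ a : α, ∃ g : G, g ∈ K ∧ (a ≠ z → g • u = a) := by
      intro a
      by_cases ha : a = z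
      · exact ⟨1, K.one_mem, fun h => absurd ha h⟩
      · obtain ⟨g, h1, h2⟩ := hKt a ha
        exact ⟨g, h1, fun _ => h2⟩
    choose mu h1 h2 using this
    exact ⟨mu, h1, h2⟩
  have hmuz : ∀ a, mu a • z = z := fun a => hKz _ (hmuK a)
  have htr_uniq : ∀ (n : G) (x : α), n ∈ N → n • z = x → n = tr x := by
    intro n x hn hx
    have h1 : (tr x)⁻¹ * n ∈ N := N.mul_mem (N.inv_mem (htrN x)) hn
    have h2 := hNs _ h1 (by rw [mul_smul, hx, inv_smul_eq_iff, htrz])
    exact (inv_mul_eq_one.mp h2).symm
  have hmu_uniq : ∀ (g : G) (a : α), a ≠ z → g ∈ K → g • u = a → g = mu a := by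
    intro g a ha hg1 hg2
    have h2 := hKs ((mu a)⁻¹ * g) (K.mul_mem (K.inv_mem (hmuK a)) hg1)
      (by rw [mul_smul, hg2, inv_smul_eq_iff, hmuu a ha])
    exact (inv_mul_eq_one.mp h2).symm
  have htr_z : tr z = 1 := (htr_uniq 1 z N.one_mem (by simp)).symm
  have htr_mul : ∀ x y : α, tr (tr y • x) = tr y * tr x := by
    intro x y
    exact (htr_uniq _ _ (N.mul_mem (htrN y) (htrN x)) (by rw [mul_smul, htrz])).symm
  have hmu_u : mu u = 1 := (hmu_uniq 1 u (Ne.symm hzu) K.one_mem (by simp)).symm
  have hmu_ne : ∀ (c x : α), x ≠ z → mu c • x ≠ z := by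
    intro c x hx h
    apply hx
    rw [← hmuz c] at h
    exact smul_left_cancel _ h
  have hmu_mul : ∀ a c : α, a ≠ z → c ≠ z → mu (mu c • a) = mu c * mu a := by
    intro a c ha hc
    refine (hmu_uniq _ _ (hmu_ne c a ha) (K.mul_mem (hmuK c) (hmuK a)) ?_).symm
    rw [mul_smul, hmuu a ha]
  have hconj : ∀ b c : α, mu c * tr b = tr (mu c • b) * mu c := by
    intro b c
    have h1 : mu c * tr b * (mu c)⁻¹ ∈ N := hNK _ (hmuK c) _ (htrN b)
    have h2 := htr_uniq _ (mu c • b) h1 (by
      have : (mu c)⁻¹ • z = z := by rw [inv_smul_eq_iff, hmuz]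
      rw [mul_smul, mul_smul, this, htrz])
    rw [← h2]
    group
  letI i0 : Zero α := ⟨z⟩
  letI i1 : Add α := ⟨fun x y => tr y • x⟩
  letI i2 : Neg α := ⟨fun x => (tr x)⁻¹ • z⟩
  let inst : Cfsg.NearField α :=
    { add := i1.add
      zero := i0.zero
      neg := i2.neg
      add_assoc := by
        intro x y w
        show tr w • tr y • x = tr (tr w • y) • x
        rw [htr_mul, mul_smul]
      zero_add := fun x => htrz x
      add_zero := by
        intro x
        show tr z • x = x
        rw [htr_z, one_smul]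
      nsmul := nsmulRec
      zsmul := zsmulRec
      neg_add_cancel := by
        intro x
        show tr x • (tr x)⁻¹ • z = z
        rw [smul_inv_smul]
      mul := fun x a => if a = z then z else mu a • x
      one := u
      mul_assoc := by
        intro x a c
        show (if c = z then z else mu c • (if a = z then z else mu a • x)) =
          (if (if c = z then z else mu c • a) = z then z else mu (if c = z then z else mu c • a) • x)
        by_cases hc : c = z
        · simp [hc]
        · by_cases ha : a = z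
          · simp [hc, ha, hmuz]
          · have h1 := hmu_ne c a ha
            simp [hc, ha, h1, hmu_mul a c ha hc, mul_smul]
      one_mul := by
        intro a
        show (if a = z then z else mu a • u) = a
        by_cases ha : a = z
        · simp [ha]
        · simp [ha, hmuu a ha]
      mul_one := by
        intro x
        show (if u = z then z else mu u • x) = x
        simp [hzu.symm, hmu_u]
      right_distrib := by
        intro a b c
        show (if c = z then z else mu c • tr b • a) =
          tr (if c = z then z else mu c • b) • (if c = z then z else mu c • a)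
        by_cases hc : c = z
        · simp [hc, htrz]
        · simp only [hc, if_false]
          rw [← mul_smul, hconj, mul_smul]
      mul_zero := by
        intro a
        show (if z = z then z else mu z • a) = z
        simp
      zero_ne_one := hzu
      exists_inv := by
        intro a ha
        have ha' : a ≠ z := ha
        have hb : (mu a)⁻¹ • u ≠ z := by
          intro h
          rw [inv_smul_eq_iff, hmuz] at h
          exact hzu h.symm
        refine ⟨(mu a)⁻¹ • u, ?_, ?_⟩
        · show (if (mu a)⁻¹ • u = z then z else mu ((mu a)⁻¹ • u) • a) = u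
          rw [if_neg hb]
          have h1 := hmu_mul ((mu a)⁻¹ • u) a hb ha'
          rw [smul_inv_smul, hmu_u] at h1
          have h2 : mu ((mu a)⁻¹ • u) = (mu a)⁻¹ := (inv_eq_of_mul_eq_one_right h1.symm).symm
          rw [h2, inv_smul_eq_iff, hmuu a ha']
        · show (if a = z then z else mu a • (mu a)⁻¹ • u) = u
          rw [if_neg ha', smul_inv_smul] }
  have hadd : ∀ a b : α, a + b = b + a := by
    intro a b
    show tr b • a = tr a • b
    have h0 : tr b • tr a • z = tr a • tr b • z := by
      rw [← mul_smul, ← mul_smul, hNc _ (htrN b) _ (htrN a)]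
    rw [htrz, htrz] at h0
    exact h0
  have hmulz : ∀ x : α, inst.mul x z = z := by
    intro x
    show (if z = z then z else mu z • x) = z
    simp
  have hzmul : ∀ x : α, inst.mul z x = z := by
    intro x
    show (if x = z then z else mu x • z) = z
    split_ifs
    · rfl
    · exact hmuz x
  have hmulne : ∀ x a : α, a ≠ z → inst.mul x a = mu a • x := by
    intro x a ha
    show (if a = z then z else mu a • x) = mu a • x
    rw [if_neg ha]
  have hmul : ∀ a b : α, a * b = b * a := by
    intro a b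
    by_cases ha : a = z
    · subst ha
      exact (hzmul b).trans (hmulz b).symm
    by_cases hb : b = z
    · subst hb
      exact (hmulz a).trans (hzmul a).symm
    show inst.mul a b = inst.mul b a
    rw [hmulne _ _ ha, hmulne _ _ hb]
    have h0 : mu b • mu a • u = mu a • mu b • u := by
      rw [← mul_smul, ← mul_smul, hKc _ (hmuK b) _ (hmuK a)]
    rwa [hmuu a ha, hmuu b hb] at h0
  refine ⟨Cfsg.Agent.Lib.Perm.ST.nfField hadd hmul, rfl, rfl, ?_, ?_⟩
  · intro n hn c
    show tr (n • z) • c = n • c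
    rw [← htr_uniq n _ hn rfl]
  · intro k hk c
    have h1 : k • u ≠ z := by
      intro h0
      have hkz := hKz k hk
      rw [← hkz] at h0
      exact hzu (smul_left_cancel _ h0).symm
    show inst.mul c (k • u) = k • c
    rw [hmulne _ _ h1, ← hmu_uniq k _ h1 hk rfl]

/-- The main theorem. -/
theorem zr_main {G : Type*} {Ω : Type*} [Group G] [MulAction G Ω] [Fintype Ω] [FaithfulSMul G Ω]
    (h2 : MulAction.IsMultiplyPretransitive G Ω 2)
    (h3 : ∀ g : G, ∀ a b c : Ω, a ≠ b → b ≠ c → a ≠ c → g • a = a → g • b = b → g • c = c → g = 1)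
    (hfix : ∃ g : G, g ≠ 1 ∧ ∃ a b : Ω, a ≠ b ∧ g • a = a ∧ g • b = b)
    (N : Subgroup G) [hN : N.Normal] (hNt : MulAction.IsPretransitive N Ω)
    (hNr : ∀ a : Ω, MulAction.stabilizer N a = ⊥) :
    ∃ p : ℕ, p.Prime ∧ Fintype.card Ω = 2 ^ p := by
  classical
  haveI hfinG : Finite G := zn_finite (Ω := Ω)
  obtain ⟨g₀, hg₀, z, u, hzu, hgz, hgu⟩ := hfix
  haveI hnt : Nontrivial Ω := ⟨z, u, hzu⟩
  have h2t : ∀ {a b c d : Ω}, a ≠ b → c ≠ d → ∃ g : G, g • a = c ∧ g • b = d :=
    fun h h' => MulAction.is_two_pretransitive_iff.mp h2 h h'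
  -- two-point stabilisers are non-trivial
  have hE : ∀ a b : Ω, a ≠ b → ∃ x : G, x ≠ 1 ∧ x • a = a ∧ x • b = b := by
    intro a b hab
    obtain ⟨t, ht1, ht2⟩ := h2t hzu hab
    refine ⟨t * g₀ * t⁻¹, ?_, ?_, ?_⟩
    · intro h0
      apply hg₀
      have : g₀ = t⁻¹ * (t * g₀ * t⁻¹) * t := by group
      rw [this, h0]
      group
    · rw [← ht1]; simp [mul_smul, hgz]
    · rw [← ht2]; simp [mul_smul, hgu]
  have hNstab : ∀ r ∈ N, ∀ c : Ω, r • c = c → r = 1 := by
    intro r hr c hc
    have h1 : (⟨r, hr⟩ : N) ∈ stabilizer N c := hc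
    rw [hNr c] at h1
    exact congrArg Subtype.val (Subgroup.mem_bot.mp h1)
  have hNinj : ∀ r ∈ N, ∀ r' ∈ N, ∀ c : Ω, r • c = r' • c → r = r' := by
    intro r hr r' hr' c hc
    have h1 : r'⁻¹ * r = 1 := by
      apply hNstab _ (N.mul_mem (N.inv_mem hr') hr) c
      rw [mul_smul, hc, inv_smul_smul]
    exact (inv_mul_eq_one.mp h1).symm
  have hNex : ∀ c d : Ω, ∃ r ∈ N, r • c = d := by
    intro c d
    obtain ⟨r, hr⟩ := exists_smul_eq N c d
    exact ⟨r, r.2, hr⟩
  -- exponent 2
  have hexp : ∀ r ∈ N, r * r = 1 := by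
    intro r hr
    by_cases hr1 : r = 1
    · rw [hr1, one_mul]
    have hne : r • z ≠ z := fun h0 => hr1 (hNstab r hr z h0)
    obtain ⟨x, hx1, hxa, hxb⟩ := hE z (r • z) hne.symm
    have h1 : x * r * x⁻¹ = r := by
      apply hNinj _ (hN.conj_mem r hr x) _ hr z
      have hxi : x⁻¹ • z = z := by rw [inv_smul_eq_iff, hxa]
      rw [mul_smul, mul_smul, hxi, hxb]
    have h2' : x * r = r * x := by
      calc x * r = x * r * x⁻¹ * x := by group
        _ = r * x := by rw [h1]
    have h3' : x • (r * r) • z = (r * r) • z := by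
      rw [← mul_smul]
      have : x * (r * r) = (r * r) * x := by
        rw [← mul_assoc, h2', mul_assoc, h2', mul_assoc]
      rw [this, mul_smul, hxa]
    by_cases hb0 : (r * r) • z = z
    · exact hNstab _ (N.mul_mem hr hr) z hb0
    by_cases hba : (r * r) • z = r • z
    · exfalso
      rw [mul_smul] at hba
      exact hne (smul_left_cancel r hba)
    · exact absurd (h3 x z (r • z) ((r * r) • z) hne.symm (Ne.symm hba) (Ne.symm hb0) hxa hxb h3') hx1
  have hcomm : ∀ r ∈ N, ∀ s ∈ N, r * s = s * r := by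
    intro r hr s hs
    have h1 := hexp _ (N.mul_mem hr hs)
    have h2' := hexp r hr
    have h3' := hexp s hs
    calc r * s = r * (r * s * (r * s)) * s := by rw [h1]; group
      _ = (r * r) * s * r * (s * s) := by group
      _ = s * r := by rw [h2', h3']; group
  -- the point stabiliser of z is a Frobenius group
  let G₀ : Subgroup G := stabilizer G z
  let A : Subgroup G₀ := (stabilizer G z ⊓ stabilizer G u : Subgroup G).subgroupOf G₀
  have hAmem : ∀ g : G₀, g ∈ A ↔ (g : G) • u = u := by
    intro g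
    rw [Subgroup.mem_subgroupOf]
    constructor
    · intro h
      exact h.2
    · intro h
      exact ⟨g.2, h⟩
  have hG₀t : ∀ c : Ω, c ≠ z → ∃ g : G₀, (g : G) • u = c := by
    intro c hc
    obtain ⟨g, hg1, hg2⟩ := h2t hzu (Ne.symm hc)
    exact ⟨⟨g, hg1⟩, hg2⟩
  obtain ⟨x₀, hx₀1, hx₀z, hx₀u⟩ := hE z u hzu
  have hF : Cfsg.IsFrobeniusComplement A := by
    refine ⟨?_, ?_, fun g hg => ?_⟩
    · intro h0
      have h1 : (⟨x₀, hx₀z⟩ : G₀) ∈ A := (hAmem _).mpr hx₀u
      rw [h0, Subgroup.mem_bot] at h1
      exact hx₀1 (congrArg Subtype.val h1)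
    · intro h0
      -- x₀ moves a third point w
      have hmv : ∃ w : Ω, x₀ • w ≠ w := by
        by_contra hcon
        push Not at hcon
        exact hx₀1 (FaithfulSMul.eq_of_smul_eq_smul (α := Ω) (fun w => by rw [hcon w, one_smul]))
      obtain ⟨w, hw⟩ := hmv
      have hwz : w ≠ z := by
        rintro rfl
        exact hw hx₀z
      obtain ⟨g, hg⟩ := hG₀t w hwz
      have : g ∈ A := by rw [h0]; trivial
      have h1 := (hAmem g).mp this
      rw [hg] at h1
      have hwu : w = u := h1.symm ▸ rfl
      subst hwu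
      exact hw hx₀u
    · rw [eq_bot_iff]
      intro y hy
      rw [Subgroup.mem_inf] at hy
      obtain ⟨hy1, hy2⟩ := hy
      have hy2' := Cfsg.Agent.Lib.Core.mem_conj_smul_iff.mp hy2
      have hy3 : ((g : G)⁻¹ * y * g) • u = u := (hAmem _).mp hy2'
      have hyu : (y : G) • u = u := (hAmem _).mp hy1
      have hgu' : (g : G) • u ≠ u := fun h0 => hg ((hAmem g).mpr h0)
      have hgz' : (g : G) • u ≠ z := by
        intro h0
        have hgz'' : (g : G) • z = z := g.2
        rw [← hgz''] at h0
        exact hzu (smul_left_cancel _ h0).symm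
      have hy4 : (y : G) • (g : G) • u = (g : G) • u := by
        rw [mul_smul, mul_smul, inv_smul_eq_iff] at hy3
        exact hy3
      have hy5 : (y : G) = 1 := h3 y z u ((g : G) • u) hzu (Ne.symm hgu') (Ne.symm hgz') y.2 hyu hy4
      rw [Subgroup.mem_bot]
      exact Subtype.ext hy5
  obtain ⟨K, hKset, hKn, hKc⟩ := Cfsg.Agent.Lib.FrobThm.frobenius_theorem A hF
  -- the kernel, in G
  let K' : Subgroup G := K.map G₀.subtype
  have hK'z : ∀ k ∈ K', k • z = z := by
    rintro _ ⟨k, -, rfl⟩
    exact k.2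
  have hKfree : ∀ k ∈ K, k ≠ 1 → ∀ c : Ω, c ≠ z → (k : G) • c ≠ c := by
    intro k hk hk1 c hc hfixc
    have hk' : k ∈ (K : Set G₀) := hk
    rw [hKset] at hk'
    rcases hk' with h | h
    · exact hk1 h
    · obtain ⟨g, hg⟩ := hG₀t c hc
      apply h g
      apply Cfsg.Agent.Lib.Core.mem_conj_smul_iff.mpr
      apply (hAmem _).mpr
      show ((g : G)⁻¹ * k * g) • u = u
      rw [mul_smul, mul_smul, hg, hfixc, inv_smul_eq_iff, hg]
  have hK'free : ∀ k ∈ K', k ≠ 1 → ∀ c : Ω, c ≠ z → k • c ≠ c := by
    rintro _ ⟨k, hk, rfl⟩ hk1 c hc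
    refine hKfree k hk ?_ c hc
    rintro rfl
    exact hk1 rfl
  have hK'mem : ∀ g : G, g • z = z → (∀ c : Ω, c ≠ z → g • c ≠ c) → g ∈ K' := by
    intro g hg hgc
    have : (⟨g, hg⟩ : G₀) ∈ (K : Set G₀) := by
      rw [hKset]
      right
      intro t ht
      have ht' := Cfsg.Agent.Lib.Core.mem_conj_smul_iff.mp ht
      have h8 : ((t : G)⁻¹ * g * t) • u = u := (hAmem _).mp ht'
      rw [mul_smul, mul_smul, inv_smul_eq_iff] at h8
      have hne : (t : G) • u ≠ z := by
        intro h0
        have htz : (t : G) • z = z := t.2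
        rw [← htz] at h0
        exact hzu (smul_left_cancel _ h0).symm
      exact hgc _ hne h8
    exact ⟨⟨g, hg⟩, this, rfl⟩
  have hK'conj : ∀ g : G, g • z = z → ∀ k ∈ K', g * k * g⁻¹ ∈ K' := by
    intro g hg k hk
    by_cases hk1 : k = 1
    · rw [hk1]
      simp [K'.one_mem]
    apply hK'mem
    · have hgi : g⁻¹ • z = z := by rw [inv_smul_eq_iff, hg]
      rw [mul_smul, mul_smul, hgi, hK'z k hk, hg]
    · intro c hc hcf
      rw [mul_smul, mul_smul, ← eq_inv_smul_iff] at hcf
      have hne : g⁻¹ • c ≠ z := by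
        intro h0
        rw [inv_smul_eq_iff, hg] at h0
        exact hc h0
      exact hK'free k hk hk1 _ hne hcf
  have hK't : ∀ c : Ω, c ≠ z → ∃ k ∈ K', k • u = c := by
    intro c hc
    obtain ⟨g, hg⟩ := hG₀t c hc
    obtain ⟨⟨k, s⟩, hks⟩ := hKc.2 g
    refine ⟨k.1, ⟨k.1, k.2, rfl⟩, ?_⟩
    have hs : ((s : G₀) : G) • u = u := (hAmem _).mp s.2
    have h4 : ((k : G₀) * (s : G₀) : G₀) = g := hks
    have h5 : (((k : G₀) : G) * ((s : G₀) : G)) = (g : G) := congrArg Subtype.val h4
    rw [← hg, ← h5, mul_smul, hs]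
  have hK's : ∀ k ∈ K', k • u = u → k = 1 := by
    intro k hk hku
    by_contra hk1
    exact hK'free k hk hk1 u (Ne.symm hzu) hku
  have hNK : ∀ k ∈ K', ∀ n ∈ N, k * n * k⁻¹ ∈ N := fun k _ n hn => hN.conj_mem n hn k
  have hN1 : N ≠ ⊥ := by
    intro h0
    obtain ⟨r, hr, hrz⟩ := hNex z u
    rw [h0, Subgroup.mem_bot] at hr
    rw [hr, one_smul] at hrz
    exact hzu hrz
  -- K' has odd order
  have hNcard : Nat.card N = Fintype.card Ω := by
    rw [← Nat.card_eq_fintype_card]
    refine Nat.card_congr (Equiv.ofBijective (fun n : N => (n : G) • z) ⟨?_, ?_⟩)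
    · intro n m hnm
      exact Subtype.ext (hNinj _ n.2 _ m.2 z hnm)
    · intro c
      obtain ⟨r, hr, hrc⟩ := hNex z c
      exact ⟨⟨r, hr⟩, hrc⟩
  have hK'card : Nat.card K' + 1 = Fintype.card Ω := by
    have h1 : Nat.card K' = Nat.card {c : Ω // c ≠ z} := by
      refine Nat.card_congr (Equiv.ofBijective (fun k : K' => (⟨(k : G) • u, ?_⟩ : {c : Ω // c ≠ z})) ⟨?_, ?_⟩)
      · intro h0
        have hkz := hK'z k k.2
        rw [← hkz] at h0
        exact hzu (smul_left_cancel _ h0).symm
      · intro k m hkm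
        have h2 : (k : G) • u = (m : G) • u := congrArg Subtype.val hkm
        have h4 : (m : G)⁻¹ * k = 1 := by
          apply hK's _ (K'.mul_mem (K'.inv_mem m.2) k.2)
          rw [mul_smul, h2, inv_smul_smul]
        exact Subtype.ext (inv_mul_eq_one.mp h4).symm
      · rintro ⟨c, hc⟩
        obtain ⟨k, hk, hku⟩ := hK't c hc
        exact ⟨⟨k, hk⟩, Subtype.ext hku⟩
    have h5 : Nat.card {c : Ω // c ≠ z} = Fintype.card Ω - 1 := by
      rw [Nat.card_eq_fintype_card, Fintype.card_subtype_compl]
      simp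
    have h6 : 0 < Fintype.card Ω := Fintype.card_pos_iff.mpr ⟨z⟩
    omega
  have hK'odd : Odd (Nat.card K') := by
    obtain ⟨r, hr, hrz⟩ := hNex z u
    have hr1 : r ≠ 1 := by
      rintro rfl
      rw [one_smul] at hrz
      exact hzu hrz
    have hr2 : orderOf r = 2 := orderOf_eq_prime (by rw [sq]; exact hexp r hr) hr1
    have hdvd : 2 ∣ Nat.card N := by
      rw [← hr2]
      exact Subgroup.orderOf_dvd_natCard N hr
    rw [hNcard] at hdvd
    rw [Nat.odd_iff]
    omega
  -- an element of prime order in the two-point stabiliser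
  have hx₀ord : orderOf x₀ ≠ 0 := (orderOf_pos x₀).ne'
  have hx₀ne1 : orderOf x₀ ≠ 1 := by
    intro h0
    exact hx₀1 (orderOf_eq_one_iff.mp h0)
  set r := (orderOf x₀).minFac with hrdef
  have hr : r.Prime := Nat.minFac_prime hx₀ne1
  set x := x₀ ^ (orderOf x₀ / r) with hxdef
  have hxord : orderOf x = r := orderOf_pow_orderOf_div hx₀ord (Nat.minFac_dvd _)
  have hxz : x • z = z := by
    have : x₀ ^ (orderOf x₀ / r) ∈ stabilizer G z := Subgroup.pow_mem _ hx₀z _
    exact this
  have hxu : x • u = u := by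
    have : x₀ ^ (orderOf x₀ / r) ∈ stabilizer G u := Subgroup.pow_mem _ hx₀u _
    exact this
  have hx1 : x ≠ 1 := by
    intro h0
    rw [h0, orderOf_one] at hxord
    exact hr.one_lt.ne hxord
  have hxr : x ^ r = 1 := by
    rw [← hxord]
    exact pow_orderOf_eq_one x
  have hxiz : x⁻¹ • z = z := by rw [inv_smul_eq_iff, hxz]
  have hxiu : x⁻¹ • u = u := by rw [inv_smul_eq_iff, hxu]
  -- nilpotent
  let α : K' ≃* K' :=
    { toFun := fun k => ⟨x * k * x⁻¹, hK'conj x hxz k k.2⟩
      invFun := fun k => ⟨x⁻¹ * k * x, by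
        have := hK'conj x⁻¹ hxiz k k.2
        simpa using this⟩
      left_inv := fun k => by
        apply Subtype.ext
        show x⁻¹ * (x * k * x⁻¹) * x = k
        group
      right_inv := fun k => by
        apply Subtype.ext
        show x * (x⁻¹ * k * x) * x⁻¹ = k
        group
      map_mul' := fun k m => by
        apply Subtype.ext
        show x * (k * m) * x⁻¹ = (x * k * x⁻¹) * (x * m * x⁻¹)
        group }
  have hαit : ∀ (i : ℕ) (k : K'), ((α^[i] k : K') : G) = x ^ i * k * (x ^ i)⁻¹ := by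
    intro i k
    induction i with
    | zero => simp
    | succ i ih =>
      rw [Function.iterate_succ_apply']
      show x * ((α^[i] k : K') : G) * x⁻¹ = _
      rw [ih, pow_succ']
      group
  have hαfix : ∀ k : K', α k = k → k = 1 := by
    intro k hk
    by_contra hk1
    have hk1' : (k : G) ≠ 1 := fun h0 => hk1 (Subtype.ext h0)
    have hc : x * (k : G) * x⁻¹ = k := congrArg Subtype.val hk
    have hc' : x * (k : G) = k * x := by
      calc x * (k : G) = x * k * x⁻¹ * x := by group
        _ = k * x := by rw [hc]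
    have h7 : x • (k : G) • u = (k : G) • u := by
      rw [← mul_smul, hc', mul_smul, hxu]
    have hne : (k : G) • u ≠ u := fun h0 => hk1 (Subtype.ext (hK's _ k.2 h0))
    have hne2 : (k : G) • u ≠ z := by
      intro h0
      have hkz := hK'z k k.2
      rw [← hkz] at h0
      exact hzu (smul_left_cancel _ h0).symm
    exact hx1 (h3 x z u _ hzu (Ne.symm hne) (Ne.symm hne2) hxz hxu h7)
  have hαr : ∀ k : K', α^[r] k = k := by
    intro k
    apply Subtype.ext
    rw [hαit, hxr]
    simp
  haveI hnil : Group.IsNilpotent K' := Cfsg.Agent.Lib.FrobThm.fpf_nilpotent hr α hαfix hαr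
  -- Sylow subgroups are cyclic
  haveI hZ : IsZGroup K' := by
    refine ⟨fun p hp P => ?_⟩
    haveI := Fact.mk hp
    by_cases hp2 : p = 2
    · subst hp2
      have h1 : Nat.card (P : Subgroup K') ∣ Nat.card K' := Subgroup.card_subgroup_dvd_card _
      obtain ⟨k, hk⟩ := IsPGroup.iff_card.mp P.isPGroup'
      have h2 : k = 0 := by
        by_contra hk0
        have h3' : 2 ∣ Nat.card K' := by
          refine dvd_trans ?_ h1
          rw [hk]
          exact dvd_pow_self 2 hk0
        rw [Nat.odd_iff] at hK'odd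
        omega
      rw [h2, pow_zero] at hk
      haveI : Subsingleton (P : Subgroup K') := (Nat.card_eq_one_iff_unique.mp hk).1
      exact isCyclic_of_subsingleton
    · have h4 := Cfsg.Agent.S0016.result p P.isPGroup' (Cfsg.Agent.Lib.Hall.unique_subgroup_of_abelian_cyclic
        P.isPGroup' (fun E hE => ?_))
      · rcases h4 with h | ⟨h, -⟩
        · exact h
        · exact absurd h hp2
      · let f : (P : Subgroup K') →* G := K'.subtype.comp (P : Subgroup K').subtype
        have hf : Function.Injective f := K'.subtype_injective.comp (Subgroup.subtype_injective _)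
        let E' : Subgroup G := E.map f
        have hE'c : IsMulCommutative E' := Subgroup.map_isMulCommutative _ _
        have hE'K : ∀ a ∈ E', a ∈ K' := by
          rintro _ ⟨y, -, rfl⟩
          exact ((y : (P : Subgroup K')) : K').2
        haveI hNab : IsMulCommutative N :=
          ⟨⟨fun a b => Subtype.ext (hcomm a a.2 b b.2)⟩⟩
        have h5 := Cfsg.Agent.Lib.Hall.isCyclic_of_fpf E' N hN1
          (by rw [Subgroup.normalizer_eq_top_iff.mpr hN]; exact le_top)
          (fun a ha ha1 => by
            rw [eq_bot_iff]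
            intro n hn
            rw [Subgroup.mem_inf] at hn
            obtain ⟨hn1, hn2⟩ := hn
            rw [Subgroup.mem_centralizer_singleton_iff] at hn2
            rw [Subgroup.mem_bot]
            by_contra hn3
            have hne : n • z ≠ z := fun h0 => hn3 (hNstab n hn1 z h0)
            have h7 : a • n • z = n • z := by
              rw [← mul_smul, ← hn2, mul_smul, hK'z a (hE'K a ha)]
            exact hK'free a (hE'K a ha) ha1 _ hne h7)
          (Or.inl hE'c)
        exact isCyclic_of_injective (E.equivMapOfInjective f hf).toMonoidHom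
          (E.equivMapOfInjective f hf).injective
  haveI hcyc : IsCyclic K' := inferInstance
  have hKc' : ∀ a ∈ K', ∀ b ∈ K', a * b = b * a := by
    intro a ha b hb
    have := Cfsg.Agent.Lib.Hall.comm_of_isCyclic (⟨a, ha⟩ : K') ⟨b, hb⟩
    exact congrArg Subtype.val this
  obtain ⟨fld, h0', h1', hadd, hmul⟩ := zr_exists_field z u hzu N K' hNK hcomm hKc'
    (fun c => hNex z c) (fun n hn h => hNstab n hn z h) hK'z hK't hK's
  let φ : RingAut Ω :=
    { toEquiv := MulAction.toPerm x
      map_mul' := by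
        intro c d
        show x • (c * d) = (x • c) * (x • d)
        by_cases hd : d = 0
        · subst hd
          rw [mul_zero, h0', hxz, ← h0', mul_zero]
        · have hd' : d ≠ z := by rw [← h0']; exact hd
          obtain ⟨k, hk, hku⟩ := hK't d hd'
          have h1 := hmul k hk c
          have hk2 := hK'conj x hxz k hk
          have h2 := hmul _ hk2 (x • c)
          have h4 : (x * k * x⁻¹) • u = x • d := by
            rw [mul_smul, mul_smul, hxiu, hku]
          rw [h4] at h2
          rw [h2, ← hku, h1, mul_smul, mul_smul, inv_smul_smul]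
      map_add' := by
        intro c d
        show x • (c + d) = (x • c) + (x • d)
        obtain ⟨n, hn, hnz⟩ := hNex z d
        have h1 := hadd n hn c
        have hn2 : x * n * x⁻¹ ∈ N := hN.conj_mem n hn x
        have h2 := hadd _ hn2 (x • c)
        have h4 : (x * n * x⁻¹) • z = x • d := by
          rw [mul_smul, mul_smul, hxiz, hnz]
        rw [h4] at h2
        rw [h2, ← hnz, h1, mul_smul, mul_smul, inv_smul_smul] }
  have hφapp : ∀ c : Ω, φ c = x • c := fun c => rfl
  have hφpow : ∀ (i : ℕ) (c : Ω), (φ ^ i) c = x ^ i • c := by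
    intro i c
    induction i with
    | zero => simp
    | succ i ih =>
      rw [pow_succ', pow_succ']
      show φ ((φ ^ i) c) = _
      rw [ih, hφapp, mul_smul]
  have hφr : φ ^ r = 1 := by
    apply RingEquiv.ext
    intro c
    rw [hφpow, hxr, one_smul]
    rfl
  have hφ1 : φ ≠ 1 := by
    intro h0
    apply hx1
    apply FaithfulSMul.eq_of_smul_eq_smul (α := Ω)
    intro c
    rw [one_smul, ← hφapp, h0]
    rfl
  have hfixφ : ∀ y : Ω, φ y = y → y = 0 ∨ y = 1 := by
    intro y hy
    rw [hφapp] at hy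
    by_contra hcon
    push Not at hcon
    obtain ⟨hy0, hy1⟩ := hcon
    rw [h0'] at hy0
    rw [h1'] at hy1
    exact hx1 (h3 x z u y hzu (Ne.symm hy1) (Ne.symm hy0) hxz hxu hy)
  have hfinal := zr_card_of_fixed φ hr hφr hφ1 hfixφ
  exact ⟨r, hr, by rw [← Nat.card_eq_fintype_card]; exact hfinal⟩

end Cfsg.Agent.Lib.Cl
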